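import Cfsg.Agent.BlockChar.FusionBlock

/-!
# The block of a stabilized centric subpair
-/

set_option autoImplicit false
set_option linter.unusedSectionVars false
set_option linter.style.haveILetI false

namespace Cfsg.Agent.BlockChar

open MonoidAlgebra
open scoped MonoidAlgebra Pointwise
open Cfsg Cfsg.Agent Cfsg.Agent.Blocks

universe u

variable {G : Type u} [Group G] [Fintype G] {p : ℕ} [Fact p.Prime] {M : Ideal AlgInt}
  [M.IsMaximal]

/-- The `p`-regular elements of `Q C(Q)` centralize the `p`-group `Q`. -/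
theorem mem_centralizer_of_mem_sup {Q : Subgroup G} (hQ : IsPGroup p Q) {x : G}
    (hx : x ∈ Q ⊔ Subgroup.centralizer (Q : Set G)) (hreg : ¬ p ∣ orderOf x) :
    x ∈ Subgroup.centralizer (Q : Set G) := by
  set C := Subgroup.centralizer (Q : Set G) with hC
  have hmul : ∀ y ∈ Q ⊔ C, ∃ q ∈ Q, ∃ c ∈ C, y = q * c := by
    intro y hy
    have h : (↑(Q ⊔ C) : Set G) = (Q : Set G) * (C : Set G) :=
      Subgroup.coe_mul_of_right_le_normalizer_left Q C (centralizer_le_normalizer Q)
    rw [← SetLike.mem_coe, h] at hy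
    obtain ⟨q, hq, c, hc, rfl⟩ := hy
    exact ⟨q, hq, c, hc, rfl⟩
  obtain ⟨q, hq, c, hc, rfl⟩ := hmul x hx
  obtain ⟨k, hk⟩ := hQ ⟨q, hq⟩
  have hk' : q ^ p ^ k = 1 := congrArg Subtype.val hk
  have hcq : Commute q c := Subgroup.mem_centralizer_iff.mp hc q hq
  refine mem_of_pow_mem_coprime (a := p ^ k) (b := orderOf (q * c))
    (Nat.Coprime.pow_left k ((Fact.out : p.Prime).coprime_iff_not_dvd.mpr hreg)) ?_
    (by rw [pow_orderOf_eq_one]; exact one_mem _)
  rw [hcq.mul_pow, hk', one_mul]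
  exact C.pow_mem hc _

/-- A centric subpair fixed by all of `G` gives the block and a nilpotent block of `Q C(Q)`. -/
theorem centric_local_nilpotent (hpM : (p : AlgInt) ∈ M) {B : Set (IrrCharacter G)}
    {P Q : Subgroup G} {e : Set (IrrCharacter (Subgroup.centralizer (P : Set G)))}
    {f : Set (IrrCharacter (Subgroup.centralizer (Q : Set G)))}
    {F : FusionSystem P} (hF : IsBlockFusionSystemOn p M B P e F) (hf : IsPBlock M f)
    (hle : SubpairLE p M Q f P e) (hcen : F.IsCentric Q)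
    (hG : ∀ x : G, x ∈ Subgroup.normalizer (Q : Set G) ∧
      StabilizesBlock (Subgroup.centralizer (Q : Set G)) f x) :
    (∀ g : G, MemLocalIdeal M (blockCoeff B g -
        subgroupBlockCoeff (Subgroup.centralizer (Q : Set G)) f g)) ∧
      ∃ F' : Set (IrrCharacter ↥(Q ⊔ Subgroup.centralizer (Q : Set G))), IsPBlock M F' ∧
        (∀ t : ↥(Q ⊔ Subgroup.centralizer (Q : Set G)), blockCoeff F' t =
          subgroupBlockCoeff (Subgroup.centralizer (Q : Set G)) f (t : G)) ∧
        IsNilpotentBlock p M F' := by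
  classical
  haveI := charP_res (p := p) hpM
  obtain ⟨hP, hb, ho⟩ := maximal_data hpM hF.1
  have hle' := (subpairLE_iff hpM hf hF.1.1.1.2).mp hle
  have hQ : IsPair p Q (idemS M f) := hle'.isPair_left hP.pair
  have hstab : stab Q (idemS M f) = ⊤ := top_le_iff.mp fun x _ =>
    ⟨(hG x).1, ((stabilizesBlock_iff hpM hf x).mp (hG x).2).2⟩
  have hN : ∀ K : Subgroup G, K ≤ Subgroup.normalizer (Q : Set G) := fun K x _ => (hG x).1
  have hfix : ∀ K : Subgroup G, Fixed K (idemS M f) := fun K x _ =>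
    (hstab.symm ▸ Subgroup.mem_top x : x ∈ stab Q (idemS M f)).2
  have hblk : IsBlk (⊤ : Subgroup G) (idemS M f) := hstab ▸ hQ.isBlk_stab
  refine ⟨fun g => ?_, ?_⟩
  · have hoQ : OfBlock (idemG M B) Q (idemS M f) := (hle'.ofBlock_iff hb).mpr ho
    have hself : OfBlock (idemS M f) Q (idemS M f) := by
      show br Q (idemS M f) * (idemS M f) = (idemS M f)
      rw [br_eq_self hQ.blk.supp, hQ.blk.idem]
    have heq : idemG M B = (idemS M f) :=
      (existsUnique_ofBlock hQ).unique ⟨hb, hoQ⟩ ⟨hblk, hself⟩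
    have h := congrArg (fun z => (MonoidAlgebra.coeff z) g) heq
    simp only [coeff_idemG, coeff_idemS] at h
    exact (res_eq_iff (rFun_blockCoeff hpM hF.1.1.2.1 g)
      (memR_subgroupBlockCoeff hpM hf g)).mp h
  · have hHC : (Subgroup.centralizer (Q : Set G)) ≤ (Q ⊔ Subgroup.centralizer (Q : Set G)) := le_sup_right
    obtain ⟨E, hE, hEf, hcoef⟩ := exists_block_ext hpM hHC
      ((hN (Q ⊔ Subgroup.centralizer (Q : Set G))).trans (normalizer_le_normalizer_centralizer Q)) hf
      (isBlk_of_stable hQ le_sup_left hHC (hN (Q ⊔ Subgroup.centralizer (Q : Set G))) (hfix (Q ⊔ Subgroup.centralizer (Q : Set G))))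
    refine ⟨E, hE, hcoef, ?_⟩
    have hCdef : IsDef p (Subgroup.centralizer (Q : Set G)) (idemS M f) (Q ⊓ (Subgroup.centralizer (Q : Set G))) := by
      rw [eq_blockFusion hpM hF.1 hF] at hcen
      exact (isCentric_iff hP hb ho hle').mp hcen
    have hmaxQ : ∀ R : Subgroup G, R ≤ (Q ⊔ Subgroup.centralizer (Q : Set G)) → IsPGroup p R → br R (idemS M f) ≠ 0 → R ≤ Q := by
      intro R hR hRp hne
      have hS : IsPGroup p (Q ⊔ R : Subgroup G) :=
        hQ.pgroup.to_sup_of_normal_left' hRp (hN R)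
      have hne' : br (Q ⊔ R) (idemS M f) ≠ 0 := by rwa [br_sup_eq Q R hQ.blk.supp]
      have hne2 : br ((Q ⊔ R) ⊓ (Subgroup.centralizer (Q : Set G))) (idemS M f) ≠ 0 := by
        intro h0
        apply hne'
        rw [← br_br (P := Q ⊔ R) (Q := (Q ⊔ R) ⊓ (Subgroup.centralizer (Q : Set G))) inf_le_left, h0, map_zero]
      obtain ⟨c, hc, hcle⟩ := hCdef.maximal _ inf_le_right (hS.to_le inf_le_left) hne2
      intro r hr
      have hrS : r ∈ (Q ⊔ Subgroup.centralizer (Q : Set G)) := hR hr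
      have h : (↑(Q ⊔ (Subgroup.centralizer (Q : Set G))) : Set G) = (Q : Set G) * ((Subgroup.centralizer (Q : Set G)) : Set G) :=
        Subgroup.coe_mul_of_right_le_normalizer_left Q (Subgroup.centralizer (Q : Set G)) (centralizer_le_normalizer Q)
      rw [← SetLike.mem_coe, h] at hrS
      obtain ⟨q, hq, y, hy, rfl⟩ := hrS
      refine Q.mul_mem hq ?_
      have hyS : y ∈ (Q ⊔ R) ⊓ (Subgroup.centralizer (Q : Set G)) := ⟨by
        have : y = q⁻¹ * (q * y) := by group
        rw [this]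
        exact Subgroup.mul_mem _ (Subgroup.inv_mem _ (Subgroup.mem_sup_left hq))
          (Subgroup.mem_sup_right hr), hy⟩
      have h2 := conjS_le (x := c) (inf_le_left : Q ⊓ (Subgroup.centralizer (Q : Set G)) ≤ Q) (hcle hyS)
      rwa [conjS_eq_self_of_mem_normalizer (centralizer_le_normalizer Q hc)] at h2
    have hdef : IsDef p (Q ⊔ Subgroup.centralizer (Q : Set G)) (idemS M f) Q := by
      refine ⟨le_sup_left, hQ.pgroup, ?_, fun R hR hRp hne =>
        ⟨1, one_mem _, fun r hr => mem_conjS.mpr (by simpa using hmaxQ R hR hRp hne hr)⟩⟩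
      rw [br_eq_self hQ.blk.supp]
      exact hQ.blk.ne_zero
    have hD : IsDefectGroup p M E (Q.subgroupOf (Q ⊔ Subgroup.centralizer (Q : Set G))) := by
      rw [isDefectGroup_subgroupOf_iff hpM le_sup_left hE, hEf]; exact hdef
    haveI : (Q.subgroupOf (Q ⊔ Subgroup.centralizer (Q : Set G))).Normal := Subgroup.normal_subgroupOf_of_le_normalizer (hN (Q ⊔ Subgroup.centralizer (Q : Set G)))
    refine ⟨hE, fun R g hRg x _ _ hx => ?_⟩
    have hD' := (isDefectGroup_iff_idemG hpM hE _).mp hD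
    have hne : br R (idemG M E) ≠ 0 := by
      intro h0
      have h1 : br R (idemG M E) * idemS M g = idemS M g := ofBlock_of hpM hRg
      rw [h0, zero_mul] at h1
      exact (isPair_of hpM hRg).blk.ne_zero h1.symm
    obtain ⟨y, -, hyle⟩ := hD'.maximal R le_top hRg.1.1 hne
    have hRQ : R ≤ Q.subgroupOf (Q ⊔ Subgroup.centralizer (Q : Set G)) := by
      intro r hr
      have := mem_conjS.mp (hyle hr)
      have h2 := Subgroup.Normal.conj_mem (inferInstance : (Q.subgroupOf (Q ⊔ Subgroup.centralizer (Q : Set G))).Normal) _ this y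
      simpa [mul_assoc] using h2
    have hxC : (x : G) ∈ (Subgroup.centralizer (Q : Set G)) := mem_centralizer_of_mem_sup hQ.pgroup x.2
      (by rw [Subgroup.orderOf_coe]; exact hx)
    rw [Subgroup.mem_centralizer_iff]
    intro r hr
    exact Subtype.ext (Subgroup.mem_centralizer_iff.mp hxC r (Subgroup.mem_subgroupOf.mp (hRQ hr)))

end Cfsg.Agent.BlockChar
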