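import Mathlib

/-!
A finite group with two commuting involutions, the three involutions of which have centralizers
of order at most `B`, has order bounded by a function of `B` and the two-part of its order.
-/

set_option autoImplicit false
set_option linter.unusedSectionVars false
set_option linter.style.haveILetI false

namespace Cfsg.Agent.BlockChar.FourGroupBound

universe u

open Subgroup

variable {G : Type u} [Group G] [Finite G]

/-- Centralizers of conjugate elements have the same order. -/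
theorem card_centralizer_conj_le (s x : G) :
    Nat.card (centralizer ({s * x * s⁻¹} : Set G)) ≤ Nat.card (centralizer ({x} : Set G)) := by
  refine Nat.card_le_card_of_injective
    (fun c : centralizer ({s * x * s⁻¹} : Set G) =>
      (⟨s⁻¹ * c * s, ?_⟩ : centralizer ({x} : Set G))) ?_
  · have hc := mem_centralizer_singleton_iff.mp c.2
    refine mem_centralizer_singleton_iff.mpr ?_
    calc s⁻¹ * c * s * x = s⁻¹ * ((c : G) * (s * x * s⁻¹)) * s := by group
      _ = s⁻¹ * ((s * x * s⁻¹) * c) * s := by rw [hc]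
      _ = _ := by group
  · intro c d e
    exact Subtype.ext (mul_left_cancel (mul_right_cancel (congrArg Subtype.val e)))

/-- An involution in the coset of an involution modulo an odd normal subgroup is conjugate to it. -/
theorem exists_conj_of_odd {R : Subgroup G} [R.Normal] (hR : Odd (Nat.card R)) {u z : G}
    (hu : u * u = 1) (hz : z * z = 1) (hzu : z * u ∈ R) : ∃ s : G, z = s * u * s⁻¹ := by
  have hk : (z * u) ^ Nat.card R = 1 := by
    have h := pow_card_eq_one' (x := (⟨z * u, hzu⟩ : R))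
    have h' := congrArg Subtype.val h
    rwa [SubgroupClass.coe_pow, OneMemClass.coe_one] at h'
  obtain ⟨m, hm⟩ := hR
  refine ⟨(z * u) ^ (m + 1), ?_⟩
  have hu' : u⁻¹ = u := inv_eq_of_mul_eq_one_right hu
  have hz' : z⁻¹ = z := inv_eq_of_mul_eq_one_right hz
  have hinv : MulAut.conj u (z * u) = (z * u)⁻¹ := by
    rw [MulAut.conj_apply, mul_inv_rev, hu', hz', mul_assoc, mul_assoc, hu, mul_one]
  have h2 : u * (z * u) ^ (m + 1) * u⁻¹ = ((z * u) ^ (m + 1))⁻¹ := by
    rw [← MulAut.conj_apply, map_pow, hinv, inv_pow]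
  have h3 : u * ((z * u) ^ (m + 1))⁻¹ * u⁻¹ = (z * u) ^ (m + 1) := by
    have h4 := congrArg (fun y : G => y⁻¹) h2
    simpa [mul_assoc] using h4
  have h5 : (z * u) ^ (m + 1) * (z * u) ^ (m + 1) = z * u := by
    rw [← pow_add, show m + 1 + (m + 1) = Nat.card R + 1 by omega, pow_succ, hk, one_mul]
  calc z = z * u * u := by rw [mul_assoc, hu, mul_one]
    _ = (z * u) ^ (m + 1) * (z * u) ^ (m + 1) * u := by rw [h5]
    _ = (z * u) ^ (m + 1) * (u * ((z * u) ^ (m + 1))⁻¹ * u⁻¹) * u := by rw [h3]
    _ = _ := by group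

/-- An odd normal subgroup is bounded by the three centralizers. -/
theorem card_odd_normal_le {R : Subgroup G} [R.Normal] (hR : Odd (Nat.card R)) {v w : G}
    (hv : v * v = 1) (hw : w * w = 1) (hvw : v * w = w * v) {B : ℕ}
    (hBv : Nat.card (centralizer ({v} : Set G)) ≤ B)
    (hBw : Nat.card (centralizer ({w} : Set G)) ≤ B)
    (hBu : Nat.card (centralizer ({v * w} : Set G)) ≤ B) : Nat.card R ≤ B ^ 3 := by
  classical
  haveI := Fintype.ofFinite G
  haveI := Fintype.ofFinite R
  set T := (Finset.univ : Finset R).image (fun a : R => (a : G) * w * (a : G)⁻¹) with hT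
  have hfib : Fintype.card R ≤ B * T.card := by
    rw [← Finset.card_univ]
    refine Finset.card_le_mul_card_image _ B fun y hy => ?_
    obtain ⟨a₀, -, rfl⟩ := Finset.mem_image.mp hy
    refine le_trans ?_ hBw
    rw [Nat.card_eq_fintype_card, ← Finset.card_univ]
    refine Finset.card_le_card_of_injOn
      (fun a : R => if h : (a₀ : G)⁻¹ * a ∈ centralizer ({w} : Set G) then ⟨_, h⟩ else 1)
      (fun a _ => Finset.mem_univ _) ?_
    intro a ha b hb e
    have hmem : ∀ c : R, (c : G) * w * (c : G)⁻¹ = (a₀ : G) * w * (a₀ : G)⁻¹ →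
        (a₀ : G)⁻¹ * c ∈ centralizer ({w} : Set G) := fun c hc => by
      refine mem_centralizer_singleton_iff.mpr ?_
      calc (a₀ : G)⁻¹ * c * w = (a₀ : G)⁻¹ * ((c : G) * w * (c : G)⁻¹) * c := by group
        _ = _ := by rw [hc]; group
    simp only [Finset.coe_filter, Finset.mem_univ, true_and, Set.mem_setOf_eq] at ha hb
    simp only [dif_pos (hmem a ha), dif_pos (hmem b hb)] at e
    exact Subtype.ext (mul_left_cancel (congrArg Subtype.val e))
  -- the central involution of the dihedral group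
  have hz : ∀ y ∈ T, ∃ z : G, z * z = 1 ∧ z * (v * w) ∈ R ∧ z * v = v * z ∧ z * y = y * z := by
    intro y hy
    obtain ⟨a, -, rfl⟩ := Finset.mem_image.mp hy
    obtain ⟨y, hydef⟩ : ∃ y, y = (a : G) * w * (a : G)⁻¹ := ⟨_, rfl⟩
    rw [← hydef]
    have hy2 : y * y = 1 := by
      rw [hydef]
      calc (a : G) * w * (a : G)⁻¹ * ((a : G) * w * (a : G)⁻¹) = (a : G) * (w * w) * (a : G)⁻¹ := by
            group
        _ = 1 := by rw [hw]; group
    have hmk : ((v * y : G) : G ⧸ R) = ((v * w : G) : G ⧸ R) := by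
      rw [hydef]
      simp [(QuotientGroup.eq_one_iff (a : G)).mpr a.2]
    have hu2 : (v * w) * (v * w) = 1 := by
      rw [show v * w * (v * w) = v * (w * v) * w by group, ← hvw,
        show v * (v * w) * w = (v * v) * (w * w) by group, hv, hw, one_mul]
    have hv' : v⁻¹ = v := inv_eq_of_mul_eq_one_right hv
    have hy' : y⁻¹ = y := inv_eq_of_mul_eq_one_right hy2
    obtain ⟨m, hm⟩ := hR
    have hsq : (v * y) ^ 2 ∈ R := by
      rw [← QuotientGroup.eq_one_iff, QuotientGroup.mk_pow, hmk, pow_two, ← QuotientGroup.mk_mul,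
        hu2, QuotientGroup.mk_one]
    have hsqk : ((v * y) ^ 2) ^ Nat.card R = 1 := by
      have h := pow_card_eq_one' (x := (⟨_, hsq⟩ : R))
      have h' := congrArg Subtype.val h
      rwa [SubgroupClass.coe_pow, OneMemClass.coe_one] at h'
    refine ⟨(v * y) ^ Nat.card R, ?_, ?_, ?_, ?_⟩
    · rw [← pow_add, ← two_mul, pow_mul, hsqk]
    · rw [← QuotientGroup.eq_one_iff, QuotientGroup.mk_mul, QuotientGroup.mk_pow, hmk, ← pow_succ,
        hm, show 2 * m + 1 + 1 = 2 * (m + 1) by ring, pow_mul, pow_two, ← QuotientGroup.mk_mul,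
        hu2, QuotientGroup.mk_one, one_pow]
    all_goals have hinvz : ((v * y) ^ Nat.card R)⁻¹ = (v * y) ^ Nat.card R :=
      inv_eq_of_mul_eq_one_right (by rw [← pow_add, ← two_mul, pow_mul, hsqk])
    · have h1 : MulAut.conj v (v * y) = (v * y)⁻¹ := by
        rw [MulAut.conj_apply, mul_inv_rev, hy', hv', ← mul_assoc v v y, hv, one_mul]
      have h2 : MulAut.conj v ((v * y) ^ Nat.card R) = (v * y) ^ Nat.card R := by
        rw [map_pow, h1, inv_pow, hinvz]
      rw [MulAut.conj_apply, mul_inv_eq_iff_eq_mul] at h2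
      exact h2.symm
    · have h1 : MulAut.conj y (v * y) = (v * y)⁻¹ := by
        rw [MulAut.conj_apply, hy', mul_inv_rev, hy', hv', mul_assoc, mul_assoc, hy2, mul_one]
      have h2 : MulAut.conj y ((v * y) ^ Nat.card R) = (v * y) ^ Nat.card R := by
        rw [map_pow, h1, inv_pow, hinvz]
      rw [MulAut.conj_apply, mul_inv_eq_iff_eq_mul] at h2
      exact h2.symm
  choose! f hf1 hf2 hf3 hf4 using hz
  have hTcard : T.card ≤ B * (T.image f).card := by
    refine Finset.card_le_mul_card_image _ B fun z hz => ?_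
    obtain ⟨y₀, hy₀, rfl⟩ := Finset.mem_image.mp hz
    have hu2 : (v * w) * (v * w) = 1 := by
      rw [show v * w * (v * w) = v * (w * v) * w by group, ← hvw,
        show v * (v * w) * w = (v * v) * (w * w) by group, hv, hw, one_mul]
    obtain ⟨s, hs⟩ := exists_conj_of_odd hR hu2 (hf1 y₀ hy₀) (hf2 y₀ hy₀)
    refine le_trans ?_ ((card_centralizer_conj_le s (v * w)).trans hBu)
    rw [← hs, Nat.card_eq_fintype_card, ← Finset.card_univ]
    refine Finset.card_le_card_of_injOn
      (fun y : G => if h : y ∈ centralizer ({f y₀} : Set G) then ⟨_, h⟩ else 1)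
      (fun y _ => Finset.mem_univ _) ?_
    intro a ha b hb e
    simp only [Finset.coe_filter, Set.mem_setOf_eq] at ha hb
    have hmem : ∀ y ∈ T, f y = f y₀ → y ∈ centralizer ({f y₀} : Set G) := fun y hy he =>
      mem_centralizer_singleton_iff.mpr (he ▸ (hf4 y hy).symm)
    simp only [dif_pos (hmem a ha.1 ha.2), dif_pos (hmem b hb.1 hb.2)] at e
    exact congrArg Subtype.val e
  have hZ : (T.image f).card ≤ B := by
    refine le_trans ?_ hBv
    rw [Nat.card_eq_fintype_card, ← Finset.card_univ]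
    refine Finset.card_le_card_of_injOn
      (fun z : G => if h : z ∈ centralizer ({v} : Set G) then ⟨_, h⟩ else 1)
      (fun z _ => Finset.mem_univ _) ?_
    intro a ha b hb e
    have hmem : ∀ z ∈ T.image f, z ∈ centralizer ({v} : Set G) := by
      intro z hz
      obtain ⟨y, hy, rfl⟩ := Finset.mem_image.mp hz
      exact mem_centralizer_singleton_iff.mpr (hf3 y hy)
    simp only [dif_pos (hmem a ha), dif_pos (hmem b hb)] at e
    exact congrArg Subtype.val e
  rw [Nat.card_eq_fintype_card]
  calc Fintype.card R ≤ B * T.card := hfib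
    _ ≤ B * (B * (T.image f).card) := Nat.mul_le_mul_left _ hTcard
    _ ≤ B * (B * B) := Nat.mul_le_mul_left _ (Nat.mul_le_mul_left _ hZ)
    _ = B ^ 3 := by ring

/-- Brauer–Fowler: some non-trivial element has centralizer of small index. -/
theorem exists_small_index {v : G} (hv : v * v = 1) {B : ℕ}
    (hB : Nat.card (centralizer ({v} : Set G)) ≤ B) (hbig : 2 * B ^ 2 < Nat.card G) :
    ∃ g : G, g ≠ 1 ∧ (centralizer ({g} : Set G)).index ≤ 2 * B ^ 2 := by
  classical
  by_contra hcon
  push Not at hcon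
  haveI := Fintype.ofFinite G
  set T := (Finset.univ : Finset G).image (fun a => a * v * a⁻¹) with hT
  have hinv : ∀ x ∈ T, x * x = 1 := by
    intro x hx
    obtain ⟨a, -, rfl⟩ := Finset.mem_image.mp hx
    calc a * v * a⁻¹ * (a * v * a⁻¹) = a * (v * v) * a⁻¹ := by group
      _ = 1 := by rw [hv]; group
  have hn : Nat.card G ≤ B * T.card := by
    rw [Nat.card_eq_fintype_card, ← Finset.card_univ]
    refine Finset.card_le_mul_card_image _ B fun y hy => ?_
    obtain ⟨a₀, -, rfl⟩ := Finset.mem_image.mp hy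
    refine le_trans ?_ hB
    rw [Nat.card_eq_fintype_card, ← Finset.card_univ]
    refine Finset.card_le_card_of_injOn
      (fun a : G => if h : a₀⁻¹ * a ∈ centralizer ({v} : Set G) then ⟨_, h⟩ else 1)
      (fun a _ => Finset.mem_univ _) ?_
    intro a ha b hb e
    have hmem : ∀ c : G, c * v * c⁻¹ = a₀ * v * a₀⁻¹ →
        a₀⁻¹ * c ∈ centralizer ({v} : Set G) := fun c hc => by
      refine mem_centralizer_singleton_iff.mpr ?_
      calc a₀⁻¹ * c * v = a₀⁻¹ * (c * v * c⁻¹) * c := by group
        _ = _ := by rw [hc]; group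
    simp only [Finset.coe_filter, Finset.mem_univ, true_and, Set.mem_setOf_eq] at ha hb
    simp only [dif_pos (hmem a ha), dif_pos (hmem b hb)] at e
    exact mul_left_cancel (congrArg Subtype.val e)
  -- representations as a product of two involutions of the class
  have hrep : ∀ g : G, g ≠ 1 →
      ((T ×ˢ T).filter fun x => x.1 * x.2 = g).card ≤ Nat.card (centralizer ({g} : Set G)) := by
    intro g _
    rcases Finset.eq_empty_or_nonempty ((T ×ˢ T).filter fun x => x.1 * x.2 = g) with h | ⟨x₀, hx₀⟩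
    · rw [h, Finset.card_empty]; exact Nat.zero_le _
    have hflip : ∀ x ∈ (T ×ˢ T).filter (fun x => x.1 * x.2 = g), x.1 * g * x.1⁻¹ = g⁻¹ := by
      intro x hx
      obtain ⟨h1, h2⟩ := Finset.mem_filter.mp hx
      obtain ⟨ha, hb⟩ := Finset.mem_product.mp h1
      rw [← h2, mul_inv_rev, inv_eq_of_mul_eq_one_right (hinv _ ha),
        inv_eq_of_mul_eq_one_right (hinv _ hb), ← mul_assoc, hinv _ ha, one_mul]
    rw [Nat.card_eq_fintype_card, ← Finset.card_univ]
    refine Finset.card_le_card_of_injOn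
      (fun x : G × G => if h : x₀.1⁻¹ * x.1 ∈ centralizer ({g} : Set G) then ⟨_, h⟩ else 1)
      (fun a _ => Finset.mem_univ _) ?_
    intro a ha b hb e
    have hmem : ∀ x ∈ (T ×ˢ T).filter (fun x => x.1 * x.2 = g),
        x₀.1⁻¹ * x.1 ∈ centralizer ({g} : Set G) := fun x hx => by
      refine mem_centralizer_singleton_iff.mpr ?_
      calc x₀.1⁻¹ * x.1 * g = x₀.1⁻¹ * (x.1 * g * x.1⁻¹) * x.1 := by group
        _ = x₀.1⁻¹ * (x₀.1 * g * x₀.1⁻¹) * x.1 := by rw [hflip x hx, hflip x₀ hx₀]
        _ = _ := by group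
    simp only [dif_pos (hmem a ha), dif_pos (hmem b hb)] at e
    have h1 : a.1 = b.1 := mul_left_cancel (congrArg Subtype.val e)
    have ha' := (Finset.mem_filter.mp (Finset.mem_coe.mp ha)).2
    have hb' := (Finset.mem_filter.mp (Finset.mem_coe.mp hb)).2
    exact Prod.ext h1 (mul_left_cancel (h1 ▸ ha'.trans hb'.symm))
  have hone : ((T ×ˢ T).filter fun x => x.1 * x.2 = 1).card ≤ Nat.card G := by
    rw [Nat.card_eq_fintype_card, ← Finset.card_univ]
    refine Finset.card_le_card_of_injOn Prod.fst (fun a _ => Finset.mem_univ _) ?_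
    intro a ha b hb e
    have ha' := (Finset.mem_filter.mp (Finset.mem_coe.mp ha)).2
    have hb' := (Finset.mem_filter.mp (Finset.mem_coe.mp hb)).2
    exact Prod.ext e (mul_left_cancel (e ▸ ha'.trans hb'.symm))
  have hsplit := Finset.card_eq_sum_card_fiberwise (s := T ×ˢ T) (t := (Finset.univ : Finset G))
    (f := fun x => x.1 * x.2) (fun _ _ => Finset.mem_univ _)
  rw [Finset.card_product, ← Finset.add_sum_erase _ _ (Finset.mem_univ (1 : G))] at hsplit
  have hsum : 2 * B ^ 2 * ∑ g ∈ (Finset.univ : Finset G).erase 1,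
      ((T ×ˢ T).filter fun x => x.1 * x.2 = g).card ≤ (Nat.card G - 1) * Nat.card G := by
    rw [Finset.mul_sum]
    refine le_trans (Finset.sum_le_card_nsmul _ _ (Nat.card G) fun g hg => ?_) ?_
    · have hg1 := (Finset.mem_erase.mp hg).1
      calc 2 * B ^ 2 * ((T ×ˢ T).filter fun x => x.1 * x.2 = g).card
          ≤ (centralizer ({g} : Set G)).index * Nat.card (centralizer ({g} : Set G)) :=
            Nat.mul_le_mul (hcon g hg1).le (hrep g hg1)
        _ = Nat.card G := Subgroup.index_mul_card _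
    · rw [Finset.card_erase_of_mem (Finset.mem_univ _), Finset.card_univ, Nat.card_eq_fintype_card,
        smul_eq_mul]
  have hn1 : 0 < Nat.card G := Nat.card_pos
  have key : 2 * B ^ 2 * (T.card * T.card) ≤ 2 * B ^ 2 * Nat.card G + Nat.card G * Nat.card G := by
    rw [hsplit, mul_add]
    exact Nat.add_le_add (Nat.mul_le_mul_left _ hone)
      (hsum.trans (Nat.mul_le_mul_right _ (Nat.sub_le _ _)))
  have h2 : 2 * (Nat.card G * Nat.card G) ≤ 2 * B ^ 2 * (T.card * T.card) := by
    calc 2 * (Nat.card G * Nat.card G) ≤ 2 * ((B * T.card) * (B * T.card)) :=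
          Nat.mul_le_mul_left _ (Nat.mul_le_mul hn hn)
      _ = _ := by ring
  have h3 : Nat.card G * Nat.card G ≤ 2 * B ^ 2 * Nat.card G := by omega
  exact absurd (Nat.le_of_mul_le_mul_right h3 hn1) (not_le.mpr hbig)

/-- The centralizer in a quotient is no larger. -/
theorem card_centralizer_mk_le (M : Subgroup G) [M.Normal] (v : G) :
    Nat.card (centralizer ({(v : G ⧸ M)} : Set (G ⧸ M))) ≤
      Nat.card (centralizer ({v} : Set G)) := by
  classical
  haveI := Fintype.ofFinite G
  set X := Finset.univ.filter (fun x : G => x * v * x⁻¹ * v⁻¹ ∈ M) with hX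
  have h1 : Nat.card (centralizer ({(v : G ⧸ M)} : Set (G ⧸ M))) * Nat.card M ≤ X.card := by
    rw [← Nat.card_prod, ← Nat.card_eq_finsetCard]
    refine Nat.card_le_card_of_injective
      (fun q : centralizer ({(v : G ⧸ M)} : Set (G ⧸ M)) × M =>
        (⟨(q.1 : G ⧸ M).out * q.2, ?_⟩ : X)) ?_
    · refine Finset.mem_filter.mpr ⟨Finset.mem_univ _, (QuotientGroup.eq_one_iff _).mp ?_⟩
      simp only [QuotientGroup.mk_mul, QuotientGroup.mk_inv, QuotientGroup.out_eq',
        (QuotientGroup.eq_one_iff (q.2 : G)).mpr q.2.2, mul_one]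
      rw [mem_centralizer_singleton_iff.mp q.1.2]
      group
    · rintro ⟨a, m⟩ ⟨b, n⟩ e
      have e' : (a : G ⧸ M).out * m = (b : G ⧸ M).out * n := congrArg Subtype.val e
      have hab : (a : G ⧸ M) = b := by
        have := congrArg (QuotientGroup.mk : G → G ⧸ M) e'
        simpa [(QuotientGroup.eq_one_iff (m : G)).mpr m.2,
          (QuotientGroup.eq_one_iff (n : G)).mpr n.2] using this
      rw [hab] at e'
      exact Prod.ext (Subtype.ext hab) (Subtype.ext (mul_left_cancel e'))
  have h2 : X.card ≤ Nat.card (centralizer ({v} : Set G)) *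
      (X.image fun x => x * v * x⁻¹ * v⁻¹).card := by
    refine Finset.card_le_mul_card_image _ _ fun y hy => ?_
    obtain ⟨a₀, -, rfl⟩ := Finset.mem_image.mp hy
    rw [Nat.card_eq_fintype_card, ← Finset.card_univ]
    refine Finset.card_le_card_of_injOn
      (fun a : G => if h : a₀⁻¹ * a ∈ centralizer ({v} : Set G) then ⟨_, h⟩ else 1)
      (fun a _ => Finset.mem_univ _) ?_
    intro a ha b hb e
    have hmem : ∀ c : G, c * v * c⁻¹ * v⁻¹ = a₀ * v * a₀⁻¹ * v⁻¹ →
        a₀⁻¹ * c ∈ centralizer ({v} : Set G) := fun c hc => by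
      refine mem_centralizer_singleton_iff.mpr ?_
      calc a₀⁻¹ * c * v = a₀⁻¹ * (c * v * c⁻¹ * v⁻¹) * v * c := by group
        _ = _ := by rw [hc]; group
    simp only [Finset.coe_filter, Set.mem_setOf_eq] at ha hb
    simp only [dif_pos (hmem a ha.2), dif_pos (hmem b hb.2)] at e
    exact mul_left_cancel (congrArg Subtype.val e)
  have h3 : (X.image fun x => x * v * x⁻¹ * v⁻¹).card ≤ Nat.card M := by
    rw [← Nat.card_eq_finsetCard]
    refine Nat.card_le_card_of_injective
      (fun y : (X.image fun x => x * v * x⁻¹ * v⁻¹ : Finset G) => (⟨y.1, ?_⟩ : M))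
      (fun a b e => Subtype.ext (congrArg (fun z : M => (z : G)) e))
    obtain ⟨x, hx, hxy⟩ := Finset.mem_image.mp y.2
    exact hxy ▸ (Finset.mem_filter.mp hx).2
  exact Nat.le_of_mul_le_mul_right ((h1.trans h2).trans (Nat.mul_le_mul_left _ h3)) Nat.card_pos

/-- A normal subgroup in which an element lies bounds the group. -/
theorem card_le_of_mem_normal (M : Subgroup G) [M.Normal] {v : G} (hv : v ∈ M) :
    Nat.card G ≤ Nat.card (centralizer ({v} : Set G)) * Nat.card M := by
  classical
  haveI := Fintype.ofFinite G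
  haveI := Fintype.ofFinite M
  rw [Nat.card_eq_fintype_card (α := M), Nat.card_eq_fintype_card (α := G), ← Finset.card_univ,
    ← Finset.card_univ]
  refine le_trans (Finset.card_le_mul_card_image
    (f := fun x : G => (⟨x * v * x⁻¹, Subgroup.Normal.conj_mem inferInstance v hv x⟩ : M)) _
    (Nat.card (centralizer ({v} : Set G))) fun y hy => ?_)
    (Nat.mul_le_mul_left _ (Finset.card_le_univ _))
  obtain ⟨a₀, -, rfl⟩ := Finset.mem_image.mp hy
  rw [Nat.card_eq_fintype_card, ← Finset.card_univ]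
  refine Finset.card_le_card_of_injOn
    (fun a : G => if h : a₀⁻¹ * a ∈ centralizer ({v} : Set G) then ⟨_, h⟩ else 1)
    (fun a _ => Finset.mem_univ _) ?_
  intro a ha b hb e
  have hmem : ∀ c : G, c * v * c⁻¹ = a₀ * v * a₀⁻¹ →
      a₀⁻¹ * c ∈ centralizer ({v} : Set G) := fun c hc => by
    refine mem_centralizer_singleton_iff.mpr ?_
    calc a₀⁻¹ * c * v = a₀⁻¹ * (c * v * c⁻¹) * c := by group
      _ = _ := by rw [hc]; group
  simp only [Finset.coe_filter, Finset.mem_univ, true_and, Set.mem_setOf_eq] at ha hb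
  simp only [dif_pos (hmem a (congrArg Subtype.val ha)), dif_pos (hmem b (congrArg Subtype.val hb))] at e
  exact mul_left_cancel (congrArg Subtype.val e)

/-- An abelian normal subgroup. -/
theorem card_abelian_normal_le {A : Subgroup G} [A.Normal] (hA : ∀ x ∈ A, ∀ y ∈ A, x * y = y * x)
    {v w : G} (hv : v * v = 1) (hw : w * w = 1) (hvw : v * w = w * v) {a B : ℕ}
    (ha : (Nat.card G).factorization 2 ≤ a)
    (hBv : Nat.card (centralizer ({v} : Set G)) ≤ B)
    (hBw : Nat.card (centralizer ({w} : Set G)) ≤ B)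
    (hBu : Nat.card (centralizer ({v * w} : Set G)) ≤ B) : Nat.card A ≤ 2 ^ a * B ^ 3 := by
  letI : CommGroup A :=
    { (inferInstance : Group A) with mul_comm := fun x y => Subtype.ext (hA x x.2 y y.2) }
  set e := (Nat.card A).factorization 2 with he
  set m := Nat.card A / 2 ^ e with hm
  have hmA : 2 ^ e * m = Nat.card A := Nat.ordProj_mul_ordCompl_eq_self _ 2
  have hmodd : ¬ 2 ∣ m := Nat.not_dvd_ordCompl Nat.prime_two Nat.card_pos.ne'
  have hea : 2 ^ e ≤ 2 ^ a := by
    refine Nat.pow_le_pow_right (by norm_num) (le_trans ?_ ha)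
    exact (Nat.factorization_le_iff_dvd Nat.card_pos.ne' Nat.card_pos.ne').mpr
      A.card_subgroup_dvd_card 2
  set A' : Subgroup G := (powMonoidHom m : A →* A).ker.map A.subtype with hA'
  haveI : A'.Normal := by
    refine ⟨fun x hx g => ?_⟩
    obtain ⟨y, hy, rfl⟩ := hx
    refine ⟨⟨g * y * g⁻¹, Subgroup.Normal.conj_mem inferInstance _ y.2 g⟩, ?_, rfl⟩
    have hy' : y ^ m = 1 := hy
    show (_ : A) ^ m = 1
    refine Subtype.ext ?_
    simp only [SubgroupClass.coe_pow, conj_pow]
    rw [← SubgroupClass.coe_pow, hy']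
    simp
  have hodd : Odd (Nat.card A') := by
    rw [← Nat.not_even_iff_odd, even_iff_two_dvd]
    intro h
    haveI : Fact (Nat.Prime 2) := ⟨Nat.prime_two⟩
    obtain ⟨x, hx⟩ := exists_prime_orderOf_dvd_card' 2 h
    obtain ⟨y, hy, hyx⟩ := x.2
    have hy' : y ^ m = 1 := hy
    have hyx' : (y : G) = (x : G) := hyx
    refine hmodd (hx ▸ ?_)
    rw [← Subgroup.orderOf_coe, ← hyx', Subgroup.orderOf_coe]
    exact orderOf_dvd_of_pow_eq_one hy'
  have hcard : m ≤ Nat.card A' := by
    rw [hA', Subgroup.card_map_of_injective A.subtype_injective]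
    haveI : Fact (Nat.Prime 2) := ⟨Nat.prime_two⟩
    obtain ⟨S⟩ := (inferInstance : Nonempty (Sylow 2 A))
    obtain ⟨K, hK⟩ := Subgroup.exists_right_complement'_of_coprime (N := (S : Subgroup A))
      S.card_coprime_index
    have hKc : Nat.card K = m := by
      refine Nat.eq_of_mul_eq_mul_left (Nat.two_pow_pos e) ?_
      rw [hmA, he, ← S.card_eq_multiplicity]
      exact hK.card_mul
    rw [← hKc]
    refine Subgroup.card_le_of_le fun k hk => ?_
    show k ^ Nat.card K = 1
    exact congrArg Subtype.val (pow_card_eq_one' (x := (⟨k, hk⟩ : K)))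
  rw [← hmA]
  exact Nat.mul_le_mul hea (hcard.trans (card_odd_normal_le hodd hv hw hvw hBv hBw hBu))

/-- A bounded normal subgroup. -/
theorem exists_small_normal {v w : G} (hv : v * v = 1) (hw : w * w = 1) (hvw : v * w = w * v)
    {a B : ℕ} (ha : (Nat.card G).factorization 2 ≤ a)
    (hBv : Nat.card (centralizer ({v} : Set G)) ≤ B)
    (hBw : Nat.card (centralizer ({w} : Set G)) ≤ B)
    (hBu : Nat.card (centralizer ({v * w} : Set G)) ≤ B) (hbig : 2 * B ^ 2 < Nat.card G) :
    ∃ M : Subgroup G, M.Normal ∧ M ≠ ⊥ ∧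
      Nat.card M ≤ 2 ^ a * B ^ 3 * (2 * B ^ 2).factorial := by
  obtain ⟨g, hg1, hg⟩ := exists_small_index hv hBv hbig
  set C := centralizer ({g} : Set G)
  set N := C.normalCore with hN
  set M := centralizer (N : Set G) with hM
  have hgM : g ∈ M := mem_centralizer_iff.mpr fun n hn =>
    mem_centralizer_singleton_iff.mp (Subgroup.normalCore_le C hn)
  haveI hMn : M.Normal := by rw [hM]; infer_instance
  refine ⟨M, hMn, fun h => hg1 (by rw [h, mem_bot] at hgM; exact hgM), ?_⟩
  have hidx : N.index ≤ (2 * B ^ 2).factorial := by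
    refine le_trans ?_ (Nat.factorial_le hg)
    refine Nat.le_of_dvd (Nat.factorial_pos _) ?_
    rw [hN, Subgroup.normalCore_eq_ker, Subgroup.index_ker, Subgroup.index, ← Nat.card_perm]
    exact Subgroup.card_subgroup_dvd_card _
  have habel : ∀ x ∈ M ⊓ N, ∀ y ∈ M ⊓ N, x * y = y * x := fun x hx y hy =>
    ((mem_centralizer_iff.mp hx.1) y hy.2).symm
  have h1 : Nat.card M ≤ Nat.card (M ⊓ N : Subgroup G) * N.index := by
    classical
    haveI := Fintype.ofFinite G
    rw [Subgroup.index, ← Nat.card_prod]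
    have hdec : ∀ x : M, ∃ q : G ⧸ N, ((x : G) : G ⧸ N) = q := fun x => ⟨_, rfl⟩
    let sel : G ⧸ N → G := fun q =>
      if h : ∃ x ∈ M, ((x : G) : G ⧸ N) = q then h.choose else 1
    refine Nat.card_le_card_of_injective
      (fun x : M => ((⟨(sel ((x : G) : G ⧸ N))⁻¹ * x, ?_⟩ : (M ⊓ N : Subgroup G)),
        ((x : G) : G ⧸ N))) ?_
    · have h : ∃ y ∈ M, ((y : G) : G ⧸ N) = ((x : G) : G ⧸ N) := ⟨x, x.2, rfl⟩
      have hsel : sel ((x : G) : G ⧸ N) = h.choose := dif_pos h
      refine ⟨M.mul_mem (M.inv_mem ?_) x.2, ?_⟩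
      · rw [hsel]; exact h.choose_spec.1
      · show _ ∈ N
        rw [← QuotientGroup.eq_one_iff, QuotientGroup.mk_mul, QuotientGroup.mk_inv,
          hsel, h.choose_spec.2, inv_mul_cancel]
    · intro x y e
      have e2 : ((x : G) : G ⧸ N) = ((y : G) : G ⧸ N) := congrArg Prod.snd e
      have e1 : (sel ((x : G) : G ⧸ N))⁻¹ * x = (sel ((y : G) : G ⧸ N))⁻¹ * y :=
        congrArg Subtype.val (congrArg Prod.fst e)
      rw [e2] at e1
      exact Subtype.ext (mul_left_cancel e1)
  exact h1.trans (Nat.mul_le_mul (card_abelian_normal_le habel hv hw hvw ha hBv hBw hBu) hidx)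

/-- The bound. -/
theorem exists_bound (B : ℕ) : ∀ a : ℕ, ∃ N : ℕ, ∀ (G : Type u) [Group G] [Finite G],
    (Nat.card G).factorization 2 ≤ a → ∀ v w : G, v * v = 1 → w * w = 1 → v * w = w * v →
      v ≠ 1 → w ≠ 1 → v ≠ w → Nat.card (centralizer ({v} : Set G)) ≤ B →
      Nat.card (centralizer ({w} : Set G)) ≤ B → Nat.card (centralizer ({v * w} : Set G)) ≤ B →
      Nat.card G ≤ N := by
  intro a
  induction a with
  | zero =>
    refine ⟨0, fun G _ _ ha v w hv hw hvw hv1 _ _ _ _ _ => ?_⟩
    exfalso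
    have h2 : orderOf v = 2 := orderOf_eq_prime (by rw [pow_two, hv]) hv1
    have h3 : 2 ∣ Nat.card G := h2 ▸ orderOf_dvd_natCard v
    have := Nat.prime_two.factorization_pos_of_dvd Nat.card_pos.ne' h3
    omega
  | succ a ih =>
    obtain ⟨N₀, hN₀⟩ := ih
    set Q := 2 ^ (a + 1) * B ^ 3 * (2 * B ^ 2).factorial with hQ
    refine ⟨B ^ 3 * (2 * B ^ 2 + B * Q + Q * N₀), fun G _ _ ha v w hv hw hvw hv1 hw1 hne hBv hBw hBu => ?_⟩
    classical
    -- a largest odd normal subgroup
    haveI : Nonempty {R : Subgroup G // R.Normal ∧ Odd (Nat.card R)} :=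
      ⟨⟨⊥, inferInstance, by rw [Subgroup.card_bot]; exact odd_one⟩⟩
    obtain ⟨⟨R, hRn, hRodd⟩, hmax⟩ := Finite.exists_max
      (fun R : {R : Subgroup G // R.Normal ∧ Odd (Nat.card R)} => Nat.card R.1)
    haveI := hRn
    have hnotR : ∀ x : G, x * x = 1 → x ≠ 1 → (x : G ⧸ R) ≠ 1 := by
      intro x hx hx1 h
      rw [QuotientGroup.eq_one_iff] at h
      have h2 : orderOf x = 2 := orderOf_eq_prime (by rw [pow_two, hx]) hx1
      have h3 : 2 ∣ Nat.card R := by
        rw [← h2, ← Subgroup.orderOf_mk x h]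
        exact orderOf_dvd_natCard _
      exact (Nat.not_even_iff_odd.mpr hRodd) (even_iff_two_dvd.mpr h3)
    have hu2 : (v * w) * (v * w) = 1 := by
      rw [show v * w * (v * w) = v * (w * v) * w by group, ← hvw,
        show v * (v * w) * w = (v * v) * (w * w) by group, hv, hw, one_mul]
    have hu1 : v * w ≠ 1 := fun h => hne (by
      rw [mul_eq_one_iff_eq_inv] at h
      rw [h, inv_eq_of_mul_eq_one_right hw])
    set v' : G ⧸ R := (v : G ⧸ R) with hv'
    set w' : G ⧸ R := (w : G ⧸ R) with hw'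
    have hcv := (card_centralizer_mk_le R v).trans hBv
    have hcw := (card_centralizer_mk_le R w).trans hBw
    have hcu : Nat.card (centralizer ({v' * w'} : Set (G ⧸ R))) ≤ B :=
      (card_centralizer_mk_le R (v * w)).trans hBu
    have hsq : ∀ x : G, x * x = 1 → (x : G ⧸ R) * (x : G ⧸ R) = 1 := fun x hx => by
      rw [← QuotientGroup.mk_mul, hx, QuotientGroup.mk_one]
    have hfac : (Nat.card (G ⧸ R)).factorization 2 ≤ a + 1 := by
      refine le_trans ?_ ha
      exact (Nat.factorization_le_iff_dvd Nat.card_pos.ne' Nat.card_pos.ne').mpr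
        R.card_quotient_dvd_card 2
    have hR3 := card_odd_normal_le hRodd hv hw hvw hBv hBw hBu
    rw [Subgroup.card_eq_card_quotient_mul_card_subgroup R, mul_comm]
    refine Nat.mul_le_mul hR3 ?_
    by_cases hsmall : Nat.card (G ⧸ R) ≤ 2 * B ^ 2
    · omega
    push Not at hsmall
    have hvw' : v' * w' = w' * v' := by
      rw [hv', hw', ← QuotientGroup.mk_mul, hvw, QuotientGroup.mk_mul]
    obtain ⟨M, hMn, hMne, hMcard⟩ :=
      exists_small_normal (hsq v hv) (hsq w hw) hvw' hfac hcv hcw hcu hsmall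
    haveI := hMn
    have hMeven : 2 ∣ Nat.card M := by
      by_contra hodd
      set M' := M.comap (QuotientGroup.mk' R) with hM'
      have hM'n : M'.Normal := inferInstance
      have hRM' : R ≤ M' := fun r hr => by
        show ((r : G) : G ⧸ R) ∈ M
        rw [(QuotientGroup.eq_one_iff r).mpr hr]
        exact M.one_mem
      have hM'card : Nat.card M' = Nat.card M * Nat.card R := by
        have h1 := Subgroup.card_mul_index M'
        have h2 := Subgroup.card_mul_index M
        rw [hM', Subgroup.index_comap_of_surjective _ (QuotientGroup.mk'_surjective R)] at h1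
        rw [Subgroup.card_eq_card_quotient_mul_card_subgroup R, ← h2,
          mul_right_comm (Nat.card M)] at h1
        exact Nat.eq_of_mul_eq_mul_right (Nat.pos_of_ne_zero Subgroup.index_ne_zero_of_finite) h1
      have hM'odd : Odd (Nat.card M') := by
        rw [hM'card]
        refine Odd.mul ?_ hRodd
        rw [← Nat.not_even_iff_odd, even_iff_two_dvd]
        exact hodd
      have h3 : Nat.card M' ≤ Nat.card R := hmax ⟨M', hM'n, hM'odd⟩
      have h4 : Nat.card M = 1 := by
        rw [hM'card] at h3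
        have := Nat.card_pos (α := M)
        have := Nat.le_of_mul_le_mul_right (by rwa [one_mul] : Nat.card M * Nat.card R ≤ 1 * Nat.card R)
          Nat.card_pos
        omega
      exact hMne (Subgroup.card_eq_one.mp h4)
    have hin : ∀ x : G ⧸ R, x ∈ M → Nat.card (centralizer ({x} : Set (G ⧸ R))) ≤ B →
        Nat.card (G ⧸ R) ≤ B * Q :=
      fun x hx hxB => (card_le_of_mem_normal M hx).trans (Nat.mul_le_mul hxB hMcard)
    by_cases h1 : v' ∈ M
    · have := hin v' h1 hcv; omega
    by_cases h2 : w' ∈ M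
    · have := hin w' h2 hcw; omega
    by_cases h3 : v' * w' ∈ M
    · have := hin _ h3 hcu; omega
    have hsq' : ∀ x : G ⧸ R, x * x = 1 →
        (x : (G ⧸ R) ⧸ M) * (x : (G ⧸ R) ⧸ M) = 1 := fun x hx => by
      rw [← QuotientGroup.mk_mul, hx, QuotientGroup.mk_one]
    have hfac' : (Nat.card ((G ⧸ R) ⧸ M)).factorization 2 ≤ a := by
      have e := Subgroup.card_eq_card_quotient_mul_card_subgroup M
      have e' := congrArg (fun n : ℕ => n.factorization 2) e
      simp only [Nat.factorization_mul Nat.card_pos.ne' Nat.card_pos.ne', Finsupp.add_apply] at e'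
      have := Nat.prime_two.factorization_pos_of_dvd Nat.card_pos.ne' hMeven
      omega
    have hrec := hN₀ ((G ⧸ R) ⧸ M) hfac' (v' : (G ⧸ R) ⧸ M) (w' : (G ⧸ R) ⧸ M)
      (hsq' _ (hsq v hv)) (hsq' _ (hsq w hw))
      (by rw [← QuotientGroup.mk_mul, hvw', QuotientGroup.mk_mul])
      (fun h => h1 ((QuotientGroup.eq_one_iff _).mp h))
      (fun h => h2 ((QuotientGroup.eq_one_iff _).mp h))
      (fun h => h3 ((QuotientGroup.eq_one_iff _).mp (by
        rw [QuotientGroup.mk_mul, h]
        exact hsq' _ (hsq w hw))))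
      ((card_centralizer_mk_le M v').trans hcv) ((card_centralizer_mk_le M w').trans hcw)
      ((card_centralizer_mk_le M (v' * w')).trans hcu)
    rw [Subgroup.card_eq_card_quotient_mul_card_subgroup M]
    have := Nat.mul_le_mul hrec hMcard
    rw [← hQ] at this
    have e : N₀ * Q = Q * N₀ := mul_comm _ _
    omega

end Cfsg.Agent.BlockChar.FourGroupBound
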