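import Cfsg.Agent.BlockChar.RankBounds
import Cfsg.Agent.BlockChar.FourGroupBound
import Cfsg.Agent.Blocks.DefectMore
import Cfsg.Agent.Blocks.Brauer
import Cfsg.Agent.Blocks.Height

/-!
Brauer: a group of deficiency class `r` with an elementary abelian 2-subgroup of order `2^(r+1)`
has order bounded by a function of its 2-part.
-/

set_option autoImplicit false
set_option linter.unusedSectionVars false
set_option linter.style.haveILetI false

namespace Cfsg.Agent.BlockChar.Deficiency

open Cfsg Cfsg.Agent

universe u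

variable {G : Type u} [Group G] [Finite G]

/-- The centralizer of a large elementary abelian subgroup has only the principal block. -/
theorem centralizer_single_block {p : ℕ} [Fact p.Prime] {M : Ideal AlgInt} (hM : IsPModular p M)
    {r : ℕ} (hdef : ∀ B : Set (IrrCharacter G), IsPBlock M B → B ≠ principalBlock M G →
      blockDefect p B < r)
    {U : Subgroup G} (hUp : IsPGroup p U) (hUc : U ≤ Subgroup.centralizer (U : Set G))
    (hU : p ^ r ≤ Nat.card U) :
    ∀ b : Set (IrrCharacter (Subgroup.centralizer (U : Set G))), IsPBlock M b →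
      b = principalBlock M (Subgroup.centralizer (U : Set G)) := by
  classical
  haveI := hM.2.1
  haveI := Fintype.ofFinite G
  set H := Subgroup.centralizer (U : Set G) with hH
  haveI := Fintype.ofFinite H
  intro b hb
  have hHN : H ≤ Subgroup.normalizer (U : Set G) := by
    intro h hh
    rw [Subgroup.mem_normalizer_iff]
    intro x
    constructor
    · intro hx
      rwa [← (Subgroup.mem_centralizer_iff.mp hh) x hx, mul_inv_cancel_right]
    · intro hx
      have e := (Subgroup.mem_centralizer_iff.mp hh) (h * x * h⁻¹) hx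
      have : h * x = h * (h * x * h⁻¹) := by rw [← e]; group
      rw [mul_left_cancel this]
      exact hx
  have hdefd : InducedBlockDefined M H b :=
    Blocks.inducedBlockDefined_of_brauer H hM.2.2 hUp hUc le_rfl hHN hb
  obtain ⟨B, hind⟩ := hdefd
  by_cases hB : B = principalBlock M G
  · exact (Blocks.third_main H hM.2.2 ⟨B, hind⟩).mp (hB ▸ hind)
  exfalso
  obtain ⟨D, hD⟩ := Blocks.exists_isDefectGroup (p := p) hM.2.2 hb
  obtain ⟨E, hE, hDE⟩ := Blocks.map_defect_le hM.2.2 H hind hD
  have hUn : (U.subgroupOf H).Normal := Subgroup.normal_subgroupOf_of_le_normalizer hHN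
  have hUD : U.subgroupOf H ≤ D :=
    Blocks.le_defect_of_normal hM.2.2 hb hD hUn (hUp.comap_of_injective _ H.subtype_injective)
  have h1 : U ≤ E := by
    intro x hx
    exact hDE ⟨⟨x, hUc hx⟩, hUD (Subgroup.mem_subgroupOf.mpr hx), rfl⟩
  have h2 := hU.trans (Subgroup.card_le_of_le h1)
  rw [Blocks.card_defectGroup hM.2.2 hind.2.1 hE] at h2
  exact absurd h2 (not_le.mpr (Nat.pow_lt_pow_right (Fact.out : p.Prime).one_lt
    (hdef B hind.2.1 hB)))

/-- Adjoining an involution commuting with a subgroup. -/
theorem exists_adjoin {U : Subgroup G} {v : G} (hv : v * v = 1) (hvU : ∀ x ∈ U, x * v = v * x)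
    (hv' : v ∉ U) :
    ∃ V : Subgroup G, (∀ x, x ∈ V ↔ x ∈ U ∨ x * v ∈ U) ∧ Nat.card V ≤ 2 * Nat.card U ∧
      2 * Nat.card U ≤ Nat.card V := by
  let V : Subgroup G :=
    { carrier := {x | x ∈ U ∨ x * v ∈ U}
      one_mem' := Or.inl U.one_mem
      mul_mem' := fun {x y} hx hy => by
        rcases hx with hx | hx <;> rcases hy with hy | hy
        · exact Or.inl (U.mul_mem hx hy)
        · exact Or.inr (by rw [mul_assoc]; exact U.mul_mem hx hy)
        · refine Or.inr ?_
          rw [mul_assoc, hvU y hy, ← mul_assoc]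
          exact U.mul_mem hx hy
        · refine Or.inl ?_
          have h : x * v * (y * v) = x * y := by
            rw [mul_assoc, ← mul_assoc v y v]
            have e : v * y = y * v := by
              have h1 := hvU _ hy
              rw [mul_assoc, hv, mul_one] at h1
              exact (h1.trans (mul_assoc v y v).symm |> fun h2 => by
                have h3 := congrArg (fun t => t * v) h2
                simpa [mul_assoc, hv] using h3.symm)
            rw [e, mul_assoc y v v, hv, mul_one]
          rw [← h]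
          exact U.mul_mem hx hy
      inv_mem' := fun {x} hx => by
        rcases hx with hx | hx
        · exact Or.inl (U.inv_mem hx)
        · refine Or.inr ?_
          have e : x⁻¹ = v * (x * v)⁻¹ := by group
          rw [e, mul_assoc, hvU _ (U.inv_mem hx), ← mul_assoc, hv, one_mul]
          exact U.inv_mem hx }
  refine ⟨V, fun x => Iff.rfl, ?_, ?_⟩
  · rw [two_mul, ← Nat.card_sum]
    refine Nat.card_le_card_of_surjective
      (Sum.elim (fun u : U => (⟨u, Or.inl u.2⟩ : V))
        (fun u : U => (⟨(u : G) * v, Or.inr (by rw [mul_assoc, hv, mul_one]; exact u.2)⟩ : V))) ?_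
    rintro ⟨x, hx | hx⟩
    · exact ⟨Sum.inl ⟨x, hx⟩, rfl⟩
    · exact ⟨Sum.inr ⟨x * v, hx⟩, Subtype.ext (by show x * v * v = x; rw [mul_assoc, hv, mul_one])⟩
  · rw [two_mul, ← Nat.card_sum]
    refine Nat.card_le_card_of_injective
      (Sum.elim (fun u : U => (⟨u, Or.inl u.2⟩ : V))
        (fun u : U => (⟨(u : G) * v, Or.inr (by rw [mul_assoc, hv, mul_one]; exact u.2)⟩ : V))) ?_
    rintro (a | a) (b | b) e
    · exact congrArg Sum.inl (Subtype.ext (congrArg (fun z : V => (z : G)) e))
    · have e' : (a : G) = b * v := congrArg (fun z : V => (z : G)) e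
      exact absurd (by rw [← inv_mul_cancel_left (b : G) v, ← e']
                       exact U.mul_mem (U.inv_mem b.2) a.2) hv'
    · have e' : (a : G) * v = b := congrArg (fun z : V => (z : G)) e
      exact absurd (by rw [← inv_mul_cancel_left (a : G) v, e']
                       exact U.mul_mem (U.inv_mem a.2) b.2) hv'
    · exact congrArg Sum.inr (Subtype.ext
        (mul_right_cancel (congrArg (fun z : V => (z : G)) e)))

/-- A bound on the centralizers of subgroups of the elementary abelian subgroup. -/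
theorem exists_bound_centralizer (a : ℕ) : ∀ t : ℕ, ∃ N : ℕ, ∀ (G : Type u) [Group G] [Finite G]
    (M : Ideal AlgInt) (r : ℕ), IsPModular 2 M → (Nat.card G).factorization 2 ≤ a →
    (∀ B : Set (IrrCharacter G), IsPBlock M B → B ≠ principalBlock M G → blockDefect 2 B < r) →
    ∀ E : Subgroup G, (∀ x ∈ E, ∀ y ∈ E, x * y = y * x) → (∀ x ∈ E, x * x = 1) →
      Nat.card E = 2 ^ (r + 1) → ∀ U : Subgroup G, U ≤ E → 2 ^ r ≤ Nat.card U * 2 ^ t →
        Nat.card (Subgroup.centralizer (U : Set G)) ≤ N := by
  haveI : Fact (Nat.Prime 2) := ⟨Nat.prime_two⟩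
  choose K hK using fun c => exists_bound_single_block.{u} 2 c
  have hbase : ∀ (G : Type u) [Group G] [Finite G]
      (M : Ideal AlgInt) (r : ℕ), IsPModular 2 M → (Nat.card G).factorization 2 ≤ a →
      (∀ B : Set (IrrCharacter G), IsPBlock M B → B ≠ principalBlock M G → blockDefect 2 B < r) →
      ∀ E : Subgroup G, (∀ x ∈ E, ∀ y ∈ E, x * y = y * x) → (∀ x ∈ E, x * x = 1) →
        ∀ U : Subgroup G, U ≤ E → 2 ^ r ≤ Nat.card U →
          Nat.card (Subgroup.centralizer (U : Set G)) ≤ (Finset.range (a + 1)).sup K := by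
    intro G _ _ M r hM ha hdef E hEc hE2 U hUE hU
    have hUc : U ≤ Subgroup.centralizer (U : Set G) := fun x hx =>
      Subgroup.mem_centralizer_iff.mpr fun y hy => hEc y (hUE hy) x (hUE hx)
    have hUp : IsPGroup 2 U := fun x => ⟨1, Subtype.ext (by
      rw [pow_one, SubgroupClass.coe_pow, pow_two]; exact hE2 x (hUE x.2))⟩
    have hfac : (Nat.card (Subgroup.centralizer (U : Set G))).factorization 2 ≤ a :=
      le_trans ((Nat.factorization_le_iff_dvd Nat.card_pos.ne' Nat.card_pos.ne').mpr
        (Subgroup.card_subgroup_dvd_card _) 2) ha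
    exact (hK _ _ M hM rfl (centralizer_single_block hM hdef hUp hUc hU)).trans
      (Finset.le_sup (Finset.mem_range.mpr (Nat.lt_succ_of_le hfac)))
  intro t
  induction t with
  | zero =>
    exact ⟨_, fun G _ _ M r hM ha hdef E hEc hE2 _ U hUE hU =>
      hbase G M r hM ha hdef E hEc hE2 U hUE (by rwa [pow_zero, mul_one] at hU)⟩
  | succ t ih =>
    obtain ⟨N₀, hN₀⟩ := ih
    obtain ⟨R, hR⟩ := FourGroupBound.exists_bound.{u} N₀ a
    refine ⟨max ((Finset.range (a + 1)).sup K) R,
      fun G _ _ M r hM ha hdef E hEc hE2 hEcard U hUE hU => ?_⟩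
    by_cases hbig : 2 ^ r ≤ Nat.card U
    · exact (hbase G M r hM ha hdef E hEc hE2 U hUE hbig).trans (le_max_left _ _)
    push Not at hbig
    have hUdvd : Nat.card U ∣ 2 ^ (r + 1) := hEcard ▸ Subgroup.card_dvd_of_le hUE
    obtain ⟨i, -, hi⟩ := (Nat.dvd_prime_pow Nat.prime_two).mp hUdvd
    have hir : i < r := by
      rw [hi] at hbig
      exact (Nat.pow_lt_pow_iff_right (by norm_num)).mp hbig
    have hU4 : 4 * Nat.card U ≤ Nat.card E := by
      rw [hEcard, hi, show 4 = 2 ^ 2 by norm_num, ← pow_add]
      exact Nat.pow_le_pow_right (by norm_num) (by omega)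
    have hUpos : 0 < Nat.card U := Nat.card_pos
    obtain ⟨v, hvE, hvU⟩ : ∃ v ∈ E, v ∉ U := by
      by_contra h
      push Not at h
      have := Subgroup.card_le_of_le (show E ≤ U from h)
      omega
    have hcommU : ∀ {x}, x ∈ E → ∀ y ∈ U, y * x = x * y := fun hx y hy => hEc y (hUE hy) _ hx
    obtain ⟨V, hV, hVle, hVge⟩ := exists_adjoin (hE2 v hvE) (hcommU hvE) hvU
    obtain ⟨w, hwE, hwV⟩ : ∃ w ∈ E, w ∉ V := by
      by_contra h
      push Not at h
      have := Subgroup.card_le_of_le (show E ≤ V from h)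
      omega
    have hwU : w ∉ U := fun h => hwV ((hV w).mpr (Or.inl h))
    have hwv : w * v ∉ U := fun h => hwV ((hV w).mpr (Or.inr h))
    have hvw : v * w ∉ U := fun h => hwv (hEc w hwE v hvE ▸ h)
    set H := Subgroup.centralizer (U : Set G) with hH
    have hmemH : ∀ x ∈ E, x ∈ H := fun x hx =>
      Subgroup.mem_centralizer_iff.mpr fun y hy => hcommU hx y hy
    have hkey : ∀ x : G, ∀ hx : x ∈ E, x ∉ U →
        Nat.card (Subgroup.centralizer ({(⟨x, hmemH x hx⟩ : H)} : Set H)) ≤ N₀ := by
      intro x hx hxU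
      obtain ⟨W, hW, -, hWge⟩ := exists_adjoin (hE2 x hx) (hcommU hx) hxU
      have hWE : W ≤ E := by
        intro z hz
        rcases (hW z).mp hz with h | h
        · exact hUE h
        · have := E.mul_mem (hUE h) hx
          rwa [mul_assoc, hE2 x hx, mul_one] at this
      have h1 : 2 ^ r ≤ Nat.card W * 2 ^ t := by
        refine hU.trans ?_
        rw [pow_succ', ← mul_assoc, mul_comm (Nat.card U) 2]
        exact Nat.mul_le_mul_right _ hWge
      refine le_trans ?_ (hN₀ G M r hM ha hdef E hEc hE2 hEcard W hWE h1)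
      refine Nat.card_le_card_of_injective
        (fun c : Subgroup.centralizer ({(⟨x, hmemH x hx⟩ : H)} : Set H) =>
          (⟨((c : H) : G), ?_⟩ : Subgroup.centralizer (W : Set G)))
        (fun c d e => Subtype.ext (Subtype.ext
          (congrArg (fun z : Subgroup.centralizer (W : Set G) => (z : G)) e)))
      refine Subgroup.mem_centralizer_iff.mpr fun z hz => ?_
      have hcx : ((c : H) : G) * x = x * ((c : H) : G) :=
        congrArg Subtype.val (Subgroup.mem_centralizer_singleton_iff.mp c.2)
      rcases (hW z).mp hz with h | h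
      · exact (Subgroup.mem_centralizer_iff.mp (c : H).2) z h
      · have h2 := (Subgroup.mem_centralizer_iff.mp (c : H).2) _ h
        refine mul_right_cancel (b := x) ?_
        rw [mul_assoc z, hcx, ← mul_assoc, h2, mul_assoc]
    have hfac : (Nat.card H).factorization 2 ≤ a :=
      le_trans ((Nat.factorization_le_iff_dvd Nat.card_pos.ne' Nat.card_pos.ne').mpr
        (Subgroup.card_subgroup_dvd_card _) 2) ha
    refine le_trans ?_ (le_max_right _ _)
    refine hR H hfac ⟨v, hmemH v hvE⟩ ⟨w, hmemH w hwE⟩ (Subtype.ext (hE2 v hvE))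
      (Subtype.ext (hE2 w hwE)) (Subtype.ext (hEc v hvE w hwE))
      (fun h => hvU (by rw [show v = 1 from congrArg Subtype.val h]; exact U.one_mem))
      (fun h => hwU (by rw [show w = 1 from congrArg Subtype.val h]; exact U.one_mem))
      (fun h => hwV ((hV w).mpr (Or.inr (by
        rw [show w = v from (congrArg Subtype.val h).symm, hE2 v hvE]; exact U.one_mem))))
      (hkey v hvE hvU) (hkey w hwE hwU) ?_
    exact hkey (v * w) (E.mul_mem hvE hwE) hvw

/-- Brauer's bound. -/
theorem exists_bound (a : ℕ) : ∃ N : ℕ, ∀ (G : Type u) [Group G] [Finite G] (M : Ideal AlgInt)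
    (r : ℕ) (P : Sylow 2 G), IsPModular 2 M → Nat.card P = 2 ^ a →
    (∀ B : Set (IrrCharacter G), IsPBlock M B → B ≠ principalBlock M G → blockDefect 2 B < r) →
    (∃ E : Subgroup G, E ≤ (P : Subgroup G) ∧ IsMulCommutative E ∧ (∀ x ∈ E, x * x = 1) ∧
      Nat.card E = 2 ^ (r + 1)) → Nat.card G ≤ N := by
  haveI : Fact (Nat.Prime 2) := ⟨Nat.prime_two⟩
  choose N hN using fun t => exists_bound_centralizer.{u} a t
  refine ⟨(Finset.range (a + 1)).sup N, fun G _ _ M r P hM hP hdef ⟨E, hEP, hEc, hE2, hEcard⟩ => ?_⟩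
  have hr : r + 1 ≤ a := by
    have h := Subgroup.card_le_of_le hEP
    rw [hEcard] at h
    exact (Nat.pow_le_pow_iff_right (by norm_num)).mp (h.trans_eq hP)
  have hfac : (Nat.card G).factorization 2 ≤ a := by
    have h := P.card_eq_multiplicity
    rw [hP] at h
    exact (Nat.pow_right_injective le_rfl h).ge
  have h := hN r G M r hM hfac hdef E
    (fun x hx y hy => congrArg Subtype.val (hEc.is_comm.comm ⟨x, hx⟩ ⟨y, hy⟩)) hE2 hEcard ⊥ bot_le
    (by rw [Subgroup.card_bot, one_mul])
  refine le_trans ?_ (h.trans (Finset.le_sup (Finset.mem_range.mpr (by omega))))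
  rw [← Subgroup.card_top (G := G)]
  refine Subgroup.card_le_of_le fun x _ => Subgroup.mem_centralizer_iff.mpr fun y hy => ?_
  rw [Subgroup.mem_bot.mp hy, one_mul, mul_one]

end Cfsg.Agent.BlockChar.Deficiency
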