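import Cfsg.Agent.BlockChar.NilpotentBlock
import Cfsg.Agent.BlockChar.CentralSection
import Mathlib.GroupTheory.FiniteAbelian.Duality
import Mathlib.RingTheory.RootsOfUnity.AlgebraicallyClosed
import Mathlib.Analysis.Complex.Polynomial.Basic
import Mathlib.GroupTheory.GroupAction.Quotient

/-!
# The linear characters of `P / foc` act on the characters of a block
-/

set_option autoImplicit false
set_option linter.unusedSectionVars false
set_option linter.style.haveILetI false

namespace Cfsg.Agent.BlockChar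

open MonoidAlgebra
open scoped MonoidAlgebra ComplexConjugate commutatorElement
open Cfsg Cfsg.Agent Cfsg.Agent.Blocks

universe u

theorem index_dvd_card_of_stabilizer_le {Γ : Type*} {S : Type*} [Group Γ] [Finite Γ]
    [MulAction Γ S] [Finite S] (K : Subgroup Γ)
    (h : ∀ s : S, MulAction.stabilizer Γ s ≤ K) : K.index ∣ Nat.card S := by
  classical
  haveI := Fintype.ofFinite (Quotient (MulAction.orbitRel Γ S))
  rw [Nat.card_congr (MulAction.selfEquivSigmaOrbitsQuotientStabilizer Γ S), Nat.card_sigma]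
  refine Finset.dvd_sum fun ω _ => ?_
  rw [← Subgroup.index_eq_card]
  exact Subgroup.index_dvd_of_le (h _)

variable {G : Type u} [Group G] [Fintype G] {p : ℕ} [Fact p.Prime] {M : Ideal AlgInt}
  [M.IsMaximal] {B : Set (IrrCharacter G)} {P : Subgroup G} {e : (Res M)[G]}

/-- A linear character of a quotient of `P`, as a function on `G`. -/
noncomputable def lamF {A : Type*} [CommGroup A] (π : P →* A) (φ : A →* ℂˣ) : G → ℂ :=
  extP P fun v => (φ (π v) : ℂ)

theorem lamF_coe {A : Type*} [CommGroup A] (π : P →* A) (φ : A →* ℂˣ) (v : P) :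
    lamF π φ (v : G) = (φ (π v) : ℂ) := extP_coe _ v

/-- Linear characters trivial on fusion carry the characters of the block to themselves. -/
theorem exists_lam_smul (hpM : (p : AlgInt) ∈ M) (D : MaxData p B P e) {A : Type*} [CommGroup A]
    [Finite A] (π : P →* A)
    (hfus : ∀ v w : P, ∀ g : G, Carries p P e (Subgroup.zpowers (v : G)) g →
      g * (v : G) * g⁻¹ = (w : G) → π w = π v)
    (φ : A →* ℂˣ) {χ : IrrCharacter G} (hχ : χ ∈ B) :
    ∃ ψ : IrrCharacter G, ψ ∈ B ∧ (ψ : G → ℂ) = starP p P e (χ : G → ℂ) (lamF π φ) ∧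
      blockHeight p B (ψ : G → ℂ) = blockHeight p B (χ : G → ℂ) := by
  classical
  letI : Fintype P := Fintype.ofFinite P
  have hst : IsStable p P e (lamF π φ) := by
    intro v hv g hg
    obtain ⟨c, hc1, hc2⟩ := hg
    have hw : g * v * g⁻¹ ∈ P := by
      have h := PairLE.le (p := p) hc2
      exact h (mem_conjS.mpr (by simp [mul_assoc]))
    rw [show g * v * g⁻¹ = ((⟨_, hw⟩ : P) : G) from rfl, lamF_coe,
      hfus ⟨v, hv⟩ ⟨_, hw⟩ g ⟨c, hc1, hc2⟩ rfl]
    exact (lamF_coe π φ ⟨v, hv⟩).symm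
  have hgen : IsGeneralizedCharacter P (fun v : P => lamF π φ v) := by
    simp only [lamF_coe]
    exact Chars.isGen_of_isCharacter (Chars.isCharacter_of_isIrr
      (Chars.isIrrCharacter_hom (φ.comp π)))
  have hnorm : ∀ v ∈ P, lamF π φ v * conj (lamF π φ v) = 1 := by
    intro v hv
    rw [show v = ((⟨v, hv⟩ : P) : G) from rfl, lamF_coe]
    set z : ℂ := (φ (π ⟨v, hv⟩) : ℂ) with hz
    have hpow : z ^ Nat.card A = 1 := by
      rw [hz, ← Units.val_pow_eq_pow_val, ← map_pow, pow_card_eq_one', map_one, Units.val_one]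
    rw [← Complex.inv_eq_conj (Complex.norm_eq_one_of_pow_eq_one hpow Nat.card_pos.ne'),
      mul_inv_cancel₀ (Units.ne_zero _)]
  have hone : classInner (starP p P e (χ : G → ℂ) (lamF π φ))
      (starP p P e (χ : G → ℂ) (lamF π φ)) = 1 := by
    rw [classInner_starP_mul hpM, starP_congr (g := fun _ => 1) hnorm, starP_one hpM D hχ]
    simp [Chars.classInner_irrCharacter]
  obtain ⟨ψ, h1, h2, -, h4⟩ := isIrrCharacter_starP hpM D (isGen_starP hpM D χ hst hgen) hone
    (n := 1) (by
      rw [show (1 : G) = ((1 : P) : G) from rfl, lamF_coe, map_one, map_one, Units.val_one,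
        Nat.cast_one]) hχ
  exact ⟨ψ, h1, h2, by rw [blockHeight, blockHeight, h4, one_mul]⟩

/-- The divisibility by the size of an image in an abelian quotient compatible with fusion. -/
theorem card_map_dvd_card_height (hpM : (p : AlgInt) ∈ M) (D : MaxData p B P e) {A : Type*}
    [CommGroup A] [Finite A] (π : P →* A)
    (hfus : ∀ v w : P, ∀ g : G, Carries p P e (Subgroup.zpowers (v : G)) g →
      g * (v : G) * g⁻¹ = (w : G) → π w = π v)
    (Z : Subgroup P) (h : ℕ)
    (hne : ∀ χ : IrrCharacter G, χ ∈ B → blockHeight p B (χ : G → ℂ) = h → ∀ v ∈ Z,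
      ∀ β, PairLE p (Subgroup.zpowers ((v : P) : G), β) (P, e) →
        ∃ s : G, s ∈ cz ((v : P) : G) ∧ ¬ p ∣ orderOf s ∧ sec (χ : G → ℂ) ((v : P) : G) β s ≠ 0) :
    Nat.card (Z.map π) ∣
      Nat.card {χ : IrrCharacter G // χ ∈ B ∧ blockHeight p B (χ : G → ℂ) = h} := by
  classical
  haveI := charP_res (p := p) hpM
  let S := {χ : IrrCharacter G // χ ∈ B ∧ blockHeight p B (χ : G → ℂ) = h}
  choose act hact1 hact2 hact3 using
    fun (φ : A →* ℂˣ) (χ : S) => exists_lam_smul hpM D π hfus φ χ.2.1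
  letI : MulAction (A →* ℂˣ) S :=
    { smul := fun φ χ => ⟨act φ χ, hact1 φ χ, (hact3 φ χ).trans χ.2.2⟩
      one_smul := fun χ => Subtype.ext (Subtype.ext (by
        show (act 1 χ : G → ℂ) = _
        rw [hact2, starP_congr (g := fun _ => 1) (fun v hv => by
          rw [show v = ((⟨v, hv⟩ : P) : G) from rfl, lamF_coe]; simp), starP_one hpM D χ.2.1]))
      mul_smul := fun φ φ' χ => Subtype.ext (Subtype.ext (by
        show (act (φ * φ') χ : G → ℂ) = (act φ ⟨act φ' χ, _⟩ : G → ℂ)
        rw [hact2, hact2, starP_starP hpM (hact2 φ' χ)]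
        refine starP_congr (fun v hv => ?_) _
        rw [Pi.mul_apply, show v = ((⟨v, hv⟩ : P) : G) from rfl, lamF_coe, lamF_coe, lamF_coe,
          MonoidHom.mul_apply, Units.val_mul, mul_comm])) }
  haveI : Finite (A →* ℂˣ) := Nat.finite_of_card_ne_zero (by
    rw [CommGroup.card_monoidHom_of_hasEnoughRootsOfUnity A ℂ]; exact Nat.card_pos.ne')
  set K := (MonoidHom.domRestrictHom (Z.map π) ℂˣ).ker with hK
  have hidx : K.index = Nat.card (Z.map π) := by
    rw [hK, Subgroup.index_ker, MonoidHom.range_eq_top.mpr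
      (MonoidHom.domRestrict_surjective (M := ℂ) (Z.map π)), Subgroup.card_top,
      CommGroup.card_monoidHom_of_hasEnoughRootsOfUnity]
  rw [← hidx]
  refine index_dvd_card_of_stabilizer_le (S := S) K fun χ φ hφ => ?_
  have hfix : act φ χ = (χ : IrrCharacter G) := congrArg Subtype.val hφ
  rw [hK, MonoidHom.mem_ker]
  ext ⟨a, ha⟩
  obtain ⟨v, hv, rfl⟩ := Subgroup.mem_map.mp ha
  show (φ (π v) : ℂ) = 1
  obtain ⟨β, -, hβ⟩ := pairLE_exists D.pmax.pair (Subgroup.zpowers (v : G))
    (Subgroup.zpowers_le.mpr v.2)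
  obtain ⟨s, hs, hsr, hsne⟩ := hne χ χ.2.1 χ.2.2 v hv β hβ
  have hψ : ((χ : IrrCharacter G) : G → ℂ) =
      starP p P e ((χ : IrrCharacter G) : G → ℂ) (lamF π φ) := by
    conv_lhs => rw [← hfix]
    exact hact2 φ χ
  have hvp : ∃ k : ℕ, orderOf (v : G) = p ^ k := orderOf_of_mem D.pmax.pair.pgroup v.2
  have heq := sec_of_star hpM (χ : IrrCharacter G) χ hψ hvp
    (hβ.isPair_left D.pmax.pair).blk hs hsr
  have hbel : Below p P e 1 (v : G) β := by
    unfold Below
    rw [one_mul, inv_one, mul_one, cj_one]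
    exact hβ
  have hst : IsStable p P e (lamF π φ) := by
    intro x hx g hg
    have hg' := hg
    obtain ⟨c, hc1, hc2⟩ := hg
    have hw : g * x * g⁻¹ ∈ P := PairLE.le (p := p) hc2 (mem_conjS.mpr (by simp [mul_assoc]))
    rw [show g * x * g⁻¹ = ((⟨_, hw⟩ : P) : G) from rfl, lamF_coe,
      hfus ⟨x, hx⟩ ⟨_, hw⟩ g hg' rfl]
    exact (lamF_coe π φ ⟨x, hx⟩).symm
  rw [phiOf_eq hst hbel, one_mul, inv_one, mul_one, lamF_coe] at heq
  exact (mul_left_eq_self₀.mp heq.symm).resolve_right hsne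

theorem conjHom_mem_of_carries {Pb : Set (IrrCharacter (Subgroup.centralizer (P : Set G)))}
    (hpM : (p : AlgInt) ∈ M) {F : FusionSystem P} (hF : IsBlockFusionSystemOn p M B P Pb F)
    {v g : G} (hc : Carries p P (idemS M Pb) (Subgroup.zpowers v) g) :
    conjHom (Subgroup.zpowers v) g ∈ F.Hom (Subgroup.zpowers v) := by
  rw [eq_blockFusion hpM hF.1 hF]
  exact ⟨g, fun _ => rfl, hc⟩

/-- The focal subgroup controls an abelian quotient of `P` compatible with fusion. -/
theorem focal_data (hpM : (p : AlgInt) ∈ M) {Pb : Set (IrrCharacter (Subgroup.centralizer (P : Set G)))}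
    {F : FusionSystem P} (hF : IsBlockFusionSystemOn p M B P Pb F) :
    MaxData p B P (idemS M Pb) ∧ commutator P ≤ F.focalSubgroup.subgroupOf P ∧
      ∀ v w : P, ∀ g : G, Carries p P (idemS M Pb) (Subgroup.zpowers (v : G)) g →
        g * (v : G) * g⁻¹ = (w : G) → v⁻¹ * w ∈ F.focalSubgroup.subgroupOf P := by
  haveI := charP_res (p := p) hpM
  obtain ⟨hP, hb, ho⟩ := maximal_data hpM hF.1
  have key : ∀ v w : P, ∀ g : G, Carries p P (idemS M Pb) (Subgroup.zpowers (v : G)) g →
      g * (v : G) * g⁻¹ = (w : G) → v⁻¹ * w ∈ F.focalSubgroup.subgroupOf P := by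
    intro v w g hc he
    refine Subgroup.mem_subgroupOf.mpr (Subgroup.subset_closure ?_)
    exact ⟨Subgroup.zpowers (v : G), conjHom _ g, ⟨(v : G), Subgroup.mem_zpowers _⟩,
      conjHom_mem_of_carries hpM hF hc, by
        show ((v⁻¹ * w : P) : G) = (v : G)⁻¹ * (g * (v : G) * g⁻¹)
        rw [he]; rfl⟩
  refine ⟨⟨hP, hF.1.1.2.1, ho⟩, ?_, key⟩
  rw [commutator_def, Subgroup.commutator_le]
  intro a _ b _
  have h := key b⁻¹ (a * b⁻¹ * a⁻¹) a
    (carries_of_mem hP.pair (Subgroup.zpowers_le.mpr (b⁻¹).2) a.2) rfl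
  rw [inv_inv] at h
  have h2 := (F.focalSubgroup.subgroupOf P).inv_mem h
  rwa [show (b * (a * b⁻¹ * a⁻¹))⁻¹ = ⁅a, b⁆ by rw [commutatorElement_def]; group] at h2

theorem focal_index_dvd (hpM : (p : AlgInt) ∈ M)
    {Pb : Set (IrrCharacter (Subgroup.centralizer (P : Set G)))}
    {F : FusionSystem P} (hF : IsBlockFusionSystemOn p M B P Pb F) (Z : Subgroup P) (h : ℕ)
    (hne : ∀ χ : IrrCharacter G, χ ∈ B → blockHeight p B (χ : G → ℂ) = h → ∀ v ∈ Z,
      ∀ β, PairLE p (Subgroup.zpowers ((v : P) : G), β) (P, idemS M Pb) →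
        ∃ s : G, s ∈ cz ((v : P) : G) ∧ ¬ p ∣ orderOf s ∧ sec (χ : G → ℂ) ((v : P) : G) β s ≠ 0) :
    (F.focalSubgroup.subgroupOf P).relIndex Z ∣
      Nat.card {χ : IrrCharacter G // χ ∈ B ∧ blockHeight p B (χ : G → ℂ) = h} := by
  obtain ⟨D, hcomm, hfus⟩ := focal_data hpM hF
  set N := F.focalSubgroup.subgroupOf P with hN
  haveI : N.Normal := ⟨fun n hn g => by
    have h2 : ⁅g, n⁆ ∈ N := hcomm (by
      rw [commutator_def]; exact Subgroup.commutator_mem_commutator (Subgroup.mem_top g)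
        (Subgroup.mem_top n))
    have h3 := N.mul_mem h2 hn
    rwa [commutatorElement_def, inv_mul_cancel_right] at h3⟩
  letI : CommGroup (P ⧸ N) :=
    { (inferInstance : Group (P ⧸ N)) with
      mul_comm := fun x y => by
        obtain ⟨a, rfl⟩ := QuotientGroup.mk_surjective x
        obtain ⟨b, rfl⟩ := QuotientGroup.mk_surjective y
        rw [← QuotientGroup.mk_mul, ← QuotientGroup.mk_mul, QuotientGroup.eq]
        refine hcomm ?_
        rw [commutator_def]
        have h2 := Subgroup.commutator_mem_commutator (H₁ := (⊤ : Subgroup P)) (H₂ := ⊤)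
          (Subgroup.mem_top b⁻¹) (Subgroup.mem_top a⁻¹)
        rwa [commutatorElement_def, inv_inv, inv_inv,
          show b⁻¹ * a⁻¹ * b * a = (a * b)⁻¹ * (b * a) by group] at h2 }
  haveI : Finite (P ⧸ N) := Quotient.finite _
  have hd := card_map_dvd_card_height hpM D (QuotientGroup.mk' N)
    (fun v w g hc he => ((QuotientGroup.eq).mpr (hfus v w g hc he)).symm) Z h hne
  have e : N.relIndex Z = Nat.card (Z.map (QuotientGroup.mk' N)) := by
    conv_lhs => rw [← QuotientGroup.ker_mk' N]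
    exact Subgroup.relIndex_ker (QuotientGroup.mk' N) (K := Z)
  rwa [e]

/-- The number of height zero characters is divisible by the index of the focal subgroup. -/
theorem focal_index_dvd_heightZero (hpM : (p : AlgInt) ∈ M)
    {Pb : Set (IrrCharacter (Subgroup.centralizer (P : Set G)))}
    {F : FusionSystem P} (hF : IsBlockFusionSystemOn p M B P Pb F) :
    (F.focalSubgroup.subgroupOf P).index ∣
      Nat.card {χ : IrrCharacter G // χ ∈ B ∧ blockHeight p B (χ : G → ℂ) = 0} := by
  classical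
  haveI := charP_res (p := p) hpM
  obtain ⟨D, -, -⟩ := focal_data hpM hF
  rw [← Subgroup.relIndex_top_right]
  refine focal_index_dvd hpM hF ⊤ 0 fun χ hχ h0 v _ β hβ => ?_
  letI := Fintype.ofFinite (cz (v : G))
  have hvp : ∃ k : ℕ, orderOf (v : G) = p ^ k := orderOf_of_mem D.pmax.pair.pgroup v.2
  have hblk : IsBlk (cz (v : G)) β := (hβ.isPair_left D.pmax.pair).blk
  obtain ⟨s, hs, hne⟩ := Chars2.exists_secPart_ne_zero hpM (cz_eq (v : G)) hvp
    (isInduced_blkSet hpM D.blk hvp hblk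
      ((hβ.ofBlock_iff (isBlk_idemG hpM D.blk)).mpr D.ofB)) hχ h0
  rw [← sec_eq_secPart hpM χ hblk] at hne
  exact ⟨s, s.2, by rwa [Subgroup.orderOf_coe], hne⟩

/-- The number of characters of a given height is divisible by `|Z(P) : Z(P) ∩ foc|`. -/
theorem center_index_dvd_height (hpM : (p : AlgInt) ∈ M)
    {Pb : Set (IrrCharacter (Subgroup.centralizer (P : Set G)))}
    {F : FusionSystem P} (hF : IsBlockFusionSystemOn p M B P Pb F) (h : ℕ) :
    ((P ⊓ Subgroup.centralizer (P : Set G) ⊓ F.focalSubgroup).subgroupOf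
        (P ⊓ Subgroup.centralizer (P : Set G))).index ∣
      Nat.card {χ : IrrCharacter G // χ ∈ B ∧ blockHeight p B (χ : G → ℂ) = h} := by
  haveI := charP_res (p := p) hpM
  obtain ⟨D, -, -⟩ := focal_data hpM hF
  have hd := focal_index_dvd hpM hF ((P ⊓ Subgroup.centralizer (P : Set G)).subgroupOf P) h
    fun χ hχ _ v hv β hβ => exists_sec_ne_zero_of_central hpM D v.2
      (fun w hw => ((Subgroup.mem_centralizer_iff.mp (Subgroup.mem_subgroupOf.mp hv).2) w hw).symm)
      hβ hχ
  rw [Subgroup.relIndex_subgroupOf inf_le_left] at hd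
  show (P ⊓ Subgroup.centralizer (P : Set G) ⊓ F.focalSubgroup).relIndex _ ∣ _
  rwa [inf_comm _ F.focalSubgroup, Subgroup.inf_relIndex_right]

end Cfsg.Agent.BlockChar
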