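import Cfsg.Agent.BlockChar.HomocyclicCount

/-!
# Counting with a free inertial action
-/

set_option autoImplicit false
set_option linter.unusedSectionVars false
set_option linter.style.haveILetI false

namespace Cfsg.Agent.BlockChar.FreeCount

open scoped ComplexConjugate
open Cfsg Cfsg.Agent

universe u v w

section vectors

variable {ι : Type v} [Fintype ι] {κ : Type w} [Fintype κ] [DecidableEq κ]

/-- Nonzero integers with a small sum of squares are units. -/
theorem all_one {w : ι → ℤ} {S : Finset ι} (hne : ∀ x ∈ S, w x ≠ 0) {T : ℤ}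
    (hT : ∑ x ∈ S, w x * w x = T) (h : T ≤ 3 ∨ (T ≤ 4 ∧ 2 ≤ S.card)) : (S.card : ℤ) = T := by
  classical
  have h1 : ∀ x ∈ S, 1 ≤ w x * w x := fun x hx => by
    have := mul_self_pos.mpr (hne x hx)
    omega
  have key : ∀ x ∈ S, w x * w x ≤ 3 := by
    intro x hx
    rw [← Finset.add_sum_erase _ _ hx] at hT
    have h2 : ((S.erase x).card : ℤ) ≤ ∑ y ∈ S.erase x, w y * w y := by
      simpa using Finset.card_nsmul_le_sum (S.erase x) (fun y => w y * w y) 1
        fun y hy => h1 y (Finset.mem_of_mem_erase hy)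
    have h3 := Finset.card_erase_of_mem hx
    omega
  rw [← hT, Finset.sum_congr rfl (g := fun _ => (1 : ℤ)) fun x hx => ?_]
  · simp
  · have h2 := key x hx
    have h3 : w x ≤ 1 := by nlinarith
    have h4 : -1 ≤ w x := by nlinarith
    rcases (show w x = 1 ∨ w x = 0 ∨ w x = -1 by omega) with e | e | e
    · rw [e]; rfl
    · exact absurd e (hne x hx)
    · rw [e]; rfl

/-- A vector of norm two, at one of its two coordinates. -/
theorem root_split {d : ι → ℤ} (h : ∑ x, d x * d x = 2) {a : ι} (ha : d a ≠ 0) :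
    d a * d a = 1 ∧ ∃ b, b ≠ a ∧ d b * d b = 1 ∧ ∀ x, x ≠ a → x ≠ b → d x = 0 := by
  classical
  obtain ⟨h1, h2⟩ := Homocyclic.sq_one_of_sum h
  refine ⟨h1 a ha, ?_⟩
  obtain ⟨b, hb, hba⟩ := Finset.exists_mem_ne (by rw [h2]; exact one_lt_two) a
  refine ⟨b, hba, h1 b (Finset.mem_filter.mp hb).2, fun x hxa hxb => ?_⟩
  by_contra hx
  have : ({a, b, x} : Finset ι) ⊆ Finset.univ.filter (fun j => d j ≠ 0) := by
    intro y hy
    simp only [Finset.mem_insert, Finset.mem_singleton] at hy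
    rcases hy with rfl | rfl | rfl
    exacts [Finset.mem_filter.mpr ⟨Finset.mem_univ _, ha⟩, hb,
      Finset.mem_filter.mpr ⟨Finset.mem_univ _, hx⟩]
  have h3 := Finset.card_le_card this
  rw [h2] at h3
  simp [hba.symm, Ne.symm hxa, Ne.symm hxb] at h3

/-- The product with a vector on two coordinates. -/
theorem sum_two {d : ι → ℤ} {a b : ι} (hab : b ≠ a) (h : ∀ x, x ≠ a → x ≠ b → d x = 0)
    (f : ι → ℤ) : ∑ x, d x * f x = d a * f a + d b * f b := by
  classical
  rw [← Finset.sum_subset (Finset.subset_univ ({a, b} : Finset ι)) fun x _ hx => by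
    simp only [Finset.mem_insert, Finset.mem_singleton, not_or] at hx
    rw [h x hx.1 hx.2, zero_mul]]
  rw [Finset.sum_pair hab.symm]

theorem three_not_even {c f : ι → ℤ} (hf : ∀ x, (2 : ℤ) ∣ f x) (h : ∑ x, c x * f x = 3) : False := by
  have : (2 : ℤ) ∣ 3 := h ▸ Finset.dvd_sum fun x _ => (hf x).mul_left (c x)
  omega

open scoped Classical in
/-- A common signed coordinate of vectors of norm two with pairwise products one. -/
theorem exists_common (d : κ → ι → ℤ) (c : ι → ℤ) (J : Finset κ) (hJ : J.Nonempty)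
    (hd : ∀ i ∈ J, ∀ j ∈ J, ∑ x, d i x * d j x = if i = j then 2 else 1)
    (hc : ∀ i ∈ J, ∑ x, c x * d i x = 1) :
    ∃ (a : ι) (s : ℤ), s * s = 1 ∧ ∀ i ∈ J, d i a = s := by
  obtain ⟨i₁, hi₁⟩ := hJ
  have hn : ∀ i ∈ J, ∑ x, d i x * d i x = 2 := fun i hi => by rw [hd i hi i hi, if_pos rfl]
  obtain ⟨a₀, -, ha₀⟩ := Finset.exists_ne_zero_of_sum_ne_zero
    ((hn i₁ hi₁).trans_ne two_ne_zero)
  have ha₀' : d i₁ a₀ ≠ 0 := fun h => ha₀ (by rw [h, zero_mul])
  by_cases hone : ∀ i ∈ J, i = i₁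
  · exact ⟨a₀, d i₁ a₀, (root_split (hn i₁ hi₁) ha₀').1, fun i hi => by rw [hone i hi]⟩
  push Not at hone
  obtain ⟨i₂, hi₂, hne⟩ := hone
  have h12 : ∑ x, d i₁ x * d i₂ x = 1 := by rw [hd i₁ hi₁ i₂ hi₂, if_neg hne.symm]
  -- a coordinate where both agree
  obtain ⟨a, ha⟩ : ∃ a, 0 < d i₁ a * d i₂ a := by
    by_contra hno
    push Not at hno
    have := Finset.sum_nonpos (s := Finset.univ) fun x _ => hno x
    rw [h12] at this
    omega
  have ha1 : d i₁ a ≠ 0 := fun h => by simp [h] at ha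
  have ha2 : d i₂ a ≠ 0 := fun h => by simp [h] at ha
  obtain ⟨hs1, b₁, hb₁, hb₁s, hz₁⟩ := root_split (hn i₁ hi₁) ha1
  obtain ⟨hs2, b₂, hb₂, hb₂s, hz₂⟩ := root_split (hn i₂ hi₂) ha2
  have hss : d i₂ a = d i₁ a := by
    rcases mul_self_eq_one_iff.mp hs1 with e | e <;> rcases mul_self_eq_one_iff.mp hs2 with e' | e' <;>
      rw [e, e'] at ha ⊢ <;> omega
  set s := d i₁ a with hs
  have hb : b₁ ≠ b₂ := by
    intro hbb
    have h := sum_two hb₁ hz₁ (d i₂)
    rw [h12, hss, hs1, hbb] at h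
    rw [hbb] at hb₁s
    rcases mul_self_eq_one_iff.mp hb₁s with e | e <;> rcases mul_self_eq_one_iff.mp hb₂s with e' | e' <;>
      rw [e, e'] at h <;> omega
  refine ⟨a, s, hs1, fun i hi => ?_⟩
  by_cases hi1 : i = i₁
  · rw [hi1]
  by_cases hi2 : i = i₂
  · rw [hi2, hss]
  have e1 := sum_two hb₁ hz₁ (d i)
  have e2 := sum_two hb₂ hz₂ (d i)
  rw [hd i₁ hi₁ i hi, if_neg (Ne.symm hi1)] at e1
  rw [hd i₂ hi₂ i hi, if_neg (Ne.symm hi2), hss] at e2
  have hle : ∀ x, d i x ≤ 1 ∧ -1 ≤ d i x := fun x => by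
    have := Finset.single_le_sum (f := fun x => d i x * d i x) (fun y _ => mul_self_nonneg _)
      (Finset.mem_univ x)
    rw [hn i hi] at this
    constructor <;> nlinarith
  by_contra hne'
  have hA := hle a
  have hB1 := hle b₁
  have hB2 := hle b₂
  have hda : d i a = 0 := by
    rcases mul_self_eq_one_iff.mp hs1 with e | e <;>
      rcases mul_self_eq_one_iff.mp hb₁s with e' | e' <;>
      rw [e] at hne' <;> rw [show d i₁ a = _ from e, e'] at e1 <;> omega
  rw [hda, mul_zero, zero_add] at e1 e2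
  have hn1 : d i b₁ ≠ 0 := fun h => by simp [h] at e1
  have hn2 : d i b₂ ≠ 0 := fun h => by simp [h] at e2
  obtain ⟨hv1, b', hb', -, hz⟩ := root_split (hn i hi) hn1
  have hb'2 : b' = b₂ := by
    by_contra h
    exact hn2 (hz b₂ hb.symm (Ne.symm h))
  subst hb'2
  have hv2 : d i b' * d i b' = 1 := by
    rcases (show d i b' = 1 ∨ d i b' = -1 by omega) with e | e <;> rw [e] <;> rfl
  refine three_not_even (c := c) (f := fun x => d i₁ x + d i₂ x + d i x) (fun x => ?_) ?_
  · by_cases hxa : x = a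
    · subst hxa; rw [hda, hss, ← hs]; exact ⟨s, by ring⟩
    by_cases hx1 : x = b₁
    · subst hx1
      rw [hz₂ x hb₁ hb]
      exact ⟨d i₁ x, by
        rcases mul_self_eq_one_iff.mp hb₁s with e | e <;> rw [e] at e1 ⊢ <;> omega⟩
    by_cases hx2 : x = b'
    · subst hx2
      rw [hz₁ x hb₂ hb.symm]
      exact ⟨d i₂ x, by
        rcases mul_self_eq_one_iff.mp hb₂s with e | e <;> rw [e] at e2 ⊢ <;> omega⟩
    rw [hz₁ x hxa hx1, hz₂ x hxa hx2, hz x hx1 hx2]
    simp
  · simp only [mul_add, Finset.sum_add_distrib, hc _ hi₁, hc _ hi₂, hc _ hi]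
    norm_num

open scoped Classical in
/-- Vectors with products `E + δ` covering all coordinates. -/
theorem gram_bound (c : κ → ι → ℤ) {E l : ℕ} (hE : 1 ≤ E) (hl : 1 ≤ l)
    (hκ : 1 ≤ Fintype.card κ) (hcard : Fintype.card ι = l + Fintype.card κ)
    (hgram : ∀ i j, ∑ x, c i x * c j x = (E : ℤ) + if i = j then 1 else 0)
    (hcover : ∀ x, ∃ i, c i x ≠ 0) :
    l ≤ E ∧ (E ≤ 3 → l = E ∨ (E = 2 ∧ Fintype.card κ = 3) ∨
      (E = 3 ∧ (Fintype.card κ = 3 ∨ Fintype.card κ = 4))) := by
  classical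
  obtain ⟨i₀⟩ : Nonempty κ := Fintype.card_pos_iff.mp hκ
  set r := Fintype.card κ with hr
  have hnorm : ∀ i, ∑ x, c i x * c i x = (E : ℤ) + 1 := fun i => by rw [hgram, if_pos rfl]
  rcases Nat.lt_or_ge r 2 with hr2 | hr2
  · -- one vector
    have hr1 : r = 1 := by omega
    have hne : ∀ x ∈ (Finset.univ : Finset ι), c i₀ x ≠ 0 := fun x _ => by
      obtain ⟨i, hi⟩ := hcover x
      rwa [(Fintype.card_eq_one_iff.mp hr1).choose_spec i₀,
        ← (Fintype.card_eq_one_iff.mp hr1).choose_spec i]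
    have hk : (Fintype.card ι : ℤ) ≤ (E : ℤ) + 1 := by
      rw [← hnorm i₀]
      refine le_trans (le_of_eq ?_) (Finset.card_nsmul_le_sum Finset.univ
        (fun x => c i₀ x * c i₀ x) (1 : ℤ) fun x hx => ?_)
      · simp
      · have := mul_self_pos.mpr (hne x hx)
        omega
    refine ⟨by omega, fun hE3 => Or.inl ?_⟩
    have := all_one hne (hnorm i₀) (Or.inr ⟨by omega, by rw [Finset.card_univ]; omega⟩)
    rw [Finset.card_univ] at this
    omega
  set J := Finset.univ.erase i₀ with hJ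
  have hJne : J.Nonempty := Finset.card_pos.mp (by
    rw [hJ, Finset.card_erase_of_mem (Finset.mem_univ _), Finset.card_univ, ← hr]; omega)
  let d : κ → ι → ℤ := fun i x => c i₀ x - c i x
  have hdd : ∀ i ∈ J, ∀ j ∈ J, ∑ x, d i x * d j x = if i = j then 2 else 1 := by
    intro i hi j hj
    simp only [d, sub_mul, mul_sub, Finset.sum_sub_distrib, hgram, if_pos rfl,
      if_neg (Finset.ne_of_mem_erase hj).symm, if_neg (Finset.ne_of_mem_erase hi)]
    split_ifs <;> ring
  have hcd : ∀ i ∈ J, ∑ x, c i₀ x * d i x = 1 := fun i hi => by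
    simp only [d, mul_sub, Finset.sum_sub_distrib, hgram, if_true,
      if_neg (Finset.ne_of_mem_erase hi).symm]
    ring
  obtain ⟨a, s, hs, has⟩ := exists_common d (c i₀) J hJne hdd hcd
  let u : ι → ℤ := fun x => c i₀ x - if x = a then s else 0
  let X : κ → ι → ℤ := fun i x => u x - c i x
  have hσ : ∀ f : ι → ℤ, ∑ x, (if x = a then s else 0) * f x = s * f a := fun f => by simp
  have hXi : ∀ i x, X i x = d i x - if x = a then s else 0 := fun i x => by
    simp only [X, u, d]; ring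
  have hd0 : ∀ x, d i₀ x = 0 := fun x => by simp [d]
  have hXX : ∀ i j, ∑ x, X i x * X j x = if i = j then 1 else 0 := by
    have hsd : ∀ i, i ≠ i₀ → ∑ x, d i x * (if x = a then s else 0) = 1 := fun i hi => by
      rw [Finset.sum_congr rfl fun x _ => mul_comm (d i x) _, hσ,
        has i (Finset.mem_erase.mpr ⟨hi, Finset.mem_univ _⟩), hs]
    have hσσ : ∑ x, (if x = a then s else 0) * (if x = a then s else 0) = 1 := by
      rw [hσ, if_pos rfl, hs]
    intro i j
    simp only [hXi, sub_mul, mul_sub, Finset.sum_sub_distrib, hσσ]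
    rw [Finset.sum_congr rfl fun x _ => mul_comm (if x = a then s else 0) (d j x)]
    rcases eq_or_ne i i₀ with hi | hi <;> rcases eq_or_ne j i₀ with hj | hj
    · subst hi hj; simp [hd0]
    · subst hi
      rw [hsd j hj, if_neg hj.symm]
      simp [hd0]
    · subst hj
      rw [hsd i hi, if_neg hi]
      simp [hd0]
    · rw [hsd i hi, hsd j hj, hdd i (Finset.mem_erase.mpr ⟨hi, Finset.mem_univ _⟩) j
        (Finset.mem_erase.mpr ⟨hj, Finset.mem_univ _⟩)]
      split_ifs <;> ring
  have hc : ∀ i x, c i x = u x - X i x := fun i x => by simp [X]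
  -- the products of `u` with the units are equal
  set U := ∑ x, u x * u x with hU
  have hT : ∀ i, 2 * (∑ x, u x * X i x) = U - E := by
    intro i
    have h := hnorm i
    simp only [hc, sub_mul, mul_sub, Finset.sum_sub_distrib, hXX, if_true,
      Finset.sum_congr rfl fun x _ => mul_comm (X i x) (u x)] at h
    linarith
  set t := ∑ x, u x * X i₀ x with ht
  have hti : ∀ i, ∑ x, u x * X i x = t := fun i => by have := hT i; have := hT i₀; omega
  have hUt : U = E + 2 * t := by have := hT i₀; omega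
  -- positions of the units
  have hpos : ∀ i, ∃ b, X i b * X i b = 1 ∧ ∀ x, x ≠ b → X i x = 0 := fun i => by
    have h : ∑ x, X i x * X i x = 1 := by rw [hXX, if_pos rfl]
    obtain ⟨b, -, hb⟩ := Finset.exists_ne_zero_of_sum_ne_zero (h.trans_ne one_ne_zero)
    rw [← Finset.add_sum_erase _ _ (Finset.mem_univ b)] at h
    have hnn : ∀ x ∈ Finset.univ.erase b, 0 ≤ X i x * X i x := fun x _ => mul_self_nonneg _
    have h0 := Finset.sum_nonneg hnn
    have hp : 0 < X i b * X i b := lt_of_le_of_ne (mul_self_nonneg _) (Ne.symm hb)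
    refine ⟨b, by omega, fun x hx => mul_self_eq_zero.mp
      ((Finset.sum_eq_zero_iff_of_nonneg hnn).mp (by omega) x
        (Finset.mem_erase.mpr ⟨hx, Finset.mem_univ _⟩))⟩
  choose pos hp1 hp0 using hpos
  have hinj : Function.Injective pos := by
    intro i j hij
    by_contra hne
    have h := hXX i j
    rw [if_neg hne, Finset.sum_eq_single (pos i) (fun x _ hx => by rw [hp0 i x hx, zero_mul])
      (fun h' => absurd (Finset.mem_univ _) h')] at h
    rcases mul_eq_zero.mp h with e | e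
    · have := hp1 i
      rw [e] at this
      simp at this
    · have := hp1 j
      rw [← hij, e] at this
      simp at this
  set S := Finset.univ.image pos with hS
  have hScard : S.card = r := by rw [hS, Finset.card_image_of_injective _ hinj, Finset.card_univ]
  let W : ι → ℤ := fun x => u x - t * ∑ i, X i x
  have hWX : ∀ i, ∑ x, W x * X i x = 0 := fun i => by
    simp only [W, sub_mul, Finset.sum_sub_distrib, hti, mul_assoc, ← Finset.mul_sum, Finset.sum_mul]
    rw [Finset.sum_comm]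
    simp [hXX]
  have hWW : ∑ x, W x * W x = E + 2 * t - r * t * t := by
    have h1 : ∑ x, W x * W x = ∑ x, W x * u x := by
      have h0 : ∑ x, W x * (t * ∑ i, X i x) = 0 := by
        rw [Finset.sum_congr rfl fun x _ => show W x * (t * ∑ i, X i x) = ∑ i, t * (W x * X i x) by
          rw [← Finset.mul_sum, ← Finset.mul_sum]; ring, Finset.sum_comm]
        exact Finset.sum_eq_zero fun i _ => by rw [← Finset.mul_sum, hWX, mul_zero]
      rw [Finset.sum_congr rfl fun x _ => show W x * W x = W x * u x - W x * (t * ∑ i, X i x) by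
        simp only [W]; ring, Finset.sum_sub_distrib, h0, sub_zero]
    rw [h1]
    simp only [W, sub_mul, Finset.sum_sub_distrib, ← hU, hUt, mul_assoc, ← Finset.mul_sum,
      Finset.sum_mul]
    rw [Finset.sum_comm]
    simp only [Finset.sum_congr rfl fun x _ => mul_comm (X _ x) (u x), hti, Finset.sum_const,
      Finset.card_univ, ← hr, nsmul_eq_mul]
    ring
  have hout : ∀ x ∈ Sᶜ, W x ≠ 0 := by
    intro x hx
    have hX : ∀ i, X i x = 0 := fun i => hp0 i x fun h =>
      Finset.mem_compl.mp hx (Finset.mem_image.mpr ⟨i, Finset.mem_univ _, h.symm⟩)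
    obtain ⟨i, hi⟩ := hcover x
    rw [hc, hX, sub_zero] at hi
    simpa [W, hX] using hi
  have hin : ∀ x ∈ S, W x = 0 := by
    intro x hx
    obtain ⟨i, -, rfl⟩ := Finset.mem_image.mp hx
    have h := hWX i
    rw [Finset.sum_eq_single (pos i) (fun x _ hx => by rw [hp0 i x hx, mul_zero])
      (fun h' => absurd (Finset.mem_univ _) h')] at h
    exact (mul_eq_zero.mp h).resolve_right fun e => by simpa [e] using hp1 i
  have hsum : ∑ x ∈ Sᶜ, W x * W x = E + 2 * t - r * t * t := by
    rw [← hWW]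
    refine Finset.sum_subset (Finset.subset_univ _) fun x _ hx => ?_
    rw [hin x (by simpa using hx), mul_zero]
  have hlc : Sᶜ.card = l := by rw [Finset.card_compl, hScard, hcard, Nat.add_sub_cancel]
  have hle : (l : ℤ) ≤ E + 2 * t - r * t * t := by
    rw [← hsum, ← hlc]
    refine le_trans (le_of_eq ?_) (Finset.card_nsmul_le_sum Sᶜ (fun x => W x * W x) (1 : ℤ)
      fun x hx => ?_)
    · simp
    · have := mul_self_pos.mpr (hout x hx)
      omega
  have hr2' : (2 : ℤ) ≤ (r : ℤ) := by exact_mod_cast hr2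
  have ht1 : t ≤ t * t := by nlinarith [mul_self_nonneg (t - 1), mul_self_nonneg t]
  have ht2 : 2 * (t * t) ≤ (r : ℤ) * t * t := by
    nlinarith [mul_nonneg (sub_nonneg.mpr hr2') (mul_self_nonneg t)]
  refine ⟨by omega, fun hE3 => ?_⟩
  have hall := all_one hout hsum (Or.inl (by omega))
  rw [hlc] at hall
  rcases eq_or_ne t 0 with h0 | h0
  · left; rw [h0] at hall; simp at hall; omega
  have hl1 : (1 : ℤ) ≤ (l : ℤ) := by exact_mod_cast hl
  have htb : t = 1 := by
    by_contra h1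
    rcases lt_or_gt_of_ne h1 with h2 | h2
    · have : t ≤ -1 := by omega
      nlinarith [mul_self_pos.mpr h0]
    · have h4 : 2 * t ≤ t * t := by nlinarith
      nlinarith
  rw [htb] at hall
  simp at hall
  omega

end vectors

variable {A : Type u} [CommGroup A] [Fintype A] {ι : Type v} [Fintype ι] (Γ : Subgroup (MulAut A))

/-- Precomposition of linear characters. -/
def pre (γ : MulAut A) (μ : A →* ℂˣ) : A →* ℂˣ := μ.comp γ.toMonoidHom

theorem pre_free (hfree : ∀ γ ∈ Γ, ∀ u : A, u ≠ 1 → γ u = u → γ = 1) {γ : MulAut A} (hγ : γ ∈ Γ)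
    {μ : A →* ℂˣ} (hμ : μ ≠ 1) (h : pre γ μ = μ) : γ = 1 := by
  by_contra hne
  let ψ : A →* A :=
    { toFun := fun x => γ x * x⁻¹
      map_one' := by simp
      map_mul' := fun a b => by
        rw [map_mul, mul_inv, mul_mul_mul_comm] }
  have hinj : Function.Injective ψ := (injective_iff_map_eq_one ψ).mpr fun x hx => by
    by_contra hx1
    exact hne (hfree γ hγ x hx1 (mul_inv_eq_one.mp hx))
  refine hμ (MonoidHom.ext fun y => ?_)
  obtain ⟨x, rfl⟩ := (Finite.injective_iff_surjective.mp hinj) y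
  show μ (γ x * x⁻¹) = 1
  rw [map_mul, map_inv, show μ (γ x) = μ x from DFunLike.congr_fun h x, mul_inv_cancel]

open scoped Classical in
/-- The counting for functions on an abelian group with a free action. -/
theorem free_count (hfree : ∀ γ ∈ Γ, ∀ u : A, u ≠ 1 → γ u = u → γ = 1) (X : ι → A → ℂ)
    (hgen : ∀ x, ∃ g : A → ℂ, IsGeneralizedCharacter A g ∧ ∀ u, u ≠ 1 → g u = X x u)
    (hinv : ∀ x, ∀ γ ∈ Γ, ∀ u, u ≠ 1 → X x (γ u) = X x u)
    (horth : ∀ u w : A, u ≠ 1 → w ≠ 1 → ∑ x, X x u * conj (X x w) =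
      if ∃ γ ∈ Γ, γ u = w then (Nat.card A : ℂ) else 0)
    (hne : ∀ x, ∃ u, u ≠ 1 ∧ X x u ≠ 0) {E l r : ℕ} (hE : Nat.card Γ = E) (hl : 1 ≤ l)
    (hk : Fintype.card ι = l + r) (hr : E * r = Nat.card A - 1) (hA : 1 < Nat.card A) :
    l ≤ E ∧ (E ≤ 3 → l = E ∨ (E = 2 ∧ r = 3) ∨ (E = 3 ∧ (r = 3 ∨ r = 4))) := by
  have hE1 : 1 ≤ E := hE ▸ Nat.card_pos
  letI := Fintype.ofFinite (A →* ℂˣ)
  letI := Fintype.ofFinite Γ
  -- orbits of nontrivial linear characters
  let Λ := {μ : A →* ℂˣ // μ ≠ 1}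
  have hpre1 : ∀ μ : A →* ℂˣ, pre 1 μ = μ := fun μ => rfl
  have hprem : ∀ γ γ' : MulAut A, ∀ μ : A →* ℂˣ, pre γ' (pre γ μ) = pre (γ * γ') μ :=
    fun γ γ' μ => rfl
  have hprene : ∀ (γ : MulAut A) {μ : A →* ℂˣ}, μ ≠ 1 → pre γ μ ≠ 1 := fun γ μ hμ h =>
    hμ (MonoidHom.ext fun x => by
      have := DFunLike.congr_fun h (γ⁻¹ x)
      simpa [pre] using this)
  let st : Setoid Λ :=
    { r := fun μ ν => ∃ γ ∈ Γ, pre γ μ.1 = ν.1
      iseqv := ⟨fun μ => ⟨1, one_mem _, hpre1 _⟩,
        fun ⟨γ, hγ, h⟩ => ⟨γ⁻¹, inv_mem hγ, by rw [← h, hprem, mul_inv_cancel, hpre1]⟩,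
        fun ⟨γ, hγ, h⟩ ⟨γ', hγ', h'⟩ => ⟨γ * γ', mul_mem hγ hγ', by rw [← hprem, h, h']⟩⟩ }
  letI := Fintype.ofFinite (Quotient st)
  let rep : Quotient st → Λ := Quotient.out
  have hrcount : E * Fintype.card (Quotient st) = Nat.card A - 1 := by
    have hb : Function.Bijective (fun z : Γ × Quotient st =>
        (⟨pre z.1.1 (rep z.2).1, hprene _ (rep z.2).2⟩ : Λ)) := by
      refine ⟨fun ⟨γ, q⟩ ⟨γ', q'⟩ h => ?_, fun μ => ?_⟩
      · have h' : pre γ.1 (rep q).1 = pre γ'.1 (rep q').1 := congrArg Subtype.val h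
        have hq : q = q' := by
          rw [← Quotient.out_eq q, ← Quotient.out_eq q']
          refine Quotient.sound ⟨γ.1 * γ'.1⁻¹, mul_mem γ.2 (inv_mem γ'.2), ?_⟩
          rw [← hprem, h', hprem, mul_inv_cancel, hpre1]
        subst hq
        have h1 := pre_free Γ hfree (mul_mem γ.2 (inv_mem γ'.2)) (rep q).2
          (by rw [← hprem, h', hprem, mul_inv_cancel, hpre1])
        rw [Subtype.ext (mul_inv_eq_one.mp h1)]
      · obtain ⟨γ, hγ, h⟩ : st.r (rep ⟦μ⟧) μ := Quotient.mk_out μ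
        exact ⟨(⟨γ, hγ⟩, ⟦μ⟧), Subtype.ext h⟩
    have h1 := Nat.card_eq_of_bijective _ hb
    rw [Nat.card_prod, hE, Nat.card_eq_fintype_card (α := Quotient st)] at h1
    rw [h1, Nat.card_eq_fintype_card, Fintype.card_subtype_compl, Fintype.card_subtype_eq,
      ← Nat.card_eq_fintype_card, Homocyclic.card_dual]
  have hrq : Fintype.card (Quotient st) = r := Nat.eq_of_mul_eq_mul_left hE1 (hrcount.trans hr.symm)
  -- the coefficients
  let C : ι → (A →* ℂˣ) → ℂ := fun x μ =>
    (Nat.card A : ℂ)⁻¹ * ∑ u : A, X x u * (1 - conj (μ u : ℂ))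
  have hCint : ∀ x μ, ∃ z : ℤ, C x μ = z := by
    intro x μ
    obtain ⟨g, hg, hgX⟩ := hgen x
    obtain ⟨a, ha⟩ := Chars.exists_classInner_eq_int hg (Homocyclic.isGen_hom (1 : A →* ℂˣ))
    obtain ⟨b, hb⟩ := Chars.exists_classInner_eq_int hg (Homocyclic.isGen_hom μ)
    refine ⟨a - b, ?_⟩
    rw [Int.cast_sub, ← ha, ← hb, Chars.classInner_def, Chars.classInner_def, ← mul_sub]
    show (Nat.card A : ℂ)⁻¹ * _ = (Nat.card A : ℂ)⁻¹ * _
    congr 1
    rw [← Finset.sum_sub_distrib]
    refine Finset.sum_congr rfl fun u _ => ?_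
    by_cases hu : u = 1
    · subst hu; simp
    · rw [hgX u hu]
      simp [mul_sub]
  choose z hz using hCint
  have hsum : ∀ (γ : MulAut A) (μ : A →* ℂˣ), ∑ u : A, (μ (γ u) : ℂ) = ∑ u : A, (μ u : ℂ) :=
    fun γ μ => Fintype.sum_equiv γ.toEquiv _ _ fun _ => rfl
  have hgramC : ∀ μ ν : A →* ℂˣ, μ ≠ 1 → ν ≠ 1 → ∑ x, C x μ * conj (C x ν) =
      (E : ℂ) + ((Finset.univ.filter fun γ : Γ => pre γ.1 ν = μ).card : ℂ) := by
    intro μ ν hμ hν
    have hA0 : (Nat.card A : ℂ) ≠ 0 := Chars.card_ne_zero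
    set f : A → ℂ := fun u => 1 - conj (μ u : ℂ) with hf
    set h : A → ℂ := fun u => 1 - (ν u : ℂ) with hh
    have step1 : ∑ x, C x μ * conj (C x ν) = (Nat.card A : ℂ)⁻¹ * (Nat.card A : ℂ)⁻¹ *
        ∑ u : A, ∑ w : A, f u * h w * ∑ x, X x u * conj (X x w) := by
      simp only [C, map_mul, map_inv₀, map_natCast, map_sum, map_sub, map_one, Complex.conj_conj,
        Finset.sum_mul, Finset.mul_sum]
      rw [Finset.sum_comm]
      refine Eq.trans ?_ Finset.sum_comm
      refine Finset.sum_congr rfl fun u _ => ?_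
      rw [Finset.sum_comm]
      exact Finset.sum_congr rfl fun w _ => Finset.sum_congr rfl fun x _ => by
        simp only [hf, hh]; ring
    have step2 : ∀ u : A, ∑ w : A, f u * h w * ∑ x, X x u * conj (X x w) =
        (Nat.card A : ℂ) * ∑ γ : Γ, f u * h (γ.1 u) := by
      intro u
      by_cases hu : u = 1
      · subst hu
        simp [hf]
      have e : ∀ w : A, f u * h w * ∑ x, X x u * conj (X x w) =
          if w ∈ Finset.univ.image (fun γ : Γ => γ.1 u) then (Nat.card A : ℂ) * (f u * h w)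
            else 0 := by
        intro w
        by_cases hw : w = 1
        · subst hw
          simp [hh]
        rw [horth u w hu hw]
        simp only [Finset.mem_image, Finset.mem_univ, true_and, Subtype.exists, exists_prop]
        split_ifs <;> ring
      rw [Finset.sum_congr rfl fun w _ => e w, Finset.sum_ite_mem, Finset.univ_inter,
        Finset.sum_image fun γ _ γ' _ hγ => ?_, Finset.mul_sum]
      refine Subtype.ext (inv_mul_eq_one.mp (hfree _ (mul_mem (inv_mem γ.2) γ'.2) u hu ?_))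
      rw [MulAut.mul_apply, ← hγ, MulAut.inv_apply_self]
    have step3 : ∀ γ : Γ, ∑ u : A, f u * h (γ.1 u) =
        (Nat.card A : ℂ) * (1 + if pre γ.1 ν = μ then 1 else 0) := by
      intro γ
      have e1 : ∑ u : A, conj (μ u : ℂ) = 0 := by
        rw [← map_sum, Homocyclic.sum_hom, if_neg hμ, map_zero]
      have e2 : ∑ u : A, (ν (γ.1 u) : ℂ) = 0 := by rw [hsum, Homocyclic.sum_hom, if_neg hν]
      have e3 := Homocyclic.sum_mul_conj (pre γ.1 ν) μ
      simp only [hf, hh, sub_mul, mul_sub, one_mul, mul_one, Finset.sum_sub_distrib, e1, e2,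
        Finset.sum_const, Finset.card_univ, nsmul_one, ← Nat.card_eq_fintype_card]
      rw [Finset.sum_congr rfl fun u _ => mul_comm (conj (μ u : ℂ)) _]
      rw [show (∑ u : A, (ν (γ.1 u) : ℂ) * conj (μ u : ℂ)) = _ from e3]
      split_ifs <;> ring
    rw [step1, Finset.sum_congr rfl fun u _ => step2 u, ← Finset.mul_sum, Finset.sum_comm,
      Finset.sum_congr rfl fun γ _ => step3 γ, ← Finset.mul_sum, Finset.sum_add_distrib,
      Finset.sum_boole, Finset.sum_const, Finset.card_univ, nsmul_one, ← Nat.card_eq_fintype_card,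
      hE]
    field_simp
  have hgram : ∀ q q' : Quotient st, ∑ x, z x (rep q).1 * z x (rep q').1 =
      (E : ℤ) + if q = q' then 1 else 0 := by
    intro q q'
    apply Int.cast_injective (α := ℂ)
    push_cast
    rw [Finset.sum_congr rfl fun x _ => show (z x (rep q).1 : ℂ) * (z x (rep q').1 : ℂ) =
      C x (rep q).1 * conj (C x (rep q').1) by rw [hz, hz, map_intCast],
      hgramC _ _ (rep q).2 (rep q').2]
    congr 1
    by_cases hq : q = q'
    · subst hq
      rw [if_pos rfl, Finset.card_eq_one.mpr ⟨1, ?_⟩, Nat.cast_one]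
      ext γ
      simp only [Finset.mem_filter, Finset.mem_univ, true_and, Finset.mem_singleton]
      exact ⟨fun h => Subtype.ext (pre_free Γ hfree γ.2 (rep q).2 h), fun h => by rw [h]; exact hpre1 _⟩
    · rw [if_neg hq, Finset.card_eq_zero.mpr (Finset.filter_eq_empty_iff.mpr fun γ _ h => hq ?_),
        Nat.cast_zero]
      rw [← Quotient.out_eq q, ← Quotient.out_eq q']
      exact (Quotient.sound (show st.r _ _ from ⟨γ.1, γ.2, h⟩)).symm
  -- every coordinate is covered
  have hcover : ∀ x, ∃ q : Quotient st, z x (rep q).1 ≠ 0 := by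
    intro x
    by_contra hno
    push Not at hno
    have hA0 : (Nat.card A : ℂ) ≠ 0 := Chars.card_ne_zero
    have hall : ∀ μ : A →* ℂˣ, ∑ u : A, X x u * (1 - conj (μ u : ℂ)) = 0 := by
      intro μ
      by_cases hμ : μ = 1
      · subst hμ; simp
      obtain ⟨γ, hγ, h⟩ : st.r (rep ⟦⟨μ, hμ⟩⟧) ⟨μ, hμ⟩ := Quotient.mk_out (s := st) ⟨μ, hμ⟩
      have h0 : C x (rep ⟦⟨μ, hμ⟩⟧).1 = 0 := by rw [hz, hno, Int.cast_zero]
      rw [show μ = pre γ (rep ⟦⟨μ, hμ⟩⟧).1 from h.symm]
      refine Eq.trans ?_ ((mul_eq_zero.mp h0).resolve_left (inv_ne_zero hA0))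
      refine Fintype.sum_equiv γ.toEquiv _ _ fun u => ?_
      show X x u * _ = X x (γ u) * _
      by_cases hu : u = 1
      · subst hu; simp [pre]
      · rw [hinv x γ hγ u hu]; rfl
    obtain ⟨u, hu, hXu⟩ := hne x
    refine hXu ?_
    -- inversion
    set S : ℂ := ∑ v ∈ Finset.univ.erase (1 : A), X x v with hS
    set Y : A → ℂ := fun v => if v = 1 then -S else X x v with hY
    have hY0 : ∀ μ : A →* ℂˣ, ∑ v : A, Y v * conj (μ v : ℂ) = 0 := by
      intro μ
      have h := hall μ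
      rw [← Finset.add_sum_erase _ _ (Finset.mem_univ (1 : A))] at h ⊢
      simp only [map_one, Units.val_one, sub_self, mul_zero, zero_add, mul_sub, mul_one,
        Finset.sum_sub_distrib] at h
      simp only [hY, if_true, map_one, Units.val_one, mul_one]
      rw [Finset.sum_congr rfl fun v hv => by rw [if_neg (Finset.ne_of_mem_erase hv)], hS]
      linear_combination -h
    have h2 : ∑ μ : A →* ℂˣ, (μ u : ℂ) * ∑ v : A, Y v * conj (μ v : ℂ) =
        (Nat.card A : ℂ) * Y u := by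
      simp only [Finset.mul_sum]
      rw [Finset.sum_comm, Finset.sum_congr rfl (g := fun v => Y v * if v⁻¹ * u = 1 then (Nat.card A : ℂ) else 0)
        fun v _ => by
          rw [← Homocyclic.sum_dual, Finset.mul_sum]
          refine Finset.sum_congr rfl fun μ _ => ?_
          rw [Homocyclic.hom_norm, map_mul, Units.val_mul]
          ring]
      simp only [inv_mul_eq_one, mul_ite, mul_zero, Finset.sum_ite_eq', Finset.mem_univ, if_true]
      ring
    simp only [hY0, mul_zero, Finset.sum_const_zero] at h2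
    have := (mul_eq_zero.mp h2.symm).resolve_left hA0
    simp only [hY] at this
    rwa [if_neg hu] at this
  have hr1 : 1 ≤ Fintype.card (Quotient st) := by
    rcases Nat.eq_zero_or_pos (Fintype.card (Quotient st)) with h0 | h0
    · rw [h0, mul_zero] at hrcount; omega
    · exact h0
  have := gram_bound (fun q x => z x (rep q).1) hE1 hl hr1 (by rw [hk, hrq]) hgram hcover
  rwa [hrq] at this

end Cfsg.Agent.BlockChar.FreeCount
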