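import Cfsg.Agent.BlockChar.FreeSign
import Cfsg.Agent.BlockChar.FreeCount

/-!
# The characters of a block with abelian defect group and free inertial action
-/

set_option autoImplicit false
set_option linter.unusedSectionVars false
set_option linter.style.haveILetI false

namespace Cfsg.Agent.BlockChar

open MonoidAlgebra
open scoped MonoidAlgebra ComplexConjugate
open Cfsg Cfsg.Agent Cfsg.Agent.Blocks

universe u

variable {G : Type u} [Group G] [Fintype G] {p : ℕ} [Fact p.Prime] {M : Ideal AlgInt}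
  [M.IsMaximal] {B : Set (IrrCharacter G)} {P : Subgroup G} {e : (Res M)[G]}

theorem FreePair.locNil_cz (D : FreePair p B P e) {v : G} (hv : v ∈ P) (hv1 : v ≠ 1) :
    LocNil p P e (cz v) :=
  D.locNil (Subgroup.zpowers_le.mpr hv) (fun h => hv1 (Subgroup.zpowers_eq_bot.mp h))

/-- Contributions are nonzero. -/
theorem FreePair.ctb_ne_zero (D : FreePair p B P e) {v : G} (hv : v ∈ P) (hv1 : v ≠ 1)
    {χ : IrrCharacter G} (hχ : χ ∈ B) : ctb (M := M) P e (χ : G → ℂ) v (cz v) ≠ 0 := by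
  intro h
  have h1 := card_mul_conP_eq D.hpM D.data D.comm hv (D.locNil_cz hv hv1) χ χ
  rw [h, zero_mul, mul_eq_zero] at h1
  have h2 := conP_pos D.hpM D.data hv (fun w hw => D.comm v hv w hw) hχ
  letI := Fintype.ofFinite P
  rw [h1.resolve_left Chars.card_ne_zero] at h2
  exact lt_irrefl _ h2

/-- The norm of the contributions at an element. -/
theorem FreePair.sum_ctb_self (D : FreePair p B P e) {v : G} (hv : v ∈ P) (hv1 : v ≠ 1) :
    ∑ χ ∈ bf B, ctb (M := M) P e (χ : G → ℂ) v (cz v) *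
      conj (ctb (M := M) P e (χ : G → ℂ) v (cz v)) = (Nat.card P : ℂ) := by
  classical
  letI := Fintype.ofFinite (cz v)
  rw [Finset.sum_congr rfl fun χ _ =>
      (card_mul_conP_eq D.hpM D.data D.comm hv (D.locNil_cz hv hv1) χ χ).symm,
    ← Finset.mul_sum, sum_conP_diag D.hpM D.data hv, ← pblk_cz D.hpM D.data D.comm hv,
    (D.locNil_cz hv hv1).rank, Nat.cast_one, mul_one]

open scoped Classical in
/-- Contributions at elements in different orbits are orthogonal. -/
theorem FreePair.sum_ctb_orth (D : FreePair p B P e) {v w : G} (hv : v ∈ P) (hv1 : v ≠ 1)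
    (hw : w ∈ P) (hw1 : w ≠ 1) (hne : w ∉ orbP P e v) :
    ∑ χ ∈ bf B, ctb (M := M) P e (χ : G → ℂ) v (cz v) *
      conj (ctb (M := M) P e (χ : G → ℂ) w (cz w)) = 0 := by
  haveI := charP_res (p := p) D.hpM
  obtain ⟨ψ, hψ⟩ := block_nonempty D.data.blk
  have hblk : ∀ x ∈ P, IsBlk (cz x) (locB p P e x) := fun x hx =>
    ((locB_spec D.hpM D.data hx).isPair_left D.data.pmax.pair).blk
  have hpe : ∀ x ∈ P, ∃ k : ℕ, orderOf x = p ^ k := fun x hx =>
    orderOf_of_mem D.data.pmax.pair.pgroup hx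
  set Θ : G → G → ℂ := fun x => star p (ψ : G → ℂ) (orbitInd x (locB p P e x)) with hΘ
  have h0 : classInner (Θ v) (Θ w) = 0 := by
    rw [hΘ, classInner_star D.hpM]
    rw [Finset.sum_eq_zero fun u _ => Finset.sum_eq_zero fun β _ => ?_, mul_zero]
    unfold orbitInd
    split_ifs with h1 h2
    · exfalso
      obtain ⟨x, hxv, hxβ⟩ := h1
      obtain ⟨y, hyw, hyβ⟩ := h2
      have hg : (y⁻¹ * x) * v * (y⁻¹ * x)⁻¹ = w := by
        calc (y⁻¹ * x) * v * (y⁻¹ * x)⁻¹ = y⁻¹ * (x * v * x⁻¹) * y := by group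
          _ = y⁻¹ * (y * w * y⁻¹) * y := by rw [hxv, hyw]
          _ = w := by group
      have hgle : PairLE p (conjS (y⁻¹ * x) (Subgroup.zpowers v),
          cj (y⁻¹ * x) (locB p P e v)) (P, e) := by
        rw [conjS_zpowers, hg, cj_mul, hxβ, ← hyβ, cj_inv_cj]
        exact locB_spec D.hpM D.data hw
      obtain ⟨c, hc, hcs⟩ :=
        exists_stab_of_abelian D.data.pmax D.comm (locB_spec D.hpM D.data hv) hgle
      rw [conjS_zpowers, hg] at hc
      refine hne ⟨c * (y⁻¹ * x), hcs, ?_⟩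
      calc c * (y⁻¹ * x) * v * (c * (y⁻¹ * x))⁻¹
          = c * ((y⁻¹ * x) * v * (y⁻¹ * x)⁻¹) * c⁻¹ := by group
        _ = w := by
          rw [hg, ← Subgroup.mem_centralizer_iff.mp hc w (Subgroup.mem_zpowers w),
            mul_inv_cancel_right]
    all_goals simp
  have hmul : ∀ χ : IrrCharacter G, (Nat.card P : ℂ) * (Nat.card P : ℂ) *
      (classInner (Θ v) (χ : G → ℂ) * classInner (χ : G → ℂ) (Θ w)) =
      (ctb (M := M) P e (ψ : G → ℂ) v (cz v) * conj (ctb (M := M) P e (ψ : G → ℂ) w (cz w))) *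
        conj (ctb (M := M) P e (χ : G → ℂ) v (cz v) *
          conj (ctb (M := M) P e (χ : G → ℂ) w (cz w))) := by
    intro χ
    have e1 : classInner (Θ v) (χ : G → ℂ) = conj (conP p P e (χ : G → ℂ) (ψ : G → ℂ) v) := by
      rw [← Chars.classInner_conj_symm, hΘ, classInner_orbit D.hpM χ ψ (hpe v hv) (hblk v hv),
        conP]
    have e2 : classInner (χ : G → ℂ) (Θ w) = conP p P e (χ : G → ℂ) (ψ : G → ℂ) w := by
      rw [hΘ, classInner_orbit D.hpM χ ψ (hpe w hw) (hblk w hw), conP]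
    rw [e1, e2]
    have f1 := congrArg conj (card_mul_conP_eq D.hpM D.data D.comm hv (D.locNil_cz hv hv1) χ ψ)
    have f2 := card_mul_conP_eq D.hpM D.data D.comm hw (D.locNil_cz hw hw1) χ ψ
    simp only [map_mul, map_natCast, Complex.conj_conj] at f1 ⊢
    linear_combination ((Nat.card P : ℂ) * conP p P e (χ : G → ℂ) (ψ : G → ℂ) w) * f1 +
      (conj (ctb (M := M) P e (χ : G → ℂ) v (cz v)) * ctb (M := M) P e (ψ : G → ℂ) v (cz v)) * f2
  have hsum : ∑ χ : IrrCharacter G, (Nat.card P : ℂ) * (Nat.card P : ℂ) *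
      (classInner (Θ v) (χ : G → ℂ) * classInner (χ : G → ℂ) (Θ w)) = 0 := by
    rw [← Finset.mul_sum, ← Chars.classInner_eq_sum (f' := Θ w)
      (isClassFunction_star D.hpM ψ (phiConj_orbitInd v (locB p P e v))), h0, mul_zero]
  rw [Finset.sum_congr rfl fun χ _ => hmul χ, ← Finset.mul_sum, ← map_sum, mul_eq_zero] at hsum
  have h3 := hsum.resolve_left (mul_ne_zero (D.ctb_ne_zero hv hv1 hψ)
    (by rw [Ne, map_eq_zero]; exact D.ctb_ne_zero hw hw1 hψ))
  rw [map_eq_zero] at h3
  rw [← h3]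
  refine Finset.sum_subset (Finset.subset_univ _) fun χ _ hχ => ?_
  rw [ctb_eq_zero D.hpM D.data D.comm hv (D.locNil_cz hv hv1) (fun h => hχ (mem_bf.mpr h)),
    zero_mul]

/-- The action of the stabilizer of the pair on the defect group. -/
noncomputable def stabAct (P : Subgroup G) (e : (Res M)[G]) : stab P e →* MulAut P :=
  P.normalizerMonoidHom.comp (Subgroup.inclusion (stab_le_normalizer P e))

theorem stabAct_apply (t : stab P e) (v : P) :
    ((stabAct P e t v : P) : G) = (t : G) * (v : G) * (t : G)⁻¹ := rfl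

theorem card_range_stabAct :
    Nat.card (stabAct (M := M) P e).range =
      (Subgroup.centralizer (P : Set G)).relIndex (stab P e) := by
  rw [← Subgroup.index_ker, Subgroup.relIndex]
  congr 1
  ext t
  rw [MonoidHom.mem_ker, Subgroup.mem_subgroupOf, Subgroup.mem_centralizer_iff]
  constructor
  · intro h v hv
    have h1 : (t : G) * v * (t : G)⁻¹ = v :=
      congrArg Subtype.val (DFunLike.congr_fun h (⟨v, hv⟩ : P))
    rw [mul_inv_eq_iff_eq_mul] at h1
    exact h1.symm
  · intro h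
    refine MulEquiv.ext fun v => Subtype.ext ?_
    rw [stabAct_apply, ← h v v.2, mul_inv_cancel_right]
    rfl

/-- The signed contribution of a character at an element. -/
noncomputable def sctb (P : Subgroup G) (e : (Res M)[G]) (χ : IrrCharacter G) (v : G) : ℂ :=
  (sgn (M := M) P e (Subgroup.zpowers v) : ℂ) * ctb (M := M) P e (χ : G → ℂ) v (cz v)

theorem FreePair.sctb_conj (D : FreePair p B P e) (χ : IrrCharacter G) {t : G}
    (ht : t ∈ stab P e) {v : G} (hv : v ∈ P) :
    sctb (M := M) P e χ (t * v * t⁻¹) = sctb (M := M) P e χ v := by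
  have h1 : sgn (M := M) P e (Subgroup.zpowers (t * v * t⁻¹)) =
      sgn (M := M) P e (Subgroup.zpowers v) := by
    rw [← conjS_zpowers]
    exact D.sgn_conj _ (Subgroup.zpowers_le.mpr hv) t ht
  have h2 : ctb (M := M) P e (χ : G → ℂ) (t * v * t⁻¹) (cz (t * v * t⁻¹)) =
      ctb (M := M) P e (χ : G → ℂ) v (cz v) := by
    rw [← conjS_cz, ctb_conj D.hpM D.data.pmax.pair ht (le_cz D.comm hv).1 (le_cz D.comm hv).2]
    exact ctb_congr fun c => Chars.isClassFunction_irr χ _ _
  rw [sctb, sctb, h1, h2]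

open scoped Classical in
theorem FreePair.sum_sctb (D : FreePair p B P e) {v w : G} (hv : v ∈ P) (hv1 : v ≠ 1)
    (hw : w ∈ P) (hw1 : w ≠ 1) :
    ∑ χ ∈ bf B, sctb (M := M) P e χ v * conj (sctb (M := M) P e χ w) =
      if w ∈ orbP P e v then (Nat.card P : ℂ) else 0 := by
  split_ifs with h
  · obtain ⟨t, ht, rfl⟩ := h
    rw [← D.sum_ctb_self hv hv1]
    refine Finset.sum_congr rfl fun χ _ => ?_
    rw [D.sctb_conj χ ht hv]
    unfold sctb
    rw [map_mul, map_intCast, mul_mul_mul_comm, sgn_sq, one_mul]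
  · have e1 : ∀ χ : IrrCharacter G, sctb (M := M) P e χ v * conj (sctb (M := M) P e χ w) =
        ((sgn (M := M) P e (Subgroup.zpowers v) : ℂ) * (sgn (M := M) P e (Subgroup.zpowers w) : ℂ)) *
          (ctb (M := M) P e (χ : G → ℂ) v (cz v) *
            conj (ctb (M := M) P e (χ : G → ℂ) w (cz w))) := fun χ => by
      unfold sctb
      rw [map_mul, map_intCast, mul_mul_mul_comm]
    rw [Finset.sum_congr rfl fun χ _ => e1 χ, ← Finset.mul_sum,
      D.sum_ctb_orth hv hv1 hw hw1 h, mul_zero]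

theorem FreePair.stabAct_free (D : FreePair p B P e) :
    ∀ γ ∈ (stabAct (M := M) P e).range, ∀ u : P, u ≠ 1 → γ u = u → γ = 1 := by
  rintro _ ⟨t, rfl⟩ u hu h
  have h' : (t : G) * (u : G) * (t : G)⁻¹ = u := congrArg Subtype.val h
  have h1 := D.free t t.2 u u.2 (fun hh => hu (Subtype.ext hh)) h'
  refine MulEquiv.ext fun v => Subtype.ext ?_
  rw [stabAct_apply, ← Subgroup.mem_centralizer_iff.mp h1 v v.2, mul_inv_cancel_right]
  rfl

theorem exists_stabAct_iff (u w : P) :
    (∃ γ ∈ (stabAct (M := M) P e).range, γ u = w) ↔ (w : G) ∈ orbP P e (u : G) := by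
  constructor
  · rintro ⟨_, ⟨t, rfl⟩, h⟩
    exact ⟨t, t.2, (stabAct_apply t u).symm.trans (congrArg Subtype.val h)⟩
  · rintro ⟨t, ht, h⟩
    exact ⟨_, ⟨⟨t, ht⟩, rfl⟩, Subtype.ext ((stabAct_apply ⟨t, ht⟩ u).trans h)⟩

open scoped Classical in
/-- The bound on the regular rank. -/
theorem FreePair.count (D : FreePair p B P e) (hP1 : P ≠ ⊥) {r : ℕ}
    (hk : Nat.card B = blockRank p B + r)
    (hr : (Subgroup.centralizer (P : Set G)).relIndex (stab P e) * r = Nat.card P - 1) :
    blockRank p B ≤ (Subgroup.centralizer (P : Set G)).relIndex (stab P e) ∧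
      ((Subgroup.centralizer (P : Set G)).relIndex (stab P e) ≤ 3 →
        blockRank p B = (Subgroup.centralizer (P : Set G)).relIndex (stab P e) ∨
          ((Subgroup.centralizer (P : Set G)).relIndex (stab P e) = 2 ∧ r = 3) ∨
          ((Subgroup.centralizer (P : Set G)).relIndex (stab P e) = 3 ∧ (r = 3 ∨ r = 4))) := by
  letI : CommGroup P := { (inferInstance : Group P) with
    mul_comm := fun a b => Subtype.ext (D.comm a a.2 b b.2) }
  letI := Fintype.ofFinite P
  have hne1 : ∀ u : P, u ≠ 1 → (u : G) ≠ 1 := fun u hu h => hu (Subtype.ext h)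
  obtain ⟨v, hv, hv1⟩ := (Subgroup.bot_or_exists_ne_one P).resolve_left hP1
  refine FreeCount.free_count (A := P) (ι := ↥(bf B)) (stabAct (M := M) P e).range
    D.stabAct_free (fun χ u => sctb (M := M) P e χ.1 (u : G)) ?_ ?_ ?_ ?_
    card_range_stabAct (blockRank_pos D.hpM D.data.blk)
    (by rw [Fintype.card_coe, ← card_bf, hk]) hr
    (Finite.one_lt_card_iff_nontrivial.mpr ((Subgroup.nontrivial_iff_ne_bot P).mpr hP1))
  · intro χ
    obtain ⟨g, hg, hgv⟩ := D.exists_gen (Chars.isGen_of_isCharacter (Chars.irr_isCharacter χ.1))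
    exact ⟨g, hg, fun u hu => hgv u (hne1 u hu)⟩
  · rintro χ _ ⟨t, rfl⟩ u -
    rw [stabAct_apply, D.sctb_conj χ.1 t.2 u.2]
  · intro u w hu hw
    have h1 := D.sum_sctb u.2 (hne1 u hu) w.2 (hne1 w hw)
    have h2 := Finset.sum_coe_sort (bf B) fun χ : IrrCharacter G =>
      sctb (M := M) P e χ (u : G) * conj (sctb (M := M) P e χ (w : G))
    rw [h2, h1]
    by_cases h : (w : G) ∈ orbP P e (u : G)
    · rw [if_pos h, if_pos]
      exact (exists_stabAct_iff u w).mpr h
    · rw [if_neg h, if_neg]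
      exact fun h' => h ((exists_stabAct_iff u w).mp h')
  · intro χ
    refine ⟨⟨v, hv⟩, fun h => hv1 (congrArg Subtype.val h), mul_ne_zero
      (fun h => ?_) (D.ctb_ne_zero hv hv1 (mem_bf.mp χ.2))⟩
    have h1 := sgn_sq (M := M) (P := P) (e := e) (Subgroup.zpowers v)
    rw [h, zero_mul] at h1
    exact zero_ne_one h1

end Cfsg.Agent.BlockChar
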