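import Cfsg.Agent.BlockChar.LocalRank
import Cfsg.Agent.BlockChar.AbelianPairing
import Cfsg.Agent.Chars.Transport
import Cfsg.Agent.Chars.Linear
import Cfsg.Agent.Screen.BrauerP.Tools

/-!
# Contributions at subgroups of an abelian defect group

The contribution of a function at an element `u` of the subgroup `K`, taken in the block of `K`
below the pair `(P, e)`.
-/

set_option autoImplicit false
set_option linter.unusedSectionVars false
set_option linter.style.haveILetI false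

namespace Cfsg.Agent.BlockChar

open MonoidAlgebra
open scoped MonoidAlgebra ComplexConjugate
open Cfsg Cfsg.Agent Cfsg.Agent.Blocks

universe u

variable {G : Type u} [Group G] [Fintype G] {p : ℕ} [Fact p.Prime] {M : Ideal AlgInt}
  [M.IsMaximal] {B : Set (IrrCharacter G)} {P : Subgroup G} {e : (Res M)[G]}

open scoped Classical in
/-- The block of `K` with the pair `(P, e)`. -/
noncomputable def pblk (P : Subgroup G) (e : (Res M)[G]) (K : Subgroup G) :
    Set (IrrCharacter K) :=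
  if h : ∃ c : Set (IrrCharacter K), IsPBlock M c ∧ OfBlock (idemS M c) P e then h.choose else ∅

theorem pblk_eq (hpM : (p : AlgInt) ∈ M) (hP : IsPair p P e) {K : Subgroup G} (hPK : P ≤ K)
    (hC : Subgroup.centralizer (P : Set G) ≤ K) {c : Set (IrrCharacter K)} (hc : IsPBlock M c)
    (ho : OfBlock (idemS M c) P e) : pblk P e K = c := by
  classical
  haveI := charP_res (p := p) hpM
  have h : ∃ c : Set (IrrCharacter K), IsPBlock M c ∧ OfBlock (idemS M c) P e := ⟨c, hc, ho⟩
  rw [pblk, dif_pos h]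
  exact (idemS_inj hpM h.choose_spec.1 hc).mp ((existsUnique_ofBlock_in hP hPK hC).unique
    ⟨isBlk_idemS hpM h.choose_spec.1, h.choose_spec.2⟩ ⟨isBlk_idemS hpM hc, ho⟩)

theorem pblk_spec (hpM : (p : AlgInt) ∈ M) (hP : IsPair p P e) {K : Subgroup G} (hPK : P ≤ K)
    (hC : Subgroup.centralizer (P : Set G) ≤ K) :
    IsPBlock M (pblk P e K) ∧ OfBlock (idemS M (pblk P e K)) P e := by
  obtain ⟨c, hc, ho, -⟩ := exists_rk hpM hP hPK hC
  rw [pblk_eq hpM hP hPK hC hc ho]
  exact ⟨hc, ho⟩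

theorem pblk_cz (hpM : (p : AlgInt) ∈ M) (D : MaxData p B P e)
    (hab : ∀ x ∈ P, ∀ y ∈ P, x * y = y * x) {v : G} (hv : v ∈ P) [Fintype (cz v)] :
    pblk P e (cz v) = blkSet (M := M) v (locB p P e v) := by
  haveI := charP_res (p := p) hpM
  have hle := locB_spec hpM D hv
  have hβ : IsBlk (cz v) (locB p P e v) := (hle.isPair_left D.pmax.pair).blk
  obtain ⟨hbs, hbe⟩ := blkSet_spec hpM hβ
  have hPC : P ≤ cz v := fun w hw => mem_cz.mpr (hab v hv w hw)
  have hCC : Subgroup.centralizer (P : Set G) ≤ cz v := fun w hw =>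
    mem_cz.mpr (Subgroup.mem_centralizer_iff.mp hw v hv)
  refine pblk_eq hpM D.pmax.pair hPC hCC hbs ?_
  rw [hbe]
  refine (PairLE.ofBlock_iff_in hle hPC le_rfl hβ).mp ?_
  show br (Subgroup.zpowers v) (locB p P e v) * locB p P e v = locB p P e v
  rw [br_eq_self hβ.supp, hβ.idem]

open scoped Classical in
/-- The contribution of `F` at `u` in the block of `K` with the pair `(P, e)`. -/
noncomputable def ctb (P : Subgroup G) (e : (Res M)[G]) (F : G → ℂ) (u : G) (K : Subgroup G) :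
    ℂ :=
  letI := Fintype.ofFinite K
  ∑ θ ∈ bf (pblk P e K), classInner (fun c : K => F (u * (c : G))) (θ : K → ℂ)

theorem ctb_congr {F F' : G → ℂ} {u : G} {K : Subgroup G}
    (h : ∀ c : K, F (u * (c : G)) = F' (u * (c : G))) :
    ctb (M := M) P e F u K = ctb (M := M) P e F' u K := by
  unfold ctb
  rw [show (fun c : K => F (u * (c : G))) = fun c : K => F' (u * (c : G)) from funext h]

theorem ctb_sum {ι : Type*} (s : Finset ι) (a : ι → ℂ) (F : ι → G → ℂ) (u : G) (K : Subgroup G) :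
    ctb (M := M) P e (fun g => ∑ i ∈ s, a i * F i g) u K =
      ∑ i ∈ s, a i * ctb (M := M) P e (F i) u K := by
  classical
  simp only [ctb, Finset.mul_sum]
  rw [Finset.sum_comm]
  refine Finset.sum_congr rfl fun θ _ => ?_
  simp only [Chars.classInner_def, Finset.mul_sum, Finset.sum_mul]
  rw [Finset.sum_comm]
  exact Finset.sum_congr rfl fun c _ => Finset.sum_congr rfl fun i _ => by ring

theorem ctb_smul (a : ℂ) (F : G → ℂ) (u : G) (K : Subgroup G) :
    ctb (M := M) P e (fun g => a * F g) u K = a * ctb (M := M) P e F u K := by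
  simpa using ctb_sum (M := M) (P := P) (e := e) {()} (fun _ => a) (fun _ => F) u K

/-- Transport of contributions along an isomorphism of subgroups. -/
theorem ctb_transport {H : Type u} [Group H] [Fintype H] {P' : Subgroup H} {e' : (Res M)[H]}
    {K' : Subgroup H} {K : Subgroup G} (φ : K' ≃* K)
    (hblk : pblk P e K = mapSet φ (pblk P' e' K')) (F : G → ℂ) (F' : H → ℂ) (u : G) (u' : H)
    (h : ∀ c : K', F (u * (φ c : G)) = F' (u' * (c : H))) :
    ctb (M := M) P e F u K = ctb (M := M) P' e' F' u' K' := by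
  classical
  letI := Fintype.ofFinite K
  letI := Fintype.ofFinite K'
  unfold ctb
  refine Finset.sum_equiv (irrEquiv φ) (fun θ => ?_) fun θ _ => ?_
  · rw [mem_bf, mem_bf, hblk]; rfl
  · rw [show (fun c : K' => F' (u' * (c : H))) = fun c : K' => F (u * (φ c : G)) from
      funext fun c => (h c).symm]
    exact (Chars.classInner_comp_equiv φ (fun c : K => F (u * (c : G))) (θ : K → ℂ)).symm

/-- Subgroups of a subgroup. -/
theorem pblk_map (hpM : (p : AlgInt) ∈ M) {H : Subgroup G} [Fintype H] {P' : Subgroup H}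
    {e' : (Res M)[H]} (S : SubPair p P e H P' e') (hP : IsPair p P' e') (hPG : IsPair p P e)
    (hC : Subgroup.centralizer (P : Set G) ≤ H) {K : Subgroup H} (hPK : P' ≤ K)
    (hCK : Subgroup.centralizer (P' : Set H) ≤ K) :
    pblk P e (K.map H.subtype) =
      mapSet (K.equivMapOfInjective H.subtype H.subtype_injective) (pblk P' e' K) := by
  classical
  haveI := charP_res (p := p) hpM
  obtain ⟨hc, hco⟩ := pblk_spec hpM hP hPK hCK
  have hidem : idemS M (mapSet (K.equivMapOfInjective H.subtype H.subtype_injective)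
      (pblk P' e' K)) = emb (Res M) H (idemS M (pblk P' e' K)) := by
    rw [emb_idem (ι := K.subtype) K.subtype_injective]
    refine idem_mapSet (ι := H.subtype.comp K.subtype) ?_ _ ?_ _
    · exact H.subtype_injective.comp K.subtype_injective
    · exact MonoidHom.ext fun x => rfl
  refine pblk_eq hpM hPG ?_ ?_ (isPBlock_mapSet _ hc) ?_
  · rw [← S.map_eq]; exact Subgroup.map_mono hPK
  · rw [← inf_eq_right.mpr hC, ← S.map_eq, ← map_centralizer]
    exact Subgroup.map_mono hCK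
  · show br P (idemS M (mapSet _ (pblk P' e' K))) * e = e
    rw [hidem, ← S.map_eq, ← S.emb_eq, ← emb_br, ← map_mul]
    exact congrArg _ hco

/-- Contributions inside a subgroup. -/
theorem ctb_map (hpM : (p : AlgInt) ∈ M) {H : Subgroup G} [Fintype H] {P' : Subgroup H}
    {e' : (Res M)[H]} (S : SubPair p P e H P' e') (hP : IsPair p P' e') (hPG : IsPair p P e)
    (hC : Subgroup.centralizer (P : Set G) ≤ H) {K : Subgroup H} (hPK : P' ≤ K)
    (hCK : Subgroup.centralizer (P' : Set H) ≤ K) (F : G → ℂ) (u : H) :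
    ctb (M := M) P e F (u : G) (K.map H.subtype) =
      ctb (M := M) P' e' (fun h : H => F (h : G)) u K :=
  ctb_transport _ (pblk_map hpM S hP hPG hC hPK hCK) F _ _ _ fun _ => rfl

/-- Conjugation by an element of the stabilizer of the pair. -/
theorem ctb_conj (hpM : (p : AlgInt) ∈ M) (hP : IsPair p P e) {t : G} (ht : t ∈ stab P e)
    {K : Subgroup G} (hPK : P ≤ K) (hC : Subgroup.centralizer (P : Set G) ≤ K) (F : G → ℂ)
    (u : G) :
    ctb (M := M) P e F (t * u * t⁻¹) (conjS t K) =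
      ctb (M := M) P e (fun g => F (t * g * t⁻¹)) u K := by
  classical
  haveI := charP_res (p := p) hpM
  let φ : K ≃* conjS t K := (MulAut.conj t).subgroupMap K
  have hφ : ∀ c : K, ((φ c : conjS t K) : G) = t * (c : G) * t⁻¹ := fun c => rfl
  have hPt : conjS t P = P := conjS_eq_self_of_mem_normalizer ht.1
  obtain ⟨hc, hco⟩ := pblk_spec hpM hP hPK hC
  refine ctb_transport φ ?_ F _ _ _ fun c => ?_
  · refine pblk_eq hpM hP ?_ ?_ (isPBlock_mapSet φ hc) ?_
    · rw [← hPt]; exact conjS_le hPK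
    · rw [← hPt, ← conjS_centralizer]; exact conjS_le hC
    · have hid : idemS M (mapSet φ (pblk P e K)) = cj t (idemS M (pblk P e K)) :=
        (cj_idem (ι := K.subtype) (ι' := (conjS t K).subtype) K.subtype_injective φ t hφ _).symm
      show br P (idemS M (mapSet φ (pblk P e K))) * e = e
      have h : cj t (br P (idemS M (pblk P e K)) * e) = cj t e := congrArg _ hco
      rwa [map_mul, br_cj, hPt, ← hid, ht.2] at h
  · rw [hφ]
    congr 1
    group

/-- A block with one regular function, with one character for each element of `P`. -/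
structure LocNil (p : ℕ) (P : Subgroup G) (e : (Res M)[G]) (K : Subgroup G) : Prop where
  agree : ∀ θ ∈ pblk P e K, ∀ θ' ∈ pblk P e K, ∀ s : K, ¬ p ∣ orderOf s →
    (θ : K → ℂ) s = (θ' : K → ℂ) s
  rank : blockRank p (pblk P e K) = 1
  card : Nat.card (pblk P e K) = Nat.card P

/-- The block part on the regular elements. -/
theorem LocNil.blockPart_eq {K : Subgroup G} (L : LocNil p P e K) {θ₀ : IrrCharacter K}
    (hθ₀ : θ₀ ∈ pblk P e K) (F : G → ℂ) (u : G) [Fintype K] {s : K} (hs : ¬ p ∣ orderOf s) :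
    blockPart (pblk P e K) (fun c : K => F (u * (c : G))) s =
      ctb (M := M) P e F u K * (θ₀ : K → ℂ) s := by
  classical
  obtain rfl : ‹Fintype K› = Fintype.ofFinite K := Subsingleton.elim _ _
  letI := Fintype.ofFinite K
  rw [blockPart, finsum_mem_bf, ctb, Finset.sum_mul]
  refine Finset.sum_congr rfl fun θ hθ => ?_
  rw [L.agree θ (mem_bf.mp hθ) θ₀ hθ₀ s hs]

theorem sec_eq_ctb (hpM : (p : AlgInt) ∈ M) (D : MaxData p B P e)
    (hab : ∀ x ∈ P, ∀ y ∈ P, x * y = y * x) {v : G} (hv : v ∈ P) (L : LocNil p P e (cz v))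
    {θ₀ : IrrCharacter (cz v)} (hθ₀ : θ₀ ∈ pblk P e (cz v)) (χ : IrrCharacter G) [Fintype (cz v)]
    {s : cz v} (hs : ¬ p ∣ orderOf s) :
    sec (χ : G → ℂ) v (locB p P e v) (s : G) =
      ctb (M := M) P e (χ : G → ℂ) v (cz v) * (θ₀ : cz v → ℂ) s := by
  rw [sec_eq_secPart hpM χ ((locB_spec hpM D hv).isPair_left D.pmax.pair).blk,
    ← L.blockPart_eq hθ₀ (χ : G → ℂ) v hs, ← pblk_cz hpM D hab hv]
  rfl

theorem exists_mem_pblk (hpM : (p : AlgInt) ∈ M) (hP : IsPair p P e) {K : Subgroup G}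
    (hPK : P ≤ K) (hC : Subgroup.centralizer (P : Set G) ≤ K) :
    ∃ θ₀ : IrrCharacter K, θ₀ ∈ pblk P e K :=
  letI := Fintype.ofFinite K
  block_nonempty (pblk_spec hpM hP hPK hC).1

theorem le_cz (hab : ∀ x ∈ P, ∀ y ∈ P, x * y = y * x) {v : G} (hv : v ∈ P) :
    P ≤ cz v ∧ Subgroup.centralizer (P : Set G) ≤ cz v :=
  ⟨fun w hw => mem_cz.mpr (hab v hv w hw),
    fun w hw => mem_cz.mpr (Subgroup.mem_centralizer_iff.mp hw v hv)⟩

/-- Characters outside the block contribute nothing. -/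
theorem ctb_eq_zero (hpM : (p : AlgInt) ∈ M) (D : MaxData p B P e)
    (hab : ∀ x ∈ P, ∀ y ∈ P, x * y = y * x) {v : G} (hv : v ∈ P) (L : LocNil p P e (cz v))
    {χ : IrrCharacter G} (hχ : χ ∉ B) : ctb (M := M) P e (χ : G → ℂ) v (cz v) = 0 := by
  classical
  haveI := charP_res (p := p) hpM
  letI := Fintype.ofFinite (cz v)
  obtain ⟨θ₀, hθ₀⟩ := exists_mem_pblk hpM D.pmax.pair (le_cz hab hv).1 (le_cz hab hv).2
  have hle := locB_spec hpM D hv
  have hβ : IsBlk (cz v) (locB p P e v) := (hle.isPair_left D.pmax.pair).blk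
  have hvp : ∃ k : ℕ, orderOf v = p ^ k := orderOf_of_mem D.pmax.pair.pgroup hv
  have hind := isInduced_blkSet hpM D.blk hvp hβ
    ((hle.ofBlock_iff (isBlk_idemG hpM D.blk)).mpr D.ofB)
  have h1 : ¬ p ∣ orderOf (1 : cz v) := by
    rw [orderOf_one]; exact (Fact.out : p.Prime).not_dvd_one
  have h0 := secPart_eq_zero (cz_eq v) hvp hpM hind hχ h1
  rw [← sec_eq_secPart hpM χ hβ, sec_eq_ctb hpM D hab hv L hθ₀ χ h1, mul_eq_zero] at h0
  exact h0.resolve_right (Chars.irr_apply_one_ne_zero θ₀.2)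

/-- The contribution at an element as a product. -/
theorem card_mul_conP_eq (hpM : (p : AlgInt) ∈ M) (D : MaxData p B P e)
    (hab : ∀ x ∈ P, ∀ y ∈ P, x * y = y * x) {v : G} (hv : v ∈ P) (L : LocNil p P e (cz v))
    (χ ψ : IrrCharacter G) :
    (Nat.card P : ℂ) * conP p P e (χ : G → ℂ) (ψ : G → ℂ) v =
      ctb (M := M) P e (χ : G → ℂ) v (cz v) * conj (ctb (M := M) P e (ψ : G → ℂ) v (cz v)) := by
  classical
  haveI := charP_res (p := p) hpM
  letI := Fintype.ofFinite (cz v)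
  obtain ⟨θ₀, hθ₀⟩ := exists_mem_pblk hpM D.pmax.pair (le_cz hab hv).1 (le_cz hab hv).2
  have hblk := (pblk_spec hpM D.pmax.pair (le_cz hab hv).1 (le_cz hab hv).2).1
  have hN : (Nat.card P : ℂ) * ∑ s ∈ regs p (cz v), (θ₀ : cz v → ℂ) s * conj ((θ₀ : cz v → ℂ) s) =
      (Nat.card (cz v) : ℂ) := by
    have h := card_mul_blockRank hpM hblk
    rw [L.rank, Nat.cast_one, mul_one] at h
    rw [h, Finset.mul_sum, ← L.card, card_bf]
    refine Finset.sum_congr rfl fun s hs => ?_
    rw [kerB, Finset.sum_congr rfl fun θ hθ => by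
      rw [L.agree θ (mem_bf.mp hθ) θ₀ hθ₀ s (mem_regs.mp hs)], Finset.sum_const, nsmul_eq_mul]
  have hm : m2 p (χ : G → ℂ) (ψ : G → ℂ) v (locB p P e v) =
      ctb (M := M) P e (χ : G → ℂ) v (cz v) * conj (ctb (M := M) P e (ψ : G → ℂ) v (cz v)) *
        ∑ s ∈ regs p (cz v), (θ₀ : cz v → ℂ) s * conj ((θ₀ : cz v → ℂ) s) := by
    rw [m2, Finset.mul_sum]
    refine Finset.sum_congr (by congr! 1) fun s hs => ?_
    rw [sec_eq_ctb hpM D hab hv L hθ₀ χ (mem_regs.mp hs),
      sec_eq_ctb hpM D hab hv L hθ₀ ψ (mem_regs.mp hs), map_mul]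
    ring
  have hne : (Nat.card (cz v) : ℂ) ≠ 0 := Chars.card_ne_zero
  rw [conP, hm, ← hN]
  have hn0 : ∑ s ∈ regs p (cz v), (θ₀ : cz v → ℂ) s * conj ((θ₀ : cz v → ℂ) s) ≠ 0 := fun h => by
    rw [h, mul_zero] at hN
    exact hne hN.symm
  field_simp

theorem irr_one_of_comm (hab : ∀ x ∈ P, ∀ y ∈ P, x * y = y * x) (ν : IrrCharacter P) :
    (ν : P → ℂ) 1 = 1 :=
  Chars.irr_apply_one_of_comm (fun a b => Subtype.ext (hab a a.2 b b.2)) ν.2

/-- A nilpotent block with abelian defect group has one regular function. -/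
theorem nilpotent_agree (hpM : (p : AlgInt) ∈ M) (D : MaxData p B P e)
    (hnil : IsNilB p (idemG M B)) (hab : ∀ x ∈ P, ∀ y ∈ P, x * y = y * x) :
    (∀ φ ∈ B, ∀ φ' ∈ B, ∀ s : G, ¬ p ∣ orderOf s → (φ : G → ℂ) s = (φ' : G → ℂ) s) ∧
      blockRank p B = 1 ∧ Nat.card B = Nat.card P := by
  classical
  letI := Fintype.ofFinite P
  obtain ⟨χ, hχ, h0⟩ := exists_height_zero (p := p) D.blk
  obtain ⟨Φ, hΦ⟩ := exists_equiv_of_nilpotent hpM D hnil hχ h0
  have h1 : ∀ ν : IrrCharacter P, (charDegree (ν : P → ℂ) : ℂ) = 1 := fun ν => by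
    rw [← (charDegree_eq ν.2).1, irr_one_of_comm hab ν]
  refine ⟨fun φ hφ φ' hφ' s hs => ?_,
    (blockRank_of_nilpotent hpM ((isNilpotentBlock_iff_isNilB hpM D.blk).mpr hnil)).1, ?_⟩
  · rw [(hΦ ⟨φ, hφ⟩).1 s hs, (hΦ ⟨φ', hφ'⟩).1 s hs, h1, h1]
  · rw [Nat.card_congr Φ, Screen.BrauerP.card_irr_of_comm fun a b => Subtype.ext (hab a a.2 b b.2)]

end Cfsg.Agent.BlockChar
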