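import Cfsg.Agent.BlockChar.FreeNilpotent

/-!
# The blocks of the centralizers below an abelian defect group with free inertial action
-/

set_option autoImplicit false
set_option linter.unusedSectionVars false
set_option linter.style.haveILetI false

namespace Cfsg.Agent.BlockChar

open MonoidAlgebra
open scoped MonoidAlgebra ComplexConjugate
open Cfsg Cfsg.Agent Cfsg.Agent.Blocks

universe u

variable {G : Type u} [Group G] [Fintype G] {p : ℕ} [Fact p.Prime] {M : Ideal AlgInt}
  [M.IsMaximal] {B : Set (IrrCharacter G)} {P : Subgroup G} {e : (Res M)[G]}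

/-- An abelian maximal pair on whose group the inertial quotient acts freely. -/
structure FreePair (p : ℕ) (B : Set (IrrCharacter G)) (P : Subgroup G) (e : (Res M)[G]) : Prop
    where
  hpM : (p : AlgInt) ∈ M
  data : MaxData p B P e
  comm : ∀ x ∈ P, ∀ y ∈ P, x * y = y * x
  free : ∀ t ∈ stab P e, ∀ x ∈ P, x ≠ 1 → t * x * t⁻¹ = x → t ∈ Subgroup.centralizer (P : Set G)

theorem FreePair.le_centralizer (D : FreePair p B P e) {T : Subgroup G} (hT : T ≤ P) :
    P ≤ Subgroup.centralizer (T : Set G) ∧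
      Subgroup.centralizer (P : Set G) ≤ Subgroup.centralizer (T : Set G) :=
  ⟨fun w hw => Subgroup.mem_centralizer_iff.mpr fun y hy => D.comm y (hT hy) w hw,
    centralizer_anti hT⟩

theorem FreePair.stab_inf_le (D : FreePair p B P e) {T : Subgroup G} (hT : T ≤ P) (hT1 : T ≠ ⊥) :
    stab P e ⊓ Subgroup.centralizer (T : Set G) ≤ Subgroup.centralizer (P : Set G) := by
  intro t ht
  haveI := (Subgroup.nontrivial_iff_ne_bot T).mpr hT1
  obtain ⟨⟨r, hr⟩, hr1⟩ := exists_ne (1 : T)
  refine D.free t ht.1 r (hT hr) (fun h => hr1 (Subtype.ext h)) ?_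
  rw [← Subgroup.mem_centralizer_iff.mp ht.2 r hr, mul_inv_cancel_right]

/-- The block of `C(T)` and its pair, inside `C(T)`. -/
theorem FreePair.exists_sub (D : FreePair p B P e) {T : Subgroup G} (hT : T ≤ P) (hT1 : T ≠ ⊥)
    [Fintype (Subgroup.centralizer (T : Set G))] :
    ∃ (P' : Subgroup (Subgroup.centralizer (T : Set G)))
      (e' : (Res M)[Subgroup.centralizer (T : Set G)]),
      SubPair p P e (Subgroup.centralizer (T : Set G)) P' e' ∧
        MaxData p (pblk P e (Subgroup.centralizer (T : Set G))) P' e' ∧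
        IsNilB p (idemG M (pblk P e (Subgroup.centralizer (T : Set G)))) := by
  haveI := charP_res (p := p) D.hpM
  obtain ⟨hPH, hCH⟩ := D.le_centralizer hT
  obtain ⟨P', e', B', S, D', -⟩ := exists_subPair D.hpM D.data.pmax hPH hCH
  have ho : OfBlock (idemS M B') P e := by
    show br P (idemS M B') * e = e
    rw [← emb_idemG, ← S.map_eq, ← S.emb_eq, ← emb_br, ← map_mul]
    exact congrArg _ D'.ofB
  have hB' : pblk P e (Subgroup.centralizer (T : Set G)) = B' :=
    pblk_eq D.hpM D.data.pmax.pair hPH hCH D'.blk ho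
  refine ⟨P', e', S, hB' ▸ D', ?_⟩
  rw [hB', ← isNilpotentBlock_iff_isNilB D.hpM D'.blk, isNilpotentBlock_sub_iff D.hpM D'.blk]
  obtain ⟨g, hg, hgle⟩ := pairLE_exists D.data.pmax.pair T hT
  have hg' : OfBlock g P e := by
    refine (hgle.ofBlock_iff_in hPH le_rfl hg.blk).mp ?_
    show br T g * g = g
    rw [br_eq_self hg.blk.supp, hg.blk.idem]
  have heq : g = idemS M B' := (existsUnique_ofBlock_in D.data.pmax.pair hPH hCH).unique
    ⟨hg.blk, hg'⟩ ⟨isBlk_idemS D.hpM D'.blk, ho⟩
  rw [heq] at hgle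
  rw [isNilBIn_iff_abelian D.data.pmax (isBlk_idemG D.hpM D.data.blk) D.data.ofB D.comm hgle]
  exact D.stab_inf_le hT hT1

theorem SubPair.comm {H : Subgroup G} [Fintype H] {P' : Subgroup H} {e' : (Res M)[H]}
    (S : SubPair p P e H P' e') (hab : ∀ x ∈ P, ∀ y ∈ P, x * y = y * x) :
    ∀ x ∈ P', ∀ y ∈ P', x * y = y * x := fun x hx y hy =>
  Subtype.ext (hab _ (S.mem_iff.mp hx) _ (S.mem_iff.mp hy))

/-- The blocks of the centralizers are nilpotent. -/
theorem FreePair.locNil (D : FreePair p B P e) {T : Subgroup G} (hT : T ≤ P) (hT1 : T ≠ ⊥) :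
    LocNil p P e (Subgroup.centralizer (T : Set G)) := by
  classical
  letI := Fintype.ofFinite (Subgroup.centralizer (T : Set G))
  obtain ⟨P', e', S, D', hnil⟩ := D.exists_sub hT hT1
  obtain ⟨h1, h2, h3⟩ := nilpotent_agree D.hpM D' hnil (S.comm D.comm)
  refine ⟨h1, h2, h3.trans ?_⟩
  refine Eq.trans (Nat.card_congr (Subgroup.equivMapOfInjective P' _
    (Subgroup.centralizer (T : Set G)).subtype_injective).toEquiv) ?_
  rw [S.map_eq]

theorem LocNil.transfer (hpM : (p : AlgInt) ∈ M) {H : Subgroup G} [Fintype H] {P' : Subgroup H}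
    {e' : (Res M)[H]} (S : SubPair p P e H P' e') (hP : IsPair p P' e') (hPG : IsPair p P e)
    (hC : Subgroup.centralizer (P : Set G) ≤ H) {K : Subgroup H} (hPK : P' ≤ K)
    (hCK : Subgroup.centralizer (P' : Set H) ≤ K) (L : LocNil p P e (K.map H.subtype)) :
    LocNil p P' e' K := by
  classical
  set φ := K.equivMapOfInjective H.subtype H.subtype_injective
  have h := pblk_map hpM S hP hPG hC hPK hCK
  refine ⟨fun θ hθ θ' hθ' s hs => ?_, ?_, ?_⟩
  · have e1 : ∀ θ : IrrCharacter K, θ ∈ pblk P' e' K → (irrEquiv φ).symm θ ∈ pblk P e (K.map H.subtype) := fun θ hθ => by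
      rw [h, mapSet, Set.mem_setOf_eq, Equiv.apply_symm_apply]
      exact hθ
    have hl := L.agree _ (e1 θ hθ) _ (e1 θ' hθ') (φ s) (by rwa [MulEquiv.orderOf_eq])
    rwa [← irrEquiv_apply, ← irrEquiv_apply, Equiv.apply_symm_apply, Equiv.apply_symm_apply] at hl
  · have := L.rank
    rwa [h, blockRank_mapSet] at this
  · rw [show Nat.card P' = Nat.card P from (Nat.card_congr (Subgroup.equivMapOfInjective P' _
      H.subtype_injective).toEquiv).trans (by rw [S.map_eq]), ← L.card, h]
    exact (Nat.card_congr ((irrEquiv φ).subtypeEquiv fun θ => Iff.rfl)).symm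

theorem map_cz {T : Subgroup G} [Fintype (Subgroup.centralizer (T : Set G))]
    (v : Subgroup.centralizer (T : Set G)) :
    (cz v).map (Subgroup.centralizer (T : Set G)).subtype =
      Subgroup.centralizer ((T ⊔ Subgroup.zpowers (v : G) : Subgroup G) : Set G) := by
  rw [cz, map_centralizer, MonoidHom.map_zpowers, centralizer_sup]
  rfl

/-- The contributions of the characters of the block of `C(R)`. -/
theorem FreePair.exists_local (D : FreePair p B P e) {R : Subgroup G} (hR : R ≤ P) (hR1 : R ≠ ⊥) :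
    ∃ δ : P → ℂ, (∀ v, δ v * conj (δ v) = 1) ∧ δ 1 = 1 ∧
      (∀ F : G → ℂ, IsGeneralizedCharacter (Subgroup.centralizer (R : Set G)) (fun c => F c) →
        ∃ g : P → ℂ, IsGeneralizedCharacter P g ∧ ∀ v : P,
          ctb (M := M) P e F (v : G)
            (Subgroup.centralizer ((R ⊔ Subgroup.zpowers (v : G) : Subgroup G) : Set G)) =
            g v * δ v) ∧
      (∀ μ : P →* ℂˣ, ∃ F : G → ℂ,
        IsGeneralizedCharacter (Subgroup.centralizer (R : Set G)) (fun c => F c) ∧ ∀ v : P,
          ctb (M := M) P e F (v : G)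
            (Subgroup.centralizer ((R ⊔ Subgroup.zpowers (v : G) : Subgroup G) : Set G)) =
            (μ v : ℂ) * δ v) ∧
      ∀ z v : P, (z : G) ∈ R → δ (z * v) = δ z * δ v := by
  classical
  letI := Fintype.ofFinite (Subgroup.centralizer (R : Set G))
  obtain ⟨hPH, hCH⟩ := D.le_centralizer hR
  obtain ⟨P', e', S, D', hnil⟩ := D.exists_sub hR hR1
  have hab' := S.comm D.comm
  have hPC' : ∀ v ∈ P', P' ≤ cz v ∧
      Subgroup.centralizer (P' : Set _) ≤ cz v := fun v hv => le_cz hab' hv
  have hst : stab P' e' ≤ Subgroup.centralizer (P' : Set _) := by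
    intro t ht
    have h := D.stab_inf_le hR hR1 (Subgroup.mem_inf.mpr ⟨S.mem_stab.mp ht, t.2⟩)
    exact Subgroup.mem_centralizer_iff.mpr fun w hw =>
      Subtype.ext (Subgroup.mem_centralizer_iff.mp h w (S.mem_iff.mp hw))
  have hL : ∀ v ∈ P', LocNil p P' e' (cz v) := by
    intro v hv
    refine LocNil.transfer D.hpM S D'.pmax.pair D.data.pmax.pair hCH (hPC' v hv).1 (hPC' v hv).2 ?_
    rw [map_cz]
    refine D.locNil (sup_le hR (Subgroup.zpowers_le.mpr (S.mem_iff.mp hv))) ?_
    exact fun h => hR1 (le_bot_iff.mp (h ▸ le_sup_left))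
  obtain ⟨δ, hu, h1, hgen, hlin, hcen⟩ := exists_nilpotent_ctb D.hpM D' hnil hab' hst hL
  let ι : P →* P' :=
    { toFun := fun v => ⟨⟨v, hPH v.2⟩, S.mem_iff.mpr v.2⟩
      map_one' := rfl
      map_mul' := fun _ _ => rfl }
  let ι' : P' →* P :=
    { toFun := fun v => ⟨((v : Subgroup.centralizer (R : Set G)) : G), S.mem_iff.mp v.2⟩
      map_one' := rfl
      map_mul' := fun _ _ => rfl }
  have hctb : ∀ (F : G → ℂ) (v : P), ctb (M := M) P e F (v : G)
      (Subgroup.centralizer ((R ⊔ Subgroup.zpowers (v : G) : Subgroup G) : Set G)) =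
      ctb (M := M) P' e' (fun h : Subgroup.centralizer (R : Set G) => F (h : G))
        ((ι v : P') : Subgroup.centralizer (R : Set G))
        (cz ((ι v : P') : Subgroup.centralizer (R : Set G))) := fun F v => by
    rw [← ctb_map D.hpM S D'.pmax.pair D.data.pmax.pair hCH (hPC' _ (ι v).2).1 (hPC' _ (ι v).2).2,
      map_cz]
    rfl
  refine ⟨fun v => δ (ι v), fun v => hu _, h1, fun F hF => ?_, fun μ => ?_, fun z v hz => ?_⟩
  · obtain ⟨g, hg, hgv⟩ := hgen _ hF
    exact ⟨g ∘ ι, Chars.isGen_comp hg ι, fun v => (hctb F v).trans (hgv (ι v))⟩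
  · obtain ⟨φ, hφ⟩ := hlin (μ.comp ι')
    have hext : (fun c : Subgroup.centralizer (R : Set G) => extP _
        (φ : Subgroup.centralizer (R : Set G) → ℂ) (c : G)) = (φ : _ → ℂ) :=
      funext fun c => extP_coe _ c
    refine ⟨extP _ (φ : Subgroup.centralizer (R : Set G) → ℂ), ?_, fun v => ?_⟩
    · rw [hext]
      exact Chars.isGen_of_isCharacter (Chars.irr_isCharacter φ)
    · rw [hctb, hext, hφ]
      rfl
  · show δ (ι (z * v)) = δ (ι z) * δ (ι v)
    rw [map_mul]
    refine hcen _ _ fun g => Subtype.ext ?_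
    exact Subgroup.mem_centralizer_iff.mp g.2 z hz

end Cfsg.Agent.BlockChar
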