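import Cfsg.Agent.BlockChar.FreeContrib

/-!
# The contributions of a nilpotent block with abelian defect group
-/

set_option autoImplicit false
set_option linter.unusedSectionVars false
set_option linter.style.haveILetI false

namespace Cfsg.Agent.BlockChar

open MonoidAlgebra
open scoped MonoidAlgebra ComplexConjugate
open Cfsg Cfsg.Agent Cfsg.Agent.Blocks

universe u

variable {G : Type u} [Group G] [Fintype G] {p : ℕ} [Fact p.Prime] {M : Ideal AlgInt}
  [M.IsMaximal] {B : Set (IrrCharacter G)} {P : Subgroup G} {e : (Res M)[G]}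

theorem exists_hom_of_irr (hab : ∀ x ∈ P, ∀ y ∈ P, x * y = y * x) (ν : IrrCharacter P) :
    ∃ μ : P →* ℂˣ, (ν : P → ℂ) = fun v => (μ v : ℂ) :=
  Chars.exists_hom_of_degree_one (Chars.irr_isCharacter ν) (irr_one_of_comm hab ν)

/-- The contributions of the characters of a nilpotent block. -/
theorem exists_nilpotent_ctb (hpM : (p : AlgInt) ∈ M) (D : MaxData p B P e)
    (hnil : IsNilB p (idemG M B)) (hab : ∀ x ∈ P, ∀ y ∈ P, x * y = y * x)
    (hst : stab P e ≤ Subgroup.centralizer (P : Set G))
    (hL : ∀ v ∈ P, LocNil p P e (cz v)) :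
    ∃ δ : P → ℂ, (∀ v, δ v * conj (δ v) = 1) ∧ δ 1 = 1 ∧
      (∀ F : G → ℂ, IsGeneralizedCharacter G F → ∃ g : P → ℂ, IsGeneralizedCharacter P g ∧
        ∀ v : P, ctb (M := M) P e F (v : G) (cz (v : G)) = g v * δ v) ∧
      (∀ μ : P →* ℂˣ, ∃ φ : IrrCharacter G, ∀ v : P,
        ctb (M := M) P e (φ : G → ℂ) (v : G) (cz (v : G)) = (μ v : ℂ) * δ v) ∧
      ∀ z v : P, (∀ g : G, (z : G) * g = g * (z : G)) → δ (z * v) = δ z * δ v := by
  classical
  haveI := charP_res (p := p) hpM
  letI := Fintype.ofFinite P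
  letI : ∀ v : G, Fintype (cz v) := fun v => Fintype.ofFinite _
  obtain ⟨χ, hχ, h0⟩ := exists_height_zero (p := p) D.blk
  set δ : P → ℂ := fun v => ctb (M := M) P e (χ : G → ℂ) (v : G) (cz (v : G)) with hδ
  have hfix : ∀ t ∈ stab P e, ∀ v ∈ P, t * v * t⁻¹ = v := fun t ht v hv => by
    rw [← Subgroup.mem_centralizer_iff.mp (hst ht) v hv, mul_inv_cancel_right]
  have hcl : ∀ h : P → ℂ, IsClassFunction P h := fun h a b => by
    rw [show b * a * b⁻¹ = a from Subtype.ext (show (b : G) * a * (b : G)⁻¹ = a by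
      rw [hab b b.2 a a.2, mul_inv_cancel_right])]
  have horb : ∀ v : G, Nat.card (orbP P e v) = 1 ∨ v ∉ P := fun v => by
    by_cases hv : v ∈ P
    · refine Or.inl ?_
      have : orbP P e v = {v} := by
        ext w
        exact ⟨fun ⟨t, ht, h⟩ => by rw [hfix t ht v hv] at h; exact h.symm,
          fun h => ⟨1, one_mem _, by simp [Set.mem_singleton_iff.mp h]⟩⟩
      rw [this, Nat.card_coe_set_eq, Set.ncard_singleton]
    · exact Or.inr hv
  have hunit : ∀ v, δ v * conj (δ v) = 1 := fun v => by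
    have hstab : ∀ t ∈ stab P e, ∀ w ∈ P, extP P (fun a => if a = v then 1 else 0) (t * w * t⁻¹) =
        extP P (fun a => if a = v then 1 else 0) w := fun t ht w hw => by rw [hfix t ht w hw]
    have h1 := classInner_starP_eq hpM D hnil hχ h0
      (hcl (fun a => if a = v then 1 else 0))
    rw [classInner_starP_eq_sum hpM D hab hstab χ χ,
      Finset.sum_eq_single_of_mem (v : G) (Finset.mem_filter.mpr ⟨Finset.mem_univ _, v.2⟩)
        fun w hw hne => ?_, extP_coe, if_pos rfl, (horb v).resolve_right (not_not.mpr v.2),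
      Chars.classInner_def] at h1
    · simp only [map_one, mul_one, Finset.sum_ite_eq', Finset.mem_univ, if_true, Nat.cast_one,
        inv_one, one_mul] at h1
      rw [hδ, ← card_mul_conP_eq hpM D hab v.2 (hL _ v.2), h1,
        mul_inv_cancel₀ Chars.card_ne_zero]
    · rw [extP_mem _ (Finset.mem_filter.mp hw).2, if_neg (fun h => hne (congrArg Subtype.val h)),
        mul_zero, zero_mul]
  have hδ1 : δ 1 = 1 := by
    obtain ⟨θ₀, hθ₀⟩ := exists_mem_pblk hpM D.pmax.pair (le_cz hab (one_mem P)).1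
      (le_cz hab (one_mem P)).2
    have hnat : ∃ m : ℕ, δ 1 = m := by
      choose m hm using fun θ : IrrCharacter (cz ((1 : P) : G)) => Chars.exists_classInner_eq_nat
        (Chars.isCharacter_restrict (Chars.irr_isCharacter χ) (cz ((1 : P) : G)))
        (Chars.irr_isCharacter θ)
      refine ⟨∑ θ ∈ bf (pblk P e (cz ((1 : P) : G))), m θ, ?_⟩
      show ctb (M := M) P e (χ : G → ℂ) ((1 : P) : G) (cz ((1 : P) : G)) = _
      unfold ctb
      rw [Nat.cast_sum]
      refine Finset.sum_congr rfl fun θ _ => ?_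
      rw [← hm θ]
      simp only [OneMemClass.coe_one, one_mul]
    obtain ⟨m, hm⟩ := hnat
    have h := hunit 1
    rw [hm, map_natCast, ← Nat.cast_mul, ← Nat.cast_one, Nat.cast_inj] at h
    rw [hm, (mul_eq_one.mp h : m = 1 ∧ m = 1).1, Nat.cast_one]
  choose S hSB hSval hSreg hSdeg using exists_starP_irr hpM D hnil hχ h0
  have hS : ∀ (ν : IrrCharacter P) (v : P),
      ctb (M := M) P e (S ν : G → ℂ) (v : G) (cz (v : G)) = (ν : P → ℂ) v * δ v := by
    intro ν v
    have hle := locB_spec hpM D v.2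
    have hβ : IsBlk (cz (v : G)) (locB p P e (v : G)) := (hle.isPair_left D.pmax.pair).blk
    obtain ⟨θ₀, hθ₀⟩ := exists_mem_pblk hpM D.pmax.pair (le_cz hab v.2).1 (le_cz hab v.2).2
    have h1r : ¬ p ∣ orderOf (1 : cz (v : G)) := by
      rw [orderOf_one]; exact (Fact.out : p.Prime).not_dvd_one
    have hbel : Below p P e 1 (v : G) (locB p P e (v : G)) := by
      unfold Below
      rw [one_mul, inv_one, mul_one, cj_one]
      exact hle
    have h := sec_of_star hpM χ (S ν) (hSval ν) (orderOf_of_mem D.pmax.pair.pgroup v.2) hβ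
      (one_mem _) (show ¬ p ∣ orderOf (1 : G) by
        rw [orderOf_one]; exact (Fact.out : p.Prime).not_dvd_one)
    rw [phiOf_eq (isStable_of_nilpotent hpM D hnil (hcl _)) hbel, one_mul, inv_one, mul_one,
      extP_coe, show (1 : G) = ((1 : cz (v : G)) : G) from rfl,
      sec_eq_ctb hpM D hab v.2 (hL _ v.2) hθ₀ (S ν) h1r,
      sec_eq_ctb hpM D hab v.2 (hL _ v.2) hθ₀ χ h1r, ← mul_assoc] at h
    exact mul_right_cancel₀ (Chars.irr_apply_one_ne_zero θ₀.2) h
  have hδne : ∀ v, δ v ≠ 0 := fun v h => by simpa [h] using hunit v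
  let T : IrrCharacter P → {φ // φ ∈ bf B} := fun ν => ⟨S ν, mem_bf.mpr (hSB ν)⟩
  have hbij : Function.Bijective T := by
    refine (Fintype.bijective_iff_injective_and_card T).mpr ⟨fun ν ν' h => ?_, ?_⟩
    · apply Subtype.ext
      funext v
      have h' : S ν = S ν' := congrArg Subtype.val h
      have := hS ν v
      rw [h', hS ν' v] at this
      exact (mul_right_cancel₀ (hδne v) this).symm
    · rw [Fintype.card_coe, ← card_bf, (nilpotent_agree hpM D hnil hab).2.2,
        ← Nat.card_eq_fintype_card,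
        Screen.BrauerP.card_irr_of_comm fun a b => Subtype.ext (hab a a.2 b b.2)]
  refine ⟨δ, hunit, hδ1, fun F hF => ?_, fun μ => ?_, fun z v hz => ?_⟩
  · choose m hm using fun φ : IrrCharacter G =>
      Chars.exists_classInner_eq_int hF (Chars.isGen_of_isCharacter (Chars.irr_isCharacter φ))
    refine ⟨∑ ν : IrrCharacter P, (m (S ν) : ℂ) • (ν : P → ℂ), Chars.isGen_sum _ _ fun ν _ =>
      Chars.isGen_intCast_smul (Chars.isGen_of_isCharacter (Chars.irr_isCharacter ν)) _,
      fun v => ?_⟩
    have hFv : F = fun x => ∑ φ : IrrCharacter G, (m φ : ℂ) * (φ : G → ℂ) x := by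
      funext x
      have h := congrFun (Chars.eq_sum_classInner (Chars.isClassFunction_of_isGen hF)) x
      simp only [Finset.sum_apply, Pi.smul_apply, smul_eq_mul, hm] at h
      exact h
    rw [hFv, ctb_sum, ← Finset.sum_subset (Finset.subset_univ (bf B)) fun φ _ hφ => by
      rw [ctb_eq_zero hpM D hab v.2 (hL _ v.2) (fun h => hφ (mem_bf.mpr h)), mul_zero],
      ← Finset.sum_coe_sort (bf B), ← Fintype.sum_bijective T hbij
        (fun ν => (m (S ν) : ℂ) * ctb (M := M) P e (S ν : G → ℂ) (v : G) (cz (v : G))) _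
        (fun _ => rfl)]
    simp only [Finset.sum_apply, Pi.smul_apply, smul_eq_mul, Finset.sum_mul]
    exact Finset.sum_congr rfl fun ν _ => by rw [hS]; ring
  · exact ⟨S ⟨_, Chars.isIrrCharacter_hom μ⟩, fun v => hS _ v⟩
  · obtain ⟨k, hk⟩ := orderOf_of_mem D.pmax.pair.pgroup z.2
    obtain ⟨c, -, hc⟩ := exists_central_scalar hpM (z := (z : G)) (k := k)
      (by rw [← hk]; exact pow_orderOf_eq_one _) hz χ
    have key : ∀ w : P, δ (z * w) = c * δ w := fun w => by
      have hcz : cz ((z * w : P) : G) = cz (w : G) := by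
        ext g
        simp only [mem_cz, Subgroup.coe_mul]
        refine ⟨fun h => ?_, fun h => (show Commute (z : G) g from hz g).mul_left h⟩
        have h2 := (show Commute (z : G)⁻¹ g from
          (show Commute (z : G) g from hz g).inv_left).mul_left h
        rwa [inv_mul_cancel_left] at h2
      show ctb (M := M) P e (χ : G → ℂ) ((z * w : P) : G) (cz ((z * w : P) : G)) = c * δ w
      rw [hcz]
      show _ = c * ctb (M := M) P e (χ : G → ℂ) (w : G) (cz (w : G))
      unfold ctb
      rw [Finset.mul_sum]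
      exact Finset.sum_congr rfl fun θ _ => by
        simp only [Chars.classInner_def, Finset.mul_sum]
        refine Finset.sum_congr rfl fun d _ => ?_
        rw [Subgroup.coe_mul, mul_assoc (z : G), hc]
        ring
    have hz1 := key 1
    rw [mul_one, hδ1, mul_one] at hz1
    rw [key, hz1]

end Cfsg.Agent.BlockChar
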