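import Cfsg.Agent.BlockChar.HomocyclicCore

/-!
# Generalized characters of abelian groups that are unimodular off a subgroup

Also Weisner's identity for the Moebius function of an interval of subgroups.
-/

set_option autoImplicit false
set_option linter.unusedSectionVars false
set_option linter.style.haveILetI false

namespace Cfsg.Agent.BlockChar.FreeUnit

open scoped ComplexConjugate
open Cfsg Cfsg.Agent

universe u

section weisner

variable {G : Type u} [Group G] [Finite G] (R : Subgroup G)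

open scoped Classical in
/-- The Moebius function of the intervals above `R`. -/
noncomputable def mob : Subgroup G → ℤ :=
  haveI := Fintype.ofFinite (Subgroup G)
  WellFoundedLT.fix fun S mb => (if S = R then 1 else 0) -
    ∑ S' : Subgroup G, if h : R ≤ S' ∧ S' < S then mb S' h.2 else 0

variable [Fintype (Subgroup G)] [DecidableEq (Subgroup G)] [DecidableLE (Subgroup G)]
  [DecidableLT (Subgroup G)]

theorem mob_eq (S : Subgroup G) : mob R S = (if S = R then 1 else 0) -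
    ∑ S' ∈ Finset.univ.filter (fun S' => R ≤ S' ∧ S' < S), mob R S' := by
  classical
  rw [mob, WellFoundedLT.fix_eq, Finset.sum_filter]
  congr 1
  · exact @if_congr _ _ _ (_) (_) _ _ _ _ Iff.rfl rfl rfl
  · refine Finset.sum_congr (by ext; simp) fun S' _ => ?_
    by_cases h : R ≤ S' ∧ S' < S
    · rw [dif_pos h, if_pos h]
    · rw [dif_neg h, if_neg h]

theorem mob_self : mob R R = 1 := by
  rw [mob_eq, if_pos rfl, Finset.sum_eq_zero, sub_zero]
  intro S hS
  obtain ⟨-, h1, h2⟩ := Finset.mem_filter.mp hS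
  exact absurd h1 (not_le_of_gt h2)

theorem sum_mob {Q : Subgroup G} (hQ : R < Q) :
    ∑ S ∈ Finset.univ.filter (fun S => R ≤ S ∧ S ≤ Q), mob R S = 0 := by
  have h : Finset.univ.filter (fun S => R ≤ S ∧ S ≤ Q) =
      insert Q (Finset.univ.filter (fun S => R ≤ S ∧ S < Q)) := by
    ext S
    simp only [Finset.mem_filter, Finset.mem_univ, true_and, Finset.mem_insert]
    constructor
    · rintro ⟨h1, h2⟩
      rcases h2.eq_or_lt with h3 | h3
      exacts [Or.inl h3, Or.inr ⟨h1, h3⟩]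
    · rintro (rfl | ⟨h1, h2⟩)
      exacts [⟨hQ.le, le_rfl⟩, ⟨h1, h2.le⟩]
  rw [h, Finset.sum_insert (by simp), mob_eq R Q, if_neg hQ.ne', zero_sub]
  exact neg_add_cancel _

/-- Weisner's identity. -/
theorem sum_mob_sup {R' : Subgroup G} (hR : R < R') (Q : Subgroup G) (hQ : R' ≤ Q) :
    ∑ S ∈ Finset.univ.filter (fun S => R ≤ S ∧ S ⊔ R' = Q), mob R S = 0 := by
  induction Q using WellFoundedLT.induction with
  | _ Q ih =>
    have h := sum_mob R (lt_of_lt_of_le hR hQ)
    rw [← Finset.sum_fiberwise_of_maps_to (g := fun S => S ⊔ R')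
      (t := Finset.univ.filter (fun Q' => R' ≤ Q' ∧ Q' ≤ Q)) (fun S hS => by
        simp only [Finset.mem_filter, Finset.mem_univ, true_and] at hS ⊢
        exact ⟨le_sup_right, sup_le hS.2 hQ⟩)] at h
    have e : ∀ Q' ∈ Finset.univ.filter (fun Q' => R' ≤ Q' ∧ Q' ≤ Q),
        (Finset.univ.filter (fun S => R ≤ S ∧ S ≤ Q)).filter (fun S => S ⊔ R' = Q') =
          Finset.univ.filter (fun S => R ≤ S ∧ S ⊔ R' = Q') := by
      intro Q' hQ'
      ext S
      simp only [Finset.mem_filter, Finset.mem_univ, true_and] at hQ' ⊢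
      exact ⟨fun h => ⟨h.1.1, h.2⟩,
        fun h => ⟨⟨h.1, le_sup_left.trans (h.2 ▸ hQ'.2)⟩, h.2⟩⟩
    rw [Finset.sum_congr rfl fun Q' hQ' => by rw [e Q' hQ'],
      Finset.sum_eq_single Q] at h
    · exact h
    · intro Q' hQ' hne
      simp only [Finset.mem_filter, Finset.mem_univ, true_and] at hQ'
      exact ih Q' (lt_of_le_of_ne hQ'.2 hne) hQ'.1
    · intro h'
      simp [hQ] at h'

/-- A function of `S ⊔ R'` is determined by the terms above `R`. -/
theorem sum_mob_mul {A : Type*} [AddCommGroup A] {R' P : Subgroup G} (hR : R < R') (hP : R' ≤ P)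
    (f : Subgroup G → A) :
    - ∑ S ∈ Finset.univ.filter (fun S => R < S ∧ S ≤ P), mob R S • f (S ⊔ R') = f R' := by
  have hins : Finset.univ.filter (fun S => R ≤ S ∧ S ≤ P) =
      insert R (Finset.univ.filter (fun S => R < S ∧ S ≤ P)) := by
    ext S
    simp only [Finset.mem_filter, Finset.mem_univ, true_and, Finset.mem_insert]
    constructor
    · rintro ⟨h1, h2⟩
      rcases h1.eq_or_lt with h3 | h3
      exacts [Or.inl h3.symm, Or.inr ⟨h3, h2⟩]
    · rintro (rfl | ⟨h1, h2⟩)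
      exacts [⟨le_rfl, hR.le.trans hP⟩, ⟨h1.le, h2⟩]
  have h0 : ∑ S ∈ Finset.univ.filter (fun S => R ≤ S ∧ S ≤ P), mob R S • f (S ⊔ R') = 0 := by
    rw [← Finset.sum_fiberwise_of_maps_to (g := fun S => S ⊔ R')
      (t := Finset.univ.filter (fun Q => R' ≤ Q ∧ Q ≤ P)) (fun S hS => by
        simp only [Finset.mem_filter, Finset.mem_univ, true_and] at hS ⊢
        exact ⟨le_sup_right, sup_le hS.2 hP⟩)]
    refine Finset.sum_eq_zero fun Q hQ => ?_
    simp only [Finset.mem_filter, Finset.mem_univ, true_and] at hQ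
    rw [Finset.sum_congr rfl (g := fun S => mob R S • f Q) fun S hS => by
      rw [(Finset.mem_filter.mp hS).2], ← Finset.sum_smul]
    have := sum_mob_sup R hR Q hQ.1
    rw [show (Finset.univ.filter (fun S => R ≤ S ∧ S ≤ P)).filter (fun S => S ⊔ R' = Q) =
      Finset.univ.filter (fun S => R ≤ S ∧ S ⊔ R' = Q) from by
        ext S
        simp only [Finset.mem_filter, Finset.mem_univ, true_and]
        exact ⟨fun h => ⟨h.1.1, h.2⟩,
          fun h => ⟨⟨h.1, le_sup_left.trans (h.2 ▸ hQ.2)⟩, h.2⟩⟩, this, zero_smul]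
  rw [hins, Finset.sum_insert (by simp), mob_self, one_smul, sup_eq_right.mpr hR.le] at h0
  exact neg_eq_of_add_eq_zero_left h0

end weisner

variable {A : Type u} [CommGroup A] [Fintype A]

/-- A virtual character that is unimodular off the identity. -/
theorem exists_sign_hom (z : (A →* ℂˣ) → ℤ) [Fintype (A →* ℂˣ)]
    (h : ∀ x : A, x ≠ 1 → (∑ μ : A →* ℂˣ, (z μ : ℂ) * (μ x : ℂ)) *
      conj (∑ μ : A →* ℂˣ, (z μ : ℂ) * (μ x : ℂ)) = 1) :
    ∃ (s : ℤ) (lam : A →* ℂˣ), (s = 1 ∨ s = -1) ∧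
      ∀ x : A, x ≠ 1 → ∑ μ : A →* ℂˣ, (z μ : ℂ) * (μ x : ℂ) = (s : ℂ) * (lam x : ℂ) := by
  classical
  set m := Nat.card A with hm
  have hm0 : 0 < m := Nat.card_pos
  by_cases hm1 : m = 1
  · haveI := (Nat.card_eq_one_iff_unique.mp hm1).1
    exact ⟨1, 1, Or.inl rfl, fun x hx => absurd (Subsingleton.elim x 1) hx⟩
  set f : ((A →* ℂˣ) → ℤ) → A → ℂ := fun z x => ∑ μ : A →* ℂˣ, (z μ : ℂ) * (μ x : ℂ) with hf
  have hnorm : ∀ z : (A →* ℂˣ) → ℤ, ∑ x : A, f z x * conj (f z x) =
      (m : ℂ) * ((∑ μ, z μ * z μ : ℤ) : ℂ) := by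
    intro z
    simp only [hf, map_sum, map_mul, map_intCast, Finset.sum_mul_sum]
    rw [Finset.sum_comm, Int.cast_sum, Finset.mul_sum]
    refine Finset.sum_congr rfl fun μ _ => ?_
    rw [Finset.sum_comm]
    simp only [mul_mul_mul_comm _ ((μ _ : ℂˣ) : ℂ), ← Finset.mul_sum,
      Homocyclic.sum_mul_conj, mul_ite, mul_zero, Finset.sum_ite_eq, Finset.mem_univ, if_true]
    push_cast
    ring
  have hone : ∀ z : (A →* ℂˣ) → ℤ, f z 1 = ((∑ μ, z μ : ℤ) : ℂ) := fun z => by simp [hf]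
  have hkey : ∀ z' : (A →* ℂˣ) → ℤ, (∀ x, x ≠ 1 → f z' x = f z x) →
      (∑ μ, z' μ) ^ 2 + ((m : ℤ) - 1) = (m : ℤ) * ∑ μ, z' μ * z' μ := by
    intro z' hz'
    have h1 := hnorm z'
    rw [← Finset.add_sum_erase _ _ (Finset.mem_univ (1 : A)), hone, map_intCast,
      Finset.sum_congr rfl (g := fun _ => (1 : ℂ)) fun x hx => by
        rw [hz' x (Finset.ne_of_mem_erase hx)]
        exact h x (Finset.ne_of_mem_erase hx),
      Finset.sum_const, Finset.card_erase_of_mem (Finset.mem_univ _), Finset.card_univ,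
      ← Nat.card_eq_fintype_card, nsmul_one, Nat.cast_sub (by rw [← hm]; omega)] at h1
    rw [pow_two]
    exact_mod_cast h1
  set c := ∑ μ, z μ with hc
  set k : ℤ := (2 * c + m) / (2 * m) with hk
  set z' : (A →* ℂˣ) → ℤ := fun μ => z μ - k with hz'def
  have hz' : ∀ x, x ≠ 1 → f z' x = f z x := by
    intro x hx
    simp only [hf, hz'def, Int.cast_sub, sub_mul, Finset.sum_sub_distrib, ← Finset.mul_sum,
      Homocyclic.sum_dual, if_neg hx, mul_zero, sub_zero]
  have hc' : ∑ μ, z' μ = c - (m : ℤ) * k := by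
    simp only [hz'def, Finset.sum_sub_distrib, Finset.sum_const, Finset.card_univ, nsmul_eq_mul,
      ← hc]
    rw [← Nat.card_eq_fintype_card, Homocyclic.card_dual]
  have hN := hkey z' hz'
  set c' := ∑ μ, z' μ with hc'def
  set N := ∑ μ, z' μ * z' μ with hNdef
  have hb : -(m : ℤ) ≤ 2 * c' ∧ 2 * c' < m := by
    have h1 := Int.mul_ediv_add_emod (2 * c + (m : ℤ)) (2 * m)
    have h2 := Int.emod_nonneg (2 * c + (m : ℤ)) (show (2 * (m : ℤ)) ≠ 0 by omega)
    have h3 := Int.emod_lt_of_pos (2 * c + (m : ℤ)) (show (0 : ℤ) < 2 * m by omega)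
    rw [← hk] at h1
    constructor <;> nlinarith [hc']
  have hNc : |c'| ≤ N := by
    refine (Finset.abs_sum_le_sum_abs _ _).trans (Finset.sum_le_sum fun μ _ => ?_)
    rcases eq_or_ne (z' μ) 0 with h0 | h0
    · simp [h0]
    · rw [← abs_mul_abs_self]
      exact le_mul_of_one_le_left (abs_nonneg _) (Int.one_le_abs h0)
  have hN1 : N = 1 := by
    rcases le_or_gt (|c'|) 1 with h1 | h1
    · rcases abs_le.mp h1 with ⟨h2, h3⟩
      have h4 : c' = -1 ∨ c' = 0 ∨ c' = 1 := by omega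
      rcases h4 with h4 | h4 | h4 <;> rw [h4] at hN
      · nlinarith
      · exfalso
        have : (m : ℤ) ∣ 1 := ⟨1 - N, by linarith⟩
        have := Int.le_of_dvd one_pos this
        omega
      · nlinarith
    · exfalso
      have h2 : 2 * |c'| ≤ m := by rcases abs_cases c' with h | h <;> omega
      have h3 : c' ^ 2 = |c'| ^ 2 := (sq_abs c').symm
      nlinarith
  obtain ⟨μ₀, -, hμ₀⟩ := Finset.exists_ne_zero_of_sum_ne_zero
    (show ∑ μ, z' μ * z' μ ≠ 0 by rw [← hNdef, hN1]; exact one_ne_zero)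
  have hsplit := hN1
  rw [hNdef, ← Finset.add_sum_erase _ _ (Finset.mem_univ μ₀)] at hsplit
  have hnn : ∀ μ ∈ Finset.univ.erase μ₀, 0 ≤ z' μ * z' μ := fun μ _ => mul_self_nonneg _
  have hpos : 0 < z' μ₀ * z' μ₀ := lt_of_le_of_ne (mul_self_nonneg _) (Ne.symm hμ₀)
  have hrest := Finset.sum_nonneg hnn
  have hsq : z' μ₀ * z' μ₀ = 1 := by omega
  have hzero := (Finset.sum_eq_zero_iff_of_nonneg hnn).mp (by omega)
  refine ⟨z' μ₀, μ₀, mul_self_eq_one_iff.mp hsq, fun x hx => ?_⟩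
  show f z x = _
  rw [← hz' x hx]
  simp only [hf]
  rw [Finset.sum_eq_single μ₀]
  · intro μ _ hne
    rw [mul_self_eq_zero.mp (hzero μ (Finset.mem_erase.mpr ⟨hne, Finset.mem_univ _⟩)),
      Int.cast_zero, zero_mul]
  · exact fun h' => absurd (Finset.mem_univ _) h'

/-- A virtual character, periodic and unimodular off a subgroup. -/
theorem exists_sign_hom_periodic {D d : A → ℂ} (hD : IsGeneralizedCharacter A D) (R : Subgroup A)
    (hDd : ∀ x ∉ R, D x = d x) (hper : ∀ r ∈ R, ∀ x, d (r * x) = d x)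
    (hu : ∀ x ∉ R, d x * conj (d x) = 1) :
    ∃ (s : ℤ) (lam : A →* ℂˣ), (s = 1 ∨ s = -1) ∧ (∀ r ∈ R, lam r = 1) ∧
      ∀ x ∉ R, d x = (s : ℂ) * (lam x : ℂ) := by
  classical
  letI := Fintype.ofFinite (A ⧸ R)
  letI := Fintype.ofFinite ((A ⧸ R) →* ℂˣ)
  let π := QuotientGroup.mk' R
  have hmem : ∀ x : A, π x = 1 ↔ x ∈ R := fun x => QuotientGroup.eq_one_iff x
  choose z hz using fun μ : (A ⧸ R) →* ℂˣ => Chars.exists_classInner_eq_int hD
    (Homocyclic.isGen_hom (μ.comp π))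
  have hval : ∀ x : A, x ∉ R →
      ∑ μ : (A ⧸ R) →* ℂˣ, (z μ : ℂ) * (μ (π x) : ℂ) = d x := by
    intro x hx
    simp only [← hz, Chars.classInner_def, Finset.mul_sum, Finset.sum_mul]
    rw [Finset.sum_comm]
    have e : ∀ v : A, ∑ μ : (A ⧸ R) →* ℂˣ,
        (Nat.card A : ℂ)⁻¹ * (D v * conj (((μ.comp π) v : ℂˣ) : ℂ)) * (μ (π x) : ℂ) =
        (Nat.card A : ℂ)⁻¹ * D v * (if π (v⁻¹ * x) = 1 then (Nat.card (A ⧸ R) : ℂ) else 0) := by
      intro v
      refine Eq.trans ?_ (congrArg _ ((Homocyclic.sum_dual (π (v⁻¹ * x))).trans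
        (@if_congr _ _ _ (_) (_) _ _ _ _ Iff.rfl rfl rfl)))
      rw [Finset.mul_sum]
      refine Finset.sum_congr rfl fun μ _ => ?_
      rw [Homocyclic.hom_norm]
      simp only [MonoidHom.comp_apply, map_mul, Units.val_mul]
      ring
    rw [Finset.sum_congr rfl fun v _ => e v]
    simp only [mul_ite, mul_zero, hmem, ← Finset.sum_filter]
    rw [Finset.sum_congr rfl (g := fun _ => (Nat.card A : ℂ)⁻¹ * d x * (Nat.card (A ⧸ R) : ℂ))
      fun v hv => by
        have hv' := (Finset.mem_filter.mp hv).2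
        have hvR : v ∉ R := fun h => hx (by simpa using R.mul_mem h hv')
        rw [hDd v hvR, ← hper _ hv' v, show v⁻¹ * x * v = x by
          rw [mul_comm, mul_inv_cancel_left]]]
    have hcard : (Finset.univ.filter fun v : A => v⁻¹ * x ∈ R).card = Nat.card R := by
      rw [Nat.card_eq_fintype_card, ← Fintype.card_subtype]
      exact Fintype.card_congr (((Equiv.inv A).trans (Equiv.mulRight x)).subtypeEquiv fun v => Iff.rfl)
    rw [Finset.sum_const, hcard, nsmul_eq_mul]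
    have hA : (Nat.card A : ℂ) = (Nat.card (A ⧸ R) : ℂ) * (Nat.card R : ℂ) := by
      exact_mod_cast R.card_eq_card_quotient_mul_card_subgroup
    have h0 : (Nat.card A : ℂ) ≠ 0 := Chars.card_ne_zero
    rw [hA] at h0 ⊢
    field_simp
  obtain ⟨s, lam, hs, hlam⟩ := exists_sign_hom z fun q hq => by
    obtain ⟨x, rfl⟩ := QuotientGroup.mk'_surjective R q
    have hx : x ∉ R := fun h => hq ((hmem x).mpr h)
    rw [hval x hx]
    exact hu x hx
  refine ⟨s, lam.comp π, hs, fun r hr => ?_, fun x hx => ?_⟩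
  · rw [MonoidHom.comp_apply, (hmem r).mpr hr, map_one]
  · rw [← hval x hx]
    exact hlam (π x) fun h => hx ((hmem x).mp h)

end Cfsg.Agent.BlockChar.FreeUnit
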