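import Cfsg.Agent.BlockChar.FreeLocal
import Cfsg.Agent.BlockChar.FreeUnit

/-!
# Signs making the contributions generalized characters

For an abelian defect group with free inertial action there are signs `η T` on the subgroups `T`
such that, for every character, `u ↦ η ⟨u⟩ * (contribution at u)` extends to a generalized
character of the defect group.
-/

set_option autoImplicit false
set_option linter.unusedSectionVars false
set_option linter.style.haveILetI false

namespace Cfsg.Agent.BlockChar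

open MonoidAlgebra
open scoped MonoidAlgebra ComplexConjugate
open Cfsg Cfsg.Agent Cfsg.Agent.Blocks

universe u

variable {G : Type u} [Group G] [Fintype G] {p : ℕ} [Fact p.Prime] {M : Ideal AlgInt}
  [M.IsMaximal] {B : Set (IrrCharacter G)} {P : Subgroup G} {e : (Res M)[G]}

/-- The contribution at `v` in the centralizer of `⟨R, v⟩`. -/
noncomputable def ctbAt (P : Subgroup G) (e : (Res M)[G]) (F : G → ℂ) (R : Subgroup G) (v : G) :
    ℂ :=
  ctb (M := M) P e F v
    (Subgroup.centralizer ((R ⊔ Subgroup.zpowers v : Subgroup G) : Set G))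

open scoped Classical in
/-- The signs, defined downwards. -/
noncomputable def sgn (P : Subgroup G) (e : (Res M)[G]) : Subgroup G → ℤ :=
  WellFoundedGT.fix fun R η =>
    if ∃ F : G → ℂ, IsGeneralizedCharacter (Subgroup.centralizer (R : Set G)) (fun c => F c) ∧
        ∀ v ∈ P, (if h : R < R ⊔ Subgroup.zpowers v then (η _ h : ℂ) else 1) *
          ctbAt (M := M) P e F R v = 1
    then 1 else -1

/-- The defining property of the sign `s` at `R`. -/
def SignAt (P : Subgroup G) (e : (Res M)[G]) (R : Subgroup G) (s : ℤ) : Prop :=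
  ∃ F : G → ℂ, IsGeneralizedCharacter (Subgroup.centralizer (R : Set G)) (fun c => F c) ∧
    ∀ v ∈ P, (v ∈ R → ctbAt (M := M) P e F R v = 1) ∧
      (v ∉ R → (sgn (M := M) P e (R ⊔ Subgroup.zpowers v) : ℂ) * ctbAt (M := M) P e F R v = s)

theorem lt_sup_zpowers_iff {R : Subgroup G} {v : G} : R < R ⊔ Subgroup.zpowers v ↔ v ∉ R := by
  constructor
  · exact fun h hv => h.ne (sup_eq_left.mpr (Subgroup.zpowers_le.mpr hv)).symm
  · intro hv
    refine lt_of_le_of_ne le_sup_left fun h => hv ?_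
    rw [h]
    exact Subgroup.mem_sup_right (Subgroup.mem_zpowers v)

open scoped Classical in
theorem sgn_eq (R : Subgroup G) :
    sgn (M := M) P e R = if SignAt (M := M) P e R 1 then 1 else -1 := by
  rw [sgn, WellFoundedGT.fix_eq]
  refine if_congr ?_ rfl rfl
  refine exists_congr fun F => and_congr_right fun _ => forall₂_congr fun v _ => ?_
  by_cases hv : v ∈ R
  · rw [dif_neg (fun h => lt_sup_zpowers_iff.mp h hv), one_mul]
    exact ⟨fun h => ⟨fun _ => h, fun h' => absurd hv h'⟩, fun h => h.1 hv⟩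
  · rw [dif_pos (lt_sup_zpowers_iff.mpr hv), Int.cast_one]
    exact ⟨fun h => ⟨fun h' => absurd h' hv, fun _ => h⟩, fun h => h.2 hv⟩

theorem sgn_sq (R : Subgroup G) :
    (sgn (M := M) P e R : ℂ) * (sgn (M := M) P e R : ℂ) = 1 := by
  classical
  rw [sgn_eq]
  split_ifs <;> simp

/-- The property of the signs at `R`. -/
def SignGen (P : Subgroup G) (e : (Res M)[G]) (R : Subgroup G) : Prop :=
  ∀ F : G → ℂ, IsGeneralizedCharacter (Subgroup.centralizer (R : Set G)) (fun c => F c) →
    ∃ g : P → ℂ, IsGeneralizedCharacter P g ∧ ∀ v : P,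
      (sgn (M := M) P e (R ⊔ Subgroup.zpowers (v : G)) : ℂ) * ctbAt (M := M) P e F R (v : G) = g v

/-- Weisner's combination. -/
theorem exists_weisner {R : Subgroup G} (hR : R ≤ P)
    (hgt : ∀ S ≤ P, R < S → SignGen (M := M) P e S) {F : G → ℂ}
    (hF : IsGeneralizedCharacter (Subgroup.centralizer (R : Set G)) (fun c => F c)) :
    ∃ D : P → ℂ, IsGeneralizedCharacter P D ∧ ∀ v : P, (v : G) ∉ R →
      D v = (sgn (M := M) P e (R ⊔ Subgroup.zpowers (v : G)) : ℂ) *
        ctbAt (M := M) P e F R (v : G) := by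
  classical
  letI := Fintype.ofFinite (Subgroup G)
  have hex : ∀ S ∈ Finset.univ.filter (fun S => R < S ∧ S ≤ P), ∃ g : P → ℂ,
      IsGeneralizedCharacter P g ∧ ∀ v : P,
        (sgn (M := M) P e (S ⊔ Subgroup.zpowers (v : G)) : ℂ) *
          ctbAt (M := M) P e F S (v : G) = g v := by
    intro S hS
    obtain ⟨-, hRS, hSP⟩ := Finset.mem_filter.mp hS
    exact hgt S hSP hRS F
      (Chars.isGen_comp hF (Subgroup.inclusion (centralizer_anti hRS.le)))
  choose! g hg hgv using hex
  refine ⟨-∑ S ∈ Finset.univ.filter (fun S => R < S ∧ S ≤ P), (FreeUnit.mob R S : ℂ) • g S,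
    Chars.isGen_neg (Chars.isGen_sum _ _ fun S hS => Chars.isGen_intCast_smul (hg S hS) _),
    fun v hv => ?_⟩
  have hw := FreeUnit.sum_mob_mul R (R' := R ⊔ Subgroup.zpowers (v : G)) (P := P)
    (lt_sup_zpowers_iff.mpr hv) (sup_le hR (Subgroup.zpowers_le.mpr v.2))
    (fun Q => (sgn (M := M) P e Q : ℂ) * ctb (M := M) P e F (v : G)
      (Subgroup.centralizer (Q : Set G)))
  refine Eq.trans ?_ hw
  simp only [Pi.neg_apply, Finset.sum_apply, Pi.smul_apply, smul_eq_mul, zsmul_eq_mul]
  refine congrArg _ (Finset.sum_congr rfl fun S hS => ?_)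
  rw [← hgv S hS v, ctbAt, ← sup_assoc, sup_eq_left.mpr (Finset.mem_filter.mp hS).2.1.le]

theorem isGen_conjFun {A : Subgroup G} (hab : ∀ x ∈ A, ∀ y ∈ A, x * y = y * x) {g : A → ℂ}
    (hg : IsGeneralizedCharacter A g) : IsGeneralizedCharacter A (fun v => conj (g v)) := by
  let inv' : A →* A :=
    { toFun := fun v => v⁻¹
      map_one' := inv_one
      map_mul' := fun a b => by
        rw [mul_inv_rev]
        exact Subtype.ext (hab _ b⁻¹.2 _ a⁻¹.2) }
  have h : (fun v => conj (g v)) = g ∘ inv' := by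
    obtain ⟨a, b, ha, hb, rfl⟩ := hg
    funext v
    show conj (a v - b v) = a v⁻¹ - b v⁻¹
    rw [map_sub, Chars.char_inv_eq_conj ha, Chars.char_inv_eq_conj hb]
  rw [h]
  exact Chars.isGen_comp hg inv'

/-- From the defining property to the property for all functions. -/
theorem FreePair.signGen_of_signAt (D : FreePair p B P e) {R : Subgroup G} (hR : R ≤ P)
    (hR1 : R ≠ ⊥) (h : SignAt (M := M) P e R (sgn (M := M) P e R)) :
    SignGen (M := M) P e R := by
  obtain ⟨δ, hu, -, hgen, -, -⟩ := D.exists_local hR hR1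
  obtain ⟨F₀, hF₀, hval⟩ := h
  obtain ⟨g₀, hg₀, hg₀v⟩ := hgen F₀ hF₀
  intro F hF
  obtain ⟨g, hg, hgv⟩ := hgen F hF
  refine ⟨(sgn (M := M) P e R : ℂ) • (g * fun v => conj (g₀ v)),
    Chars.isGen_intCast_smul (Chars.isGen_mul hg (isGen_conjFun D.comm hg₀)) _, fun v => ?_⟩
  simp only [Pi.smul_apply, Pi.mul_apply, smul_eq_mul, ctbAt]
  rw [hgv v]
  by_cases hv : (v : G) ∈ R
  · have h1 := (hval v v.2).1 hv
    rw [ctbAt, hg₀v v] at h1
    have h2 : conj (g₀ v) = δ v := by
      calc conj (g₀ v) = conj (g₀ v) * (δ v * conj (δ v)) := by rw [hu, mul_one]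
        _ = δ v * conj (g₀ v * δ v) := by rw [map_mul]; ring
        _ = δ v := by rw [h1, map_one, mul_one]
    rw [h2, sup_eq_left.mpr (Subgroup.zpowers_le.mpr hv)]
  · have h1 := (hval v v.2).2 hv
    rw [ctbAt, hg₀v v] at h1
    set η : ℂ := (sgn (M := M) P e (R ⊔ Subgroup.zpowers (v : G)) : ℂ) with hη
    set s : ℂ := (sgn (M := M) P e R : ℂ) with hs
    have hηr : conj η = η := by rw [hη, map_intCast]
    have hsr : conj s = s := by rw [hs, map_intCast]
    have h2 : s * conj (g₀ v) = η * δ v := by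
      have h3 := congrArg conj h1
      rw [map_mul, map_mul, hηr, hsr] at h3
      calc s * conj (g₀ v) = η * (conj (g₀ v) * conj (δ v)) * conj (g₀ v) := by rw [h3]
        _ = η * δ v * ((conj (g₀ v) * conj (δ v)) * (conj (g₀ v) * conj (δ v))) := by
          rw [show η * δ v * ((conj (g₀ v) * conj (δ v)) * (conj (g₀ v) * conj (δ v))) =
            η * (conj (g₀ v) * conj (δ v)) * conj (g₀ v) * (δ v * conj (δ v)) by ring, hu, mul_one]
        _ = η * δ v * ((η * η) * ((conj (g₀ v) * conj (δ v)) * (conj (g₀ v) * conj (δ v)))) := by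
          rw [hη, sgn_sq, one_mul]
        _ = η * δ v * (s * s) := by rw [← h3]; ring
        _ = η * δ v := by rw [hs, sgn_sq, mul_one]
    linear_combination -(g v) * h2

open scoped Classical in
/-- Some sign works. -/
theorem FreePair.exists_signAt (D : FreePair p B P e) {R : Subgroup G} (hR : R ≤ P) (hR1 : R ≠ ⊥)
    (hgt : ∀ S ≤ P, R < S → SignGen (M := M) P e S) :
    ∃ s : ℤ, (s = 1 ∨ s = -1) ∧ SignAt (M := M) P e R s := by
  letI : CommGroup P := { (inferInstance : Group P) with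
    mul_comm := fun a b => Subtype.ext (D.comm a a.2 b b.2) }
  letI := Fintype.ofFinite P
  obtain ⟨δ, hu, hδ1, -, hlin, hcen⟩ := D.exists_local hR hR1
  set R' : Subgroup P := R.subgroupOf P with hR'
  have hδne : ∀ v, δ v ≠ 0 := fun v h => by simpa [h] using hu v
  let ω : R' →* ℂˣ :=
    { toFun := fun r => Units.mk0 (δ r.1) (hδne _)
      map_one' := Units.ext (by simpa using hδ1)
      map_mul' := fun a b => Units.ext (hcen a.1 b.1 a.2) }
  obtain ⟨ω', hω'⟩ := MonoidHom.domRestrict_surjective (M := ℂ) R' ω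
  have hωval : ∀ r : P, r ∈ R' → (ω' r : ℂ) = δ r := fun r hr => by
    have h := DFunLike.congr_fun hω' (⟨r, hr⟩ : R')
    exact congrArg Units.val h
  have hωu : ∀ v, (ω' v : ℂ) * conj (ω' v : ℂ) = 1 := fun v => by
    rw [Homocyclic.hom_norm, ← Units.val_mul, ← map_mul, mul_inv_cancel, map_one, Units.val_one]
  obtain ⟨F₁, hF₁, hF₁v⟩ := hlin 1
  obtain ⟨W, hW, hWv⟩ := exists_weisner hR hgt hF₁
  let d : P → ℂ := fun v =>
    (sgn (M := M) P e (R ⊔ Subgroup.zpowers (v : G)) : ℂ) * δ v * conj (ω' v : ℂ)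
  have hgen : IsGeneralizedCharacter P (W * fun v : P => conj (ω' v : ℂ)) :=
    Chars.isGen_mul hW (isGen_conjFun D.comm (Homocyclic.isGen_hom ω'))
  obtain ⟨s, lam, hs, hlamR, hlam⟩ := FreeUnit.exists_sign_hom_periodic hgen R' (d := d)
    (fun v hv => by
      show W v * conj (ω' v : ℂ) = _
      rw [hWv v hv, ctbAt, hF₁v]
      simp [d])
    (fun r hr v => by
      have hrG : (r : G) ∈ R := hr
      have hQ : R ⊔ Subgroup.zpowers ((r * v : P) : G) = R ⊔ Subgroup.zpowers (v : G) := by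
        refine le_antisymm (sup_le le_sup_left (Subgroup.zpowers_le.mpr ?_))
          (sup_le le_sup_left (Subgroup.zpowers_le.mpr ?_))
        · exact Subgroup.mul_mem _ (Subgroup.mem_sup_left hrG)
            (Subgroup.mem_sup_right (Subgroup.mem_zpowers _))
        · have : (v : G) = (r : G)⁻¹ * ((r * v : P) : G) := by simp
          rw [this]
          exact Subgroup.mul_mem _ (Subgroup.mem_sup_left (R.inv_mem hrG))
            (Subgroup.mem_sup_right (Subgroup.mem_zpowers _))
      simp only [d, hQ, hcen r v hrG, map_mul, Units.val_mul, hωval r hr]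
      linear_combination (sgn (M := M) P e (R ⊔ Subgroup.zpowers (v : G)) : ℂ) * δ v *
        conj (ω' v : ℂ) * hu r)
    (fun v hv => by
      simp only [d, map_mul, map_intCast, Complex.conj_conj]
      linear_combination (δ v * conj (δ v)) * ((ω' v : ℂ) * conj (ω' v : ℂ)) *
        sgn_sq (M := M) (P := P) (e := e) (R ⊔ Subgroup.zpowers (v : G)) +
        ((ω' v : ℂ) * conj (ω' v : ℂ)) * hu v + hωu v)
  obtain ⟨F₂, hF₂, hF₂v⟩ := hlin (ω' * lam)⁻¹
  refine ⟨s, hs, F₂, hF₂, fun v hv => ?_⟩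
  have hμ : (((ω' * lam)⁻¹ ⟨v, hv⟩ : ℂˣ) : ℂ) =
      conj (ω' ⟨v, hv⟩ : ℂ) * conj (lam ⟨v, hv⟩ : ℂ) := by
    simp only [Homocyclic.hom_norm, MonoidHom.inv_apply, MonoidHom.mul_apply, mul_inv_rev,
      map_inv, Units.val_mul]
    ring
  have hval : ctbAt (M := M) P e F₂ R v =
      conj (ω' ⟨v, hv⟩ : ℂ) * conj (lam ⟨v, hv⟩ : ℂ) * δ ⟨v, hv⟩ := by
    rw [ctbAt, hF₂v ⟨v, hv⟩, hμ]
  refine ⟨fun hvR => ?_, fun hvR => ?_⟩
  · rw [hval, hlamR ⟨v, hv⟩ hvR, hωval ⟨v, hv⟩ hvR, Units.val_one, map_one, mul_one, mul_comm,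
      hu]
  · have h := hlam ⟨v, hv⟩ hvR
    simp only [d] at h
    have hl : (lam ⟨v, hv⟩ : ℂ) * conj (lam ⟨v, hv⟩ : ℂ) = 1 := by
      rw [Homocyclic.hom_norm, ← Units.val_mul, ← map_mul, mul_inv_cancel, map_one, Units.val_one]
    rw [hval]
    linear_combination conj (lam ⟨v, hv⟩ : ℂ) * h + (s : ℂ) * hl

/-- The signs work at every nontrivial subgroup. -/
theorem FreePair.signGen (D : FreePair p B P e) :
    ∀ R : Subgroup G, R ≤ P → R ≠ ⊥ → SignGen (M := M) P e R := by
  classical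
  intro R
  induction R using WellFoundedGT.induction with
  | _ R ih =>
    intro hR hR1
    have hgt : ∀ S ≤ P, R < S → SignGen (M := M) P e S := fun S hS hRS =>
      ih S hRS hS (fun h => not_lt_bot (h ▸ hRS))
    refine D.signGen_of_signAt hR hR1 ?_
    obtain ⟨s, hs, hsat⟩ := D.exists_signAt hR hR1 hgt
    rw [sgn_eq]
    split_ifs with h
    · exact h
    · rcases hs with rfl | rfl
      · exact absurd hsat h
      · exact hsat

/-- For every character the signed contributions extend to a generalized character. -/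
theorem FreePair.exists_gen (D : FreePair p B P e) {F : G → ℂ} (hF : IsGeneralizedCharacter G F) :
    ∃ g : P → ℂ, IsGeneralizedCharacter P g ∧ ∀ v : P, (v : G) ≠ 1 →
      g v = (sgn (M := M) P e (Subgroup.zpowers (v : G)) : ℂ) *
        ctb (M := M) P e F (v : G) (cz (v : G)) := by
  obtain ⟨g, hg, hgv⟩ := exists_weisner (M := M) (e := e) (bot_le : (⊥ : Subgroup G) ≤ P)
    (fun S hS hlt => D.signGen S hS hlt.ne') (Chars.isGen_restrict hF _)
  refine ⟨g, hg, fun v hv => ?_⟩
  rw [hgv v (fun h => hv (Subgroup.mem_bot.mp h)), ctbAt, bot_sup_eq]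
  rfl

theorem FreePair.signAt_conj (D : FreePair p B P e) {t : G} (ht : t ∈ stab P e) {R : Subgroup G}
    (hR : R ≤ P)
    (hinv : ∀ S ≤ P, R < S → sgn (M := M) P e (conjS t S) = sgn (M := M) P e S) {s : ℤ}
    (h : SignAt (M := M) P e R s) : SignAt (M := M) P e (conjS t R) s := by
  obtain ⟨F, hF, hval⟩ := h
  have hmem : ∀ x, x ∈ P ↔ t⁻¹ * x * t ∈ P := fun x => by
    have h1 := Subgroup.mem_normalizer_iff.mp ht.1 (t⁻¹ * x * t)
    rw [show t * (t⁻¹ * x * t) * t⁻¹ = x by group] at h1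
    exact h1.symm
  let c : Subgroup.centralizer ((conjS t R : Subgroup G) : Set G) →*
      Subgroup.centralizer (R : Set G) :=
    { toFun := fun x => ⟨t⁻¹ * (x : G) * t, by
        refine Subgroup.mem_centralizer_iff.mpr fun r hr => ?_
        have h1 := Subgroup.mem_centralizer_iff.mp x.2 (t * r * t⁻¹)
          (mem_conjS.mpr (by simpa [mul_assoc] using hr))
        calc r * (t⁻¹ * (x : G) * t) = t⁻¹ * ((t * r * t⁻¹) * x) * t := by group
          _ = t⁻¹ * (x * (t * r * t⁻¹)) * t := by rw [h1]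
          _ = _ := by group⟩
      map_one' := Subtype.ext (by simp)
      map_mul' := fun a b => Subtype.ext (by
        show t⁻¹ * ((a : G) * (b : G)) * t = t⁻¹ * (a : G) * t * (t⁻¹ * (b : G) * t)
        group) }
  refine ⟨fun g => F (t⁻¹ * g * t), Chars.isGen_comp hF c, fun v hv => ?_⟩
  obtain ⟨w, rfl⟩ : ∃ w, t * w * t⁻¹ = v := ⟨t⁻¹ * v * t, by group⟩
  have hw : w ∈ P := by
    have h1 := (hmem _).mp hv
    rwa [show t⁻¹ * (t * w * t⁻¹) * t = w by group] at h1
  have hsup : conjS t R ⊔ Subgroup.zpowers (t * w * t⁻¹) = conjS t (R ⊔ Subgroup.zpowers w) := by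
    rw [← conjS_zpowers]
    exact (Subgroup.map_sup _ _ _).symm
  have hQ : R ⊔ Subgroup.zpowers w ≤ P := sup_le hR (Subgroup.zpowers_le.mpr hw)
  have hctb : ctbAt (M := M) P e (fun g => F (t⁻¹ * g * t)) (conjS t R) (t * w * t⁻¹) =
      ctbAt (M := M) P e F R w := by
    rw [ctbAt, hsup, ← conjS_centralizer, ctb_conj D.hpM D.data.pmax.pair ht
      (D.le_centralizer hQ).1 (D.le_centralizer hQ).2]
    exact ctb_congr fun c => by group
  have hmemR : t * w * t⁻¹ ∈ conjS t R ↔ w ∈ R := by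
    rw [mem_conjS]
    simp [mul_assoc]
  rw [hctb, hmemR]
  refine ⟨(hval w hw).1, fun hwR => ?_⟩
  rw [hsup, hinv _ hQ (lt_sup_zpowers_iff.mpr hwR)]
  exact (hval w hw).2 hwR

/-- The signs are invariant under the stabilizer of the pair. -/
theorem FreePair.sgn_conj (D : FreePair p B P e) : ∀ (R : Subgroup G), R ≤ P →
    ∀ t ∈ stab P e, sgn (M := M) P e (conjS t R) = sgn (M := M) P e R := by
  classical
  intro R
  induction R using WellFoundedGT.induction with
  | _ R ih =>
    intro hR t ht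
    rw [sgn_eq, sgn_eq]
    refine if_congr ⟨fun h => ?_, D.signAt_conj ht hR fun S hS hlt => ih S hlt hS t ht⟩ rfl rfl
    have hP : conjS t P = P := conjS_eq_self_of_mem_normalizer ht.1
    have ht' : t⁻¹ ∈ stab P e := Subgroup.inv_mem _ ht
    have h1 := D.signAt_conj ht' (hP ▸ conjS_le hR) (fun S hS hlt => ?_) h
    · rwa [conjS_inv_conjS] at h1
    · have hlt' : R < conjS t⁻¹ S := by
        refine lt_of_le_of_ne ?_ fun h2 => hlt.ne ?_
        · simpa [conjS_inv_conjS] using conjS_le (x := t⁻¹) hlt.le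
        · rw [h2, conjS_conjS_inv]
      have hS' : conjS t⁻¹ S ≤ P := by
        have h2 := conjS_le (x := t⁻¹) hS
        rwa [conjS_eq_self_of_mem_normalizer ht'.1] at h2
      have h3 := ih _ hlt' hS' t ht
      rw [conjS_conjS_inv] at h3
      exact h3.symm

end Cfsg.Agent.BlockChar
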