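import Cfsg.Agent.BlockChar.KleinFourData
import Cfsg.Agent.BlockChar.FourGroupBound

/-!
The shape of the character table of a block with Klein four defect group.
-/

set_option autoImplicit false
set_option linter.unusedSectionVars false
set_option linter.style.haveILetI false
set_option maxHeartbeats 1600000

namespace Cfsg.Agent.BlockChar

open MonoidAlgebra
open scoped MonoidAlgebra ComplexConjugate
open Cfsg Cfsg.Agent Cfsg.Agent.Blocks

universe u

variable {G : Type u} [Group G] [Fintype G] {M : Ideal AlgInt} [M.IsMaximal]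

/-- The shape of a block with a Klein four defect group and inertial index `e`. -/
def HasFourShape (M : Ideal AlgInt) [M.IsMaximal] (B : Set (IrrCharacter G)) (e : ℕ) : Prop :=
  Nat.card B = 4 ∧ ∃ s : IrrCharacter G → ℤ, (∀ χ ∈ B, s χ * s χ = 1) ∧
    (∀ x : G, (IsPRegular 2 x ↔ e = 1) → ∃ α : ℂ, ∀ χ ∈ B, (χ : G → ℂ) x = α * (s χ : ℂ)) ∧
    (∀ x : G, ¬ (IsPRegular 2 x ↔ e = 1) →
      ∑ χ ∈ bf B, (s χ : ℂ) * (χ : G → ℂ) x = 0) ∧
    ∀ y : G, 2 ∣ orderOf y → ∃ (T : Finset ((Res M)[G]))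
        (a : (Res M)[G] → IrrCharacter G → ℤ) (g : (Res M)[G] → ℂ),
      (∀ i ∈ T, ∀ χ ∈ B, a i χ * a i χ = 1) ∧
      (∀ i ∈ T, (4 : ℤ) ∣ ∑ χ ∈ bf B, s χ * a i χ) ∧
      (∀ i ∈ T, MemLocalRing M (g i) ∧
        MemLocalRing M (4 * g i / (Nat.card (Subgroup.centralizer ({y} : Set G)) : ℂ))) ∧
      ∀ χ ∈ B, (χ : G → ℂ) y = ∑ i ∈ T, (a i χ : ℂ) * g i

theorem card_centralizer_conj_eq (x y : G) :
    Nat.card (Subgroup.centralizer ({x * y * x⁻¹} : Set G)) =
      Nat.card (Subgroup.centralizer ({y} : Set G)) := by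
  refine le_antisymm (FourGroupBound.card_centralizer_conj_le x y) ?_
  have := FourGroupBound.card_centralizer_conj_le x⁻¹ (x * y * x⁻¹)
  rwa [show x⁻¹ * (x * y * x⁻¹) * x⁻¹⁻¹ = y by group] at this

theorem hasFourShape (hM : IsPModular 2 M) {B : Set (IrrCharacter G)} (hB : IsPBlock M B)
    {P : Subgroup G} (hPD : IsDefectGroup 2 M B P) (hV : IsKleinFour P)
    {c : Set (IrrCharacter (Subgroup.centralizer (P : Set G)))}
    (hc : IsInducedBlock M (Subgroup.centralizer (P : Set G)) c B) {T : Subgroup G}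
    (hT : ∀ g : G, g ∈ T ↔ (g ∈ Subgroup.normalizer (P : Set G) ∧
      StabilizesBlock (Subgroup.centralizer (P : Set G)) c g)) :
    ((Subgroup.centralizer (P : Set G)).relIndex T = 1 ∨
        (Subgroup.centralizer (P : Set G)).relIndex T = 3) ∧
      HasFourShape M B ((Subgroup.centralizer (P : Set G)).relIndex T) := by
  classical
  haveI : Fact (Nat.Prime 2) := ⟨Nat.prime_two⟩
  have hpM := hM.2.2
  haveI := charP_res (p := 2) hpM
  obtain ⟨he, hk, hl⟩ := Cfsg.Agent.S4637.result M hM B hB P hPD hV c hc T hT _ rfl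
  set e := (Subgroup.centralizer (P : Set G)).relIndex T with hedef
  have hcard : Nat.card P = 4 := hV.card_four
  have hsq : ∀ x ∈ P, x * x = 1 := fun x hx => by
    have h := Monoid.pow_exponent_eq_one (⟨x, hx⟩ : P)
    rw [hV.exponent_two, pow_two] at h
    exact congrArg Subtype.val h
  have hab : ∀ x ∈ P, ∀ y ∈ P, x * y = y * x := fun x hx y hy => by
    have h1 := hsq _ (P.mul_mem hx hy)
    calc x * y = x * (x * y * (x * y)) * y := by rw [h1]; group
      _ = (x * x) * y * x * (y * y) := by group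
      _ = y * x := by rw [hsq x hx, hsq y hy]; group
  have hPC : P ≤ (Subgroup.centralizer (P : Set G)) := fun x hx =>
    Subgroup.mem_centralizer_iff.mpr fun y hy => hab y hy x hx
  obtain ⟨hmax, ho⟩ := maxPair_of_induced hpM hPD hPC hc
  have D : MaxData 2 B P (idemS M c) := ⟨hmax, hc.2.1, ho⟩
  have hTeq : T = stab P (idemS M c) := eq_stab hpM hc.1 hT
  have hCT : (Subgroup.centralizer (P : Set G)) ≤ T := hTeq ▸ hmax.pair.centralizer_le_stab
  -- free action
  have hfree : ∀ t ∈ stab P (idemS M c), ∀ v ∈ P, v ≠ 1 → t * v * t⁻¹ = v → t ∈ (Subgroup.centralizer (P : Set G)) := by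
    intro t ht v hv hv1 htv
    rw [← hTeq] at ht
    rcases he with h1 | h3
    · exact Subgroup.relIndex_eq_one.mp h1 ht
    set K := T ⊓ cz v with hK
    have hCK : (Subgroup.centralizer (P : Set G)) ≤ K := le_inf hCT fun x hx =>
      mem_cz.mpr (Subgroup.mem_centralizer_iff.mp hx v hv)
    have hmul := Subgroup.relIndex_mul_relIndex (Subgroup.centralizer (P : Set G)) K T hCK inf_le_left
    rw [← hedef, h3] at hmul
    rcases (Nat.dvd_prime Nat.prime_three).mp (Dvd.intro _ hmul) with hr | hr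
    · have : t ∈ K := ⟨ht, mem_cz.mpr (mul_inv_eq_iff_eq_mul.mp htv).symm⟩
      exact Subgroup.relIndex_eq_one.mp hr this
    · rw [hr] at hmul
      have hKT : T ≤ K := Subgroup.relIndex_eq_one.mp (by omega)
      exfalso
      -- every element of `T` fixes `v`, hence squares centralise `P`
      have hsquare : ∀ x ∈ T, x ^ 2 ∈ (Subgroup.centralizer (P : Set G)) := by
        intro x hx
        have hxv : x * v * x⁻¹ = v := by
          rw [← (mem_cz.mp (hKT hx).2).eq, mul_inv_cancel_right]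
        have hxP : ∀ z ∈ P, x * z * x⁻¹ ∈ P := fun z hz =>
          (Subgroup.mem_normalizer_iff.mp ((hT x).mp hx).1 z).mp hz
        refine Subgroup.mem_centralizer_iff.mpr fun z hz => ?_
        have key : x ^ 2 * z * (x ^ 2)⁻¹ = z := by
          rw [pow_two, show x * x * z * (x * x)⁻¹ = x * (x * z * x⁻¹) * x⁻¹ by group]
          by_cases hz1 : z = 1
          · simp [hz1]
          by_cases hzv : z = v
          · rw [hzv, hxv, hxv]
          have hz4 : x * z * x⁻¹ = z ∨ x * z * x⁻¹ = v * z := by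
            by_contra hcon
            push Not at hcon
            have hsub : ({1, v, z, v * z, x * z * x⁻¹} : Finset G) ⊆ (P : Set G).toFinset := by
              intro w hw
              simp only [Finset.mem_insert, Finset.mem_singleton] at hw
              rw [Set.mem_toFinset]
              rcases hw with rfl | rfl | rfl | rfl | rfl
              exacts [one_mem P, hv, hz, P.mul_mem hv hz, hxP z hz]
            have e1 : v * z ≠ 1 := fun h => hzv (by
              calc z = v * v * z := by rw [hsq v hv, one_mul]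
                _ = v := by rw [mul_assoc, h, mul_one])
            have e2 : v * z ≠ v := fun h => hz1 (mul_left_cancel (h.trans (mul_one v).symm))
            have e3 : v * z ≠ z := fun h => hv1 (mul_right_cancel (h.trans (one_mul z).symm))
            have e4 : x * z * x⁻¹ ≠ 1 := fun h => hz1 (conj_eq_one_iff.mp h)
            have e5 : x * z * x⁻¹ ≠ v := fun h =>
              hzv (mul_left_cancel (mul_right_cancel (h.trans hxv.symm)))
            have h5 : ({1, v, z, v * z, x * z * x⁻¹} : Finset G).card = 5 := by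
              simp [Ne.symm hv1, Ne.symm hz1, Ne.symm hzv, e1.symm, e2.symm, e3.symm, e4.symm,
                e5.symm, hcon.1.symm, hcon.2.symm]
            have hle := Finset.card_le_card hsub
            rw [h5, Set.toFinset_card, ← Nat.card_eq_fintype_card] at hle
            have : (5 : ℕ) ≤ 4 := hle.trans hcard.le
            omega
          rcases hz4 with h | h
          · rw [h, h]
          · rw [h, show x * (v * z) * x⁻¹ = x * v * x⁻¹ * (x * z * x⁻¹) by group, hxv, h,
              ← mul_assoc, hsq v hv, one_mul]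
        exact (mul_inv_eq_iff_eq_mul.mp key).symm
      obtain ⟨x, hxT, hxC⟩ : ∃ x ∈ T, x ∉ (Subgroup.centralizer (P : Set G)) := by
        by_contra hall
        push Not at hall
        rw [Subgroup.relIndex_eq_one.mpr hall] at hedef
        omega
      haveI : ((Subgroup.centralizer (P : Set G)).subgroupOf T).Normal :=
        Subgroup.normal_subgroupOf_of_le_normalizer fun y hy =>
          normalizer_le_normalizer_centralizer P ((hT y).mp hy).1
      have hcardQ : Nat.card (↥T ⧸ (Subgroup.centralizer (P : Set G)).subgroupOf T) = 3 := by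
        show ((Subgroup.centralizer (P : Set G)).subgroupOf T).index = 3
        exact hedef.symm.trans h3
      set z : ↥T ⧸ (Subgroup.centralizer (P : Set G)).subgroupOf T := QuotientGroup.mk' _ ⟨x, hxT⟩ with hz
      have e2 : z ^ 2 = 1 := by
        rw [hz, ← map_pow, QuotientGroup.mk'_apply, QuotientGroup.eq_one_iff,
          Subgroup.mem_subgroupOf]
        exact hsquare x hxT
      have e3 : z ^ 3 = 1 := by rw [← hcardQ]; exact pow_card_eq_one'
      have e1 : z = 1 := by
        calc z = z ^ 3 * (z ^ 2)⁻¹ := by group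
          _ = 1 := by rw [e2, e3, inv_one, mul_one]
      exact hxC (Subgroup.mem_subgroupOf.mp ((QuotientGroup.eq_one_iff _).mp e1))
  obtain ⟨hrank, -⟩ := card_eq_of_free hpM hPD hab hc hfree
  letI : ∀ w : G, Fintype (cz w) := fun w => Fintype.ofFinite _
  choose! a f hsec hloc hcon hne using fun v (hv : v ∈ P) (hv1 : v ≠ 1) =>
    sec_rank_one hpM D hab hv (hsq v hv) (hrank v hv hv1)
  have hB4 : (bf B).card = 4 := by rw [← card_bf]; exact hk
  have ha1 : ∀ v ∈ P, v ≠ 1 → ∀ χ ∈ B, a v χ * a v χ = 1 := by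
    intro v hv hv1
    have h := sum_conP_diag hpM D hv
    rw [hrank v hv hv1, Nat.cast_one] at h
    have hs : ∑ χ ∈ bf B, a v χ * a v χ = 4 := by
      have h' : ((∑ χ ∈ bf B, a v χ * a v χ : ℤ) : ℂ) = ((4 : ℤ) : ℂ) := by
        rw [Int.cast_sum, show ((4 : ℤ) : ℂ) = (Nat.card P : ℂ) * 1 by rw [hcard]; norm_num, ← h,
          Finset.mul_sum]
        refine Finset.sum_congr rfl fun χ _ => ?_
        rw [hcon v hv hv1, Int.cast_mul]
      exact_mod_cast h'
    have hge : ∀ χ ∈ bf B, (1 : ℤ) ≤ a v χ * a v χ := fun χ hχ => by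
      have h0 := hne v hv hv1 χ (mem_bf.mp hχ)
      exact Int.add_one_le_iff.mpr (mul_self_pos.mpr h0)
    intro χ hχ
    have heq := (Finset.sum_eq_sum_iff_of_le hge).mp
      (by rw [hs, Finset.sum_const, hB4]; rfl)
    exact (heq χ (mem_bf.mpr hχ)).symm
  -- orthogonality
  set S := (Finset.univ.filter (fun v : G => v ∈ P)).erase 1 with hS
  have hSmem : ∀ v ∈ S, v ∈ P ∧ v ≠ 1 := fun v hv =>
    ⟨(Finset.mem_filter.mp (Finset.mem_erase.mp hv).2).2, (Finset.mem_erase.mp hv).1⟩
  have hScard : S.card = 3 := by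
    rw [hS, Finset.card_erase_of_mem (Finset.mem_filter.mpr ⟨Finset.mem_univ _, one_mem P⟩),
      show (Finset.univ.filter (fun v : G => v ∈ P)).card = Nat.card P by
        rw [Nat.card_eq_fintype_card, Fintype.card_subtype], hcard]
  have he0 : (e : ℂ) ≠ 0 := by
    rcases he with h | h <;> rw [h] <;> norm_num
  have horth : ∀ χ ∈ B, ∀ ψ ∈ B,
      regInner 2 (χ : G → ℂ) (ψ : G → ℂ) + (e : ℂ)⁻¹ * (4 : ℂ)⁻¹ *
        ∑ v ∈ S, (a v χ : ℂ) * (a v ψ : ℂ) = if χ = ψ then 1 else 0 := by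
    intro χ hχ ψ hψ
    rw [← sum_conP hpM D hab χ hψ, ← Finset.add_sum_erase _ _
      (Finset.mem_filter.mpr ⟨Finset.mem_univ (1 : G), one_mem P⟩), card_orbP_one, Nat.cast_one,
      inv_one, one_mul, conP_one_eq hpM D hχ hψ, Finset.mul_sum]
    congr 1
    refine Finset.sum_congr rfl fun v hv => ?_
    obtain ⟨hvP, hv1⟩ := hSmem v hv
    rw [card_orbP_of_free hmax.pair hvP (fun t ht h => hfree t ht v hvP hv1 h), ← hTeq,
      ← hedef, ← hcon v hvP hv1 χ ψ, hcard]
    push_cast
    ring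
  -- values on singular elements
  have hdecomp : ∀ y : G, 2 ∣ orderOf y → ∃ (T' : Finset ((Res M)[G])) (i₀ : (Res M)[G] → G)
      (g : (Res M)[G] → ℂ), (∀ i ∈ T', i₀ i ∈ P ∧ i₀ i ≠ 1) ∧
      (∀ i ∈ T', MemLocalRing M (g i) ∧
        MemLocalRing M (4 * g i / (Nat.card (Subgroup.centralizer ({y} : Set G)) : ℂ))) ∧
      ∀ χ ∈ B, (χ : G → ℂ) y = ∑ i ∈ T', (a (i₀ i) χ : ℂ) * g i := by
    intro y hy
    obtain ⟨r, hyr, hcr, -, hr⟩ := isPPart_ppart (p := 2) y
    set u := ppart 2 y with hu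
    have hu1 : u ≠ 1 := fun h => (ppart_one_iff.mp h) hy
    have hup : ∃ k : ℕ, orderOf u = 2 ^ k := exists_orderOf_ppart y
    let T' := (blks (Res M) (cz u)).filter fun β => ∃ x, Below 2 P (idemS M c) x u β
    let xx : (Res M)[G] → G := fun β =>
      if h : ∃ x, Below 2 P (idemS M c) x u β then h.choose else 1
    refine ⟨T', fun β => xx β * u * (xx β)⁻¹,
      fun β => f (xx β * u * (xx β)⁻¹) (xx β * r * (xx β)⁻¹), ?_, ?_, ?_⟩
    · intro β hβ
      have hex := (Finset.mem_filter.mp hβ).2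
      simp only [xx, dif_pos hex]
      exact ⟨hex.choose_spec.mem, fun h => hu1 (conj_eq_one_iff.mp h)⟩
    · intro β hβ
      have hex := (Finset.mem_filter.mp hβ).2
      simp only [xx, dif_pos hex]
      set x := hex.choose
      have hvP : x * u * x⁻¹ ∈ P := hex.choose_spec.mem
      have hv1 : x * u * x⁻¹ ≠ 1 := fun h => hu1 (conj_eq_one_iff.mp h)
      have hs : x * r * x⁻¹ ∈ cz (x * u * x⁻¹) := mem_cz.mpr ((Commute.conj_iff x).mpr hcr)
      have hsr : ¬ 2 ∣ orderOf (x * r * x⁻¹) := by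
        rwa [show x * r * x⁻¹ = (MulAut.conj x) r from rfl, MulEquiv.orderOf_eq]
      obtain ⟨h1, h2⟩ := hloc _ hvP hv1 _ hs hsr
      rw [hcard, show x * u * x⁻¹ * (x * r * x⁻¹) = x * y * x⁻¹ by rw [← hyr]; group,
        card_centralizer_conj_eq] at h2
      exact ⟨h1, by exact_mod_cast h2⟩
    · intro χ hχ
      rw [← hyr, ← sum_sec hpM (χ : G → ℂ) u r]
      refine (Finset.sum_subset (s₁ := T') (Finset.filter_subset (fun β => ∃ x, Below 2 P (idemS M c) x u β)
        (blks (Res M) (cz u))) fun β hβ hβT => ?_).symm.trans ?_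
      · exact sec_eq_zero hpM hc.2.1 hχ hup (mem_blks.mp hβ)
          (fun h => hβT (Finset.mem_filter.mpr
            ⟨hβ, (below_iff_ofBlock hpM D hup (mem_blks.mp hβ)).mpr h⟩)) (mem_cz.mpr hcr) hr
      refine Finset.sum_congr rfl fun β hβ => ?_
      have hex := (Finset.mem_filter.mp hβ).2
      simp only [xx, dif_pos hex]
      set x := hex.choose
      have hx : Below 2 P (idemS M c) x u β := hex.choose_spec
      have hvP : x * u * x⁻¹ ∈ P := hx.mem
      have hv1 : x * u * x⁻¹ ≠ 1 := fun h => hu1 (conj_eq_one_iff.mp h)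
      rw [← sec_cj hpM χ x (mem_blks.mp (Finset.mem_filter.mp hβ).1) r,
        eq_locB hpM D hvP hx]
      refine hsec _ hvP hv1 χ _ (mem_cz.mpr ((Commute.conj_iff x).mpr hcr)) ?_
      rwa [show x * r * x⁻¹ = (MulAut.conj x) r from rfl, MulEquiv.orderOf_eq]
  refine ⟨he, hk, ?_⟩
  rcases he with h1 | h3
  · -- trivial inertial action
    rw [h1] at hl horth ⊢
    obtain ⟨φ, d, -, hd, hsum⟩ := rank_one_cartan hpM hB hPD hl
    rw [hcard, finsum_mem_bf] at hsum
    have hone : IsPRegular 2 (1 : G) := by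
      show ¬ 2 ∣ orderOf (1 : G)
      rw [orderOf_one]; decide
    have hd1 : ∀ χ ∈ bf B, d χ = 1 := by
      have hge : ∀ χ ∈ bf B, 1 ≤ d χ ^ 2 := fun χ hχ => by
        refine Nat.one_le_pow _ _ (Nat.pos_of_ne_zero fun h => ?_)
        exact Chars.irr_apply_one_ne_zero χ.2 (by
          rw [hd χ (mem_bf.mp hχ) 1 hone, h, Nat.cast_zero, zero_mul])
      have heq := (Finset.sum_eq_sum_iff_of_le hge).mp
        (by rw [hsum, Finset.sum_const, hB4]; rfl)
      exact fun χ hχ => (Nat.pow_eq_one.mp (heq χ hχ).symm).resolve_right (by norm_num)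
    have hreg : ∀ χ ∈ B, ∀ x : G, IsPRegular 2 x → (χ : G → ℂ) x = φ x := fun χ hχ x hx => by
      rw [hd χ hχ x hx, hd1 χ (mem_bf.mpr hχ), Nat.cast_one, one_mul]
    have hm1 : ∀ χ ∈ B, ∀ ψ ∈ B, regInner 2 (χ : G → ℂ) (ψ : G → ℂ) = (4 : ℂ)⁻¹ := by
      intro χ hχ ψ hψ
      have e1 : regInner 2 (χ : G → ℂ) (ψ : G → ℂ) = regInner 2 (χ : G → ℂ) (χ : G → ℂ) := by
        rw [regInner, regInner]
        refine congrArg (_ * ·) (Finset.sum_congr rfl fun g hg => ?_)
        rw [hreg ψ hψ g (mem_regs.mp hg), hreg χ hχ g (mem_regs.mp hg)]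
      have h := horth χ hχ χ hχ
      rw [if_pos rfl, Finset.sum_congr rfl (g := fun _ => (1 : ℂ)) fun v hv => by
        rw [← Int.cast_mul, ha1 v (hSmem v hv).1 (hSmem v hv).2 χ hχ, Int.cast_one],
        Finset.sum_const, hScard] at h
      rw [e1, eq_sub_of_add_eq h]
      norm_num
    have hzero : ∀ v ∈ S, ∑ χ ∈ bf B, a v χ = 0 := by
      have hR : ∑ χ ∈ bf B, ∑ ψ ∈ bf B, ∑ v ∈ S, (a v χ : ℂ) * (a v ψ : ℂ) = 0 := by
        calc ∑ χ ∈ bf B, ∑ ψ ∈ bf B, ∑ v ∈ S, (a v χ : ℂ) * (a v ψ : ℂ)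
            = ∑ χ ∈ bf B, ∑ ψ ∈ bf B, (4 * (if χ = ψ then (1 : ℂ) else 0) - 1) := by
              refine Finset.sum_congr rfl fun χ hχ => Finset.sum_congr rfl fun ψ hψ => ?_
              have h := horth χ (mem_bf.mp hχ) ψ (mem_bf.mp hψ)
              rw [hm1 χ (mem_bf.mp hχ) ψ (mem_bf.mp hψ), Nat.cast_one] at h
              linear_combination 4 * h
          _ = 0 := by
              simp only [Finset.sum_sub_distrib, ← Finset.mul_sum, Finset.sum_ite_eq,
                Finset.sum_const, hB4]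
              rw [Finset.sum_congr rfl fun χ hχ => if_pos hχ, Finset.sum_const, hB4]
              norm_num
      have hZ : ∑ v ∈ S, (∑ χ ∈ bf B, a v χ) * (∑ χ ∈ bf B, a v χ) = 0 := by
        have h' : ((∑ v ∈ S, (∑ χ ∈ bf B, a v χ) * (∑ χ ∈ bf B, a v χ) : ℤ) : ℂ) = 0 := by
          rw [← hR, Int.cast_sum]
          conv_rhs => rw [Finset.sum_congr rfl fun χ _ => Finset.sum_comm, Finset.sum_comm]
          refine Finset.sum_congr rfl fun v _ => ?_
          rw [Int.cast_mul, Int.cast_sum, Finset.sum_mul_sum]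
        exact_mod_cast h'
      intro v hv
      have := (Finset.sum_eq_zero_iff_of_nonneg fun v _ => mul_self_nonneg _).mp hZ v hv
      exact mul_self_eq_zero.mp this
    refine ⟨fun _ => 1, fun _ _ => one_mul 1, fun x hx => ⟨φ x, fun χ hχ => by
      rw [hreg χ hχ x (hx.mpr rfl), Int.cast_one, mul_one]⟩, ?_, ?_⟩
    · intro x hx
      have hxs : 2 ∣ orderOf x := by
        by_contra h
        exact hx (iff_of_true h rfl)
      have h := block_orth_weak hpM hB (x := (1 : G)) hone hxs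
      have hφ1 : φ 1 ≠ 0 := by
        obtain ⟨χ, hχ⟩ := block_nonempty hB
        intro h0
        exact Chars.irr_apply_one_ne_zero χ.2 (by rw [hreg χ hχ 1 hone, h0])
      rw [show (Finset.univ.filter (· ∈ B)) = bf B by ext; simp,
        Finset.sum_congr rfl (fun χ hχ => by rw [hreg χ (mem_bf.mp hχ) 1 hone]), ← Finset.mul_sum,
        ← map_sum, mul_eq_zero] at h
      have h' := congrArg conj (h.resolve_left hφ1)
      rw [Complex.conj_conj, map_zero] at h'
      simpa using h'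
    · intro y hy
      obtain ⟨T', i₀, g, hi, hg, hval⟩ := hdecomp y hy
      refine ⟨T', fun i => a (i₀ i), g, fun i hi' => ha1 _ (hi i hi').1 (hi i hi').2,
        fun i hi' => ?_, hg, hval⟩
      simp only [one_mul]
      rw [hzero (i₀ i) (Finset.mem_erase.mpr ⟨(hi i hi').2,
        Finset.mem_filter.mpr ⟨Finset.mem_univ _, (hi i hi').1⟩⟩)]
      exact dvd_zero _
  · -- transitive inertial action
    rw [h3] at horth ⊢
    obtain ⟨v₀, hv₀⟩ : S.Nonempty := Finset.card_pos.mp (by rw [hScard]; norm_num)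
    obtain ⟨hv₀P, hv₀1⟩ := hSmem v₀ hv₀
    have horb : orbP P (idemS M c) v₀ = (S : Set G) := by
      refine Set.eq_of_subset_of_ncard_le (fun w hw => Finset.mem_coe.mpr
        (Finset.mem_erase.mpr ⟨?_, Finset.mem_filter.mpr
          ⟨Finset.mem_univ _, orbP_subset hv₀P w hw⟩⟩)) ?_ (Finset.finite_toSet _)
      · obtain ⟨t, -, rfl⟩ := hw
        exact fun h => hv₀1 (conj_eq_one_iff.mp h)
      · rw [Set.ncard_coe_finset, hScard, ← Nat.card_coe_set_eq,
          card_orbP_of_free hmax.pair hv₀P (fun t ht h => hfree t ht v₀ hv₀P hv₀1 h), ← hTeq,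
          ← hedef, h3]
    have hsame : ∀ v ∈ S, ∀ χ ψ : IrrCharacter G,
        (a v χ : ℂ) * (a v ψ : ℂ) = (a v₀ χ : ℂ) * (a v₀ ψ : ℂ) := by
      intro v hv χ ψ
      have hvo : v ∈ orbP P (idemS M c) v₀ := by rw [horb]; exact hv
      obtain ⟨hvP, hv1⟩ := hSmem v hv
      obtain ⟨t, ht, rfl⟩ := hvo
      rw [← hcon _ hvP hv1, ← hcon v₀ hv₀P hv₀1, conP, conP]
      congr 2
      · congr 2
        rw [cz_eq, cz_eq]
        exact card_centralizer_conj_eq t v₀
      · have hle := locB_spec hpM D hv₀P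
        have hle' : PairLE 2 (Subgroup.zpowers (t * v₀ * t⁻¹), cj t (locB 2 P (idemS M c) v₀))
            (P, idemS M c) := by
          have h := hle.cj t
          rwa [conjS_zpowers, conjS_eq_self_of_mem_normalizer ht.1, ht.2] at h
        rw [← eq_locB hpM D hvP hle', m2_cj hpM χ ψ t (hle.isPair_left hmax.pair).blk]
    have hm1 : ∀ χ ∈ B, ∀ ψ ∈ B, regInner 2 (χ : G → ℂ) (ψ : G → ℂ) =
        (if χ = ψ then 1 else 0) - (4 : ℂ)⁻¹ * ((a v₀ χ : ℂ) * (a v₀ ψ : ℂ)) := by
      intro χ hχ ψ hψ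
      have h := horth χ hχ ψ hψ
      rw [Finset.sum_congr rfl fun v hv => hsame v hv χ ψ, Finset.sum_const, hScard,
        nsmul_eq_mul] at h
      push_cast at h
      linear_combination h
    refine ⟨a v₀, ha1 v₀ hv₀P hv₀1, ?_, ?_, ?_⟩
    · intro x hx
      have hxs : 2 ∣ orderOf x := by
        by_contra h
        exact absurd (hx.mp h) (by norm_num)
      obtain ⟨T', i₀, g, hi, -, hval⟩ := hdecomp x hxs
      obtain ⟨χ₀, hχ₀⟩ := block_nonempty hB
      refine ⟨∑ i ∈ T', (a (i₀ i) χ₀ : ℂ) * (a v₀ χ₀ : ℂ) * g i, fun χ hχ => ?_⟩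
      rw [hval χ hχ, Finset.sum_mul]
      refine Finset.sum_congr rfl fun i hi' => ?_
      have hs := hsame (i₀ i) (Finset.mem_erase.mpr ⟨(hi i hi').2,
        Finset.mem_filter.mpr ⟨Finset.mem_univ _, (hi i hi').1⟩⟩) χ χ₀
      have h1 : (a (i₀ i) χ₀ : ℂ) * (a (i₀ i) χ₀ : ℂ) = 1 := by
        exact_mod_cast ha1 _ (hi i hi').1 (hi i hi').2 χ₀ hχ₀
      have h2 : (a v₀ χ₀ : ℂ) * (a v₀ χ₀ : ℂ) = 1 := by
        exact_mod_cast ha1 v₀ hv₀P hv₀1 χ₀ hχ₀
      linear_combination (a (i₀ i) χ₀ : ℂ) * g i * hs - (a (i₀ i) χ : ℂ) * g i * h1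
    · intro x hx
      have hxr : IsPRegular 2 x := by
        by_contra h
        exact hx (iff_of_false h (by norm_num))
      set F : G → ℂ := fun g => ∑ χ ∈ bf B, (a v₀ χ : ℂ) * (χ : G → ℂ) g with hF
      have h0 : (Nat.card G : ℂ)⁻¹ * ∑ g ∈ regs 2 G, F g * conj (F g) = 0 := by
        calc (Nat.card G : ℂ)⁻¹ * ∑ g ∈ regs 2 G, F g * conj (F g)
            = ∑ χ ∈ bf B, ∑ ψ ∈ bf B, (a v₀ χ : ℂ) * (a v₀ ψ : ℂ) *
                regInner 2 (χ : G → ℂ) (ψ : G → ℂ) := by
              simp only [hF, regInner, map_sum, map_mul, map_intCast, Finset.mul_sum,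
                Finset.sum_mul]
              rw [Finset.sum_comm]
              conv_lhs => arg 2; ext ψ; rw [Finset.sum_comm]
              rw [Finset.sum_comm]
              refine Finset.sum_congr rfl fun χ _ => Finset.sum_congr rfl fun ψ _ => ?_
              exact Finset.sum_congr rfl fun g _ => by ring
          _ = ∑ χ ∈ bf B, ∑ ψ ∈ bf B, ((if χ = ψ then (1 : ℂ) else 0) - (4 : ℂ)⁻¹) := by
              refine Finset.sum_congr rfl fun χ hχ => Finset.sum_congr rfl fun ψ hψ => ?_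
              rw [hm1 χ (mem_bf.mp hχ) ψ (mem_bf.mp hψ)]
              have h1 : (a v₀ χ : ℂ) * (a v₀ χ : ℂ) = 1 := by
                exact_mod_cast ha1 v₀ hv₀P hv₀1 χ (mem_bf.mp hχ)
              have h2 : (a v₀ ψ : ℂ) * (a v₀ ψ : ℂ) = 1 := by
                exact_mod_cast ha1 v₀ hv₀P hv₀1 ψ (mem_bf.mp hψ)
              split_ifs with h
              · subst h
                linear_combination (1 - (4 : ℂ)⁻¹ * ((a v₀ χ : ℂ) * (a v₀ χ : ℂ) + 1)) * h1
              · linear_combination -(4 : ℂ)⁻¹ * (a v₀ ψ : ℂ) * (a v₀ ψ : ℂ) * h1 -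
                  (4 : ℂ)⁻¹ * h2
          _ = 0 := by
              simp only [Finset.sum_sub_distrib, Finset.sum_ite_eq, Finset.sum_const, hB4]
              rw [Finset.sum_congr rfl fun χ hχ => if_pos hχ, Finset.sum_const, hB4]
              norm_num
      have h1 : ∑ g ∈ regs 2 G, Complex.normSq (F g) = 0 := by
        have h' := (mul_eq_zero.mp h0).resolve_left (inv_ne_zero Chars.card_ne_zero)
        simp only [Complex.mul_conj] at h'
        exact_mod_cast h'
      exact Complex.normSq_eq_zero.mp ((Finset.sum_eq_zero_iff_of_nonneg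
        fun g _ => Complex.normSq_nonneg _).mp h1 x (mem_regs.mpr hxr))
    · intro y hy
      obtain ⟨T', i₀, g, hi, hg, hval⟩ := hdecomp y hy
      refine ⟨T', fun i => a (i₀ i), g, fun i hi' => ha1 _ (hi i hi').1 (hi i hi').2,
        fun i hi' => ?_, hg, hval⟩
      obtain ⟨χ₀, hχ₀⟩ := block_nonempty hB
      have hSi : i₀ i ∈ S := Finset.mem_erase.mpr ⟨(hi i hi').2,
        Finset.mem_filter.mpr ⟨Finset.mem_univ _, (hi i hi').1⟩⟩
      refine ⟨a v₀ χ₀ * a (i₀ i) χ₀, ?_⟩
      calc ∑ χ ∈ bf B, a v₀ χ * a (i₀ i) χ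
          = ∑ _χ ∈ bf B, a v₀ χ₀ * a (i₀ i) χ₀ := by
            refine Finset.sum_congr rfl fun χ hχ => ?_
            have hs : a (i₀ i) χ * a (i₀ i) χ₀ = a v₀ χ * a v₀ χ₀ := by
              exact_mod_cast hsame _ hSi χ χ₀
            have h1 := ha1 v₀ hv₀P hv₀1 χ (mem_bf.mp hχ)
            have h2 := ha1 _ (hi i hi').1 (hi i hi').2 χ₀ hχ₀
            linear_combination a v₀ χ * a (i₀ i) χ₀ * hs - a v₀ χ * a (i₀ i) χ * h2 +
              a v₀ χ₀ * a (i₀ i) χ₀ * h1
        _ = _ := by rw [Finset.sum_const, hB4, nsmul_eq_mul]; rfl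

end Cfsg.Agent.BlockChar
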