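import Cfsg.Agent.BlockChar.AbelianRegular
import Cfsg.Agent.BlockChar.MajorBound
import Cfsg.Agent.BlockChar.DefectTwo
import Cfsg.Agent.BlockChar.AbelianContrib

/-!
# The number of characters of a block with an abelian defect group of rank at most three
-/

set_option autoImplicit false
set_option linter.unusedSectionVars false
set_option linter.style.haveILetI false

namespace Cfsg.Agent.BlockChar

open MonoidAlgebra
open scoped MonoidAlgebra IsMulCommutative
open Cfsg Cfsg.Agent Cfsg.Agent.Blocks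

universe u

variable {G : Type u} [Group G] [Fintype G] {p : ℕ} [Fact p.Prime] {M : Ideal AlgInt}
  [M.IsMaximal] {B : Set (IrrCharacter G)} {P : Subgroup G} {e : (Res M)[G]}

/-- A small index of the `p`-th powers bounds the elements of order `p`. -/
theorem card_omega_le {A : Type u} [CommGroup A] [Finite A] {m : ℕ}
    (h : (powMonoidHom p : A →* A).range.index ≤ m) : Nat.card {x : A // x ^ p = 1} ≤ m := by
  rw [← card_ker_pow_eq_index] at h
  exact le_of_eq_of_le (Nat.card_congr (Equiv.subtypeEquivRight fun x =>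
    (MonoidHom.mem_ker (f := (powMonoidHom p : A →* A))).symm)) h

open scoped Classical in
/-- `k(B) ≤ p^d` when the elements of order `p` are at most `p²`. -/
theorem card_le_pow_of_omega (hpM : (p : AlgInt) ∈ M) (D : MaxData p B P e)
    (hab : ∀ x ∈ P, ∀ y ∈ P, x * y = y * x) (hΩ : Nat.card {x : P // x ^ p = 1} ≤ p ^ 2) :
    Nat.card B ≤ p ^ blockDefect p B := by
  haveI := charP_res (p := p) hpM
  have hp : p.Prime := Fact.out
  have hcard := card_pair_group hpM D
  rcases le_or_gt (blockDefect p B) 2 with hd | hd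
  · exact (card_le_pow_defect hpM _ G B D.blk rfl).1 hd
  have hexp : ∃ x ∈ P, x ^ p ≠ 1 := by
    by_contra hno
    push Not at hno
    rw [Nat.card_congr (Equiv.subtypeUnivEquiv fun x : P => Subtype.ext (hno x x.2)), hcard,
      Nat.pow_le_pow_iff_right hp.one_lt] at hΩ
    omega
  obtain ⟨u, hu, hfree⟩ := exists_regular_element D.pmax.pair.pgroup hab (T := stab P e)
    (fun t ht => ht.1)
    (fun T' hT' => relIndex_stab_prime_to hpM D.pmax hab hT') hΩ hexp
  letI : Fintype (cz u) := Fintype.ofFinite _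
  have h := card_le_pow_mul_rank hpM D hcard (by omega) hu (fun w hw => hab u hu w hw)
  rwa [rank_one_of_free hpM D hab hu hfree, mul_one] at h

open scoped Classical in
/-- `k(B)³ ≤ p^{5d}` when the `p`-th powers have index at most `p³`. -/
theorem card_cube_le_of_index (hpM : (p : AlgInt) ∈ M) (D : MaxData p B P e) [IsMulCommutative P]
    (hidx : (powMonoidHom p : P →* P).range.index ≤ p ^ 3) :
    Nat.card B ^ 3 ≤ p ^ (5 * blockDefect p B) := by
  haveI := charP_res (p := p) hpM
  have hp : p.Prime := Fact.out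
  have hPp : IsPGroup p P := D.pmax.pair.pgroup
  have hab : ∀ x ∈ P, ∀ y ∈ P, x * y = y * x := fun x hx y hy =>
    congrArg Subtype.val (mul_comm (⟨x, hx⟩ : P) ⟨y, hy⟩)
  have hcard := card_pair_group hpM D
  set d := blockDefect p B with hd
  rcases Nat.eq_zero_or_pos d with h0 | hd0
  · have h := (card_le_pow_defect hpM d G B D.blk rfl).1 (by omega)
    rw [h0, pow_zero] at h
    rw [h0, mul_zero, pow_zero]
    calc Nat.card B ^ 3 ≤ 1 ^ 3 := Nat.pow_le_pow_left h 3
      _ = 1 := one_pow 3
  haveI : Nontrivial P := by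
    refine (Finite.one_lt_card_iff_nontrivial).mp ?_
    rw [hcard]
    exact Nat.one_lt_pow hd0.ne' hp.one_lt
  set Φ := (powMonoidHom p : P →* P).range with hΦ
  obtain ⟨x, n, hn0, hxo, hxΦ, hcle⟩ := exists_max_order (A := P) hPp
  have hdn : d ≤ 3 * n := by
    rw [hcard] at hcle
    have := hcle.trans (Nat.pow_le_pow_left hidx n)
    rw [← pow_mul] at this
    exact (Nat.pow_le_pow_iff_right hp.one_lt).mp this
  set u : G := (x : G) with hu
  have huP : u ∈ P := x.2
  have huc : ∀ w ∈ P, Commute u w := fun w hw => hab u huP w hw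
  letI : Fintype (cz u) := Fintype.ofFinite _
  have hPH : P ≤ cz u := fun w hw => mem_cz.mpr (huc w hw)
  have hDG := isDefectGroup_locB hpM D hab huP
  set b := blkSet (M := M) u (locB p P e u) with hbdef
  obtain ⟨hbs, -⟩ := blkSet_spec hpM ((locB_spec hpM D huP).isPair_left D.pmax.pair).blk
  have hbd : blockDefect p b = d := blockDefect_locB_of_central hpM D hcard huP huc
  set u' : cz u := ⟨u, self_mem_cz u⟩ with hu'
  have hu'c : ∀ g : cz u, u' * g = g * u' := fun g => Subtype.ext (mem_cz.mp g.2).eq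
  haveI : (Subgroup.zpowers u').Normal := ⟨fun m hm g => by
    obtain ⟨i, rfl⟩ := hm
    show g * u' ^ i * g⁻¹ ∈ _
    rw [← ((show Commute u' g from hu'c g).zpow_left i).eq, mul_inv_cancel_right]
    exact ⟨i, rfl⟩⟩
  letI : Fintype (cz u ⧸ Subgroup.zpowers u') := Fintype.ofFinite _
  obtain ⟨Bb, hBb, hdb, hlk, hdef⟩ := exists_quot_block hpM hbs rfl hu'c (z := u') (r := n)
    (by rw [← Subgroup.orderOf_coe]; exact (Subgroup.orderOf_coe x).trans hxo)
  rw [← hbdef, hbd] at hdb
  set Q := (P.subgroupOf (cz u)).map (QuotientGroup.mk' (Subgroup.zpowers u')) with hQ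
  obtain ⟨ē, Dq⟩ := exists_maxData_of_defect hpM hBb (hdef _ hDG)
  let φ : P →* Q :=
    { toFun := fun v => ⟨QuotientGroup.mk' _ ⟨v, hPH v.2⟩,
        Subgroup.mem_map_of_mem _ (Subgroup.mem_subgroupOf.mpr v.2)⟩
      map_one' := rfl
      map_mul' := fun _ _ => rfl }
  have hφ : Function.Surjective φ := by
    rintro ⟨q, w, hw, rfl⟩
    exact ⟨⟨w, Subgroup.mem_subgroupOf.mp hw⟩, rfl⟩
  haveI : IsMulCommutative Q := ⟨⟨fun a c => by
    obtain ⟨a, rfl⟩ := hφ a
    obtain ⟨c, rfl⟩ := hφ c
    rw [← map_mul, ← map_mul, mul_comm]⟩⟩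
  have hQidx : (powMonoidHom p : Q →* Q).range.index ≤ p ^ 2 := by
    rw [← Subgroup.index_comap_of_surjective _ hφ]
    set K := (powMonoidHom p : Q →* Q).range.comap φ
    have hlt : Φ < K := by
      refine lt_of_le_of_ne ?_ fun h => hxΦ ?_
      · rintro _ ⟨v, rfl⟩
        exact ⟨φ v, (map_pow φ v p).symm⟩
      · have hxK : x ∈ K := Subgroup.mem_comap.mpr (by
          rw [show φ x = 1 from Subtype.ext ((QuotientGroup.eq_one_iff _).mpr
            (Subgroup.mem_zpowers u'))]
          exact Subgroup.one_mem _)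
        rw [← h] at hxK
        exact hxK
    obtain ⟨i, hi⟩ := hPp.index K
    obtain ⟨j, hj⟩ := hPp.index Φ
    have h1 : K.index < Φ.index := Subgroup.index_strictAnti hlt
    rw [hi]
    rw [hi, hj] at h1
    rw [hΦ] at hj
    rw [hj] at hidx
    have := (Nat.pow_lt_pow_iff_right hp.one_lt).mp h1
    have := (Nat.pow_le_pow_iff_right hp.one_lt).mp hidx
    exact Nat.pow_le_pow_right hp.pos (by omega)
  have hk := card_le_pow_of_omega hpM Dq
    (fun a ha c hc => congrArg Subtype.val (mul_comm (⟨a, ha⟩ : Q) ⟨c, hc⟩))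
    (card_omega_le hQidx)
  have hmain : Nat.card B ≤ p ^ (d + blockDefect p Bb) := by
    refine (card_le_pow_mul_rank hpM D hcard hd0 huP huc).trans ?_
    rw [pow_add]
    exact Nat.mul_le_mul_left _ (hlk.trans hk)
  refine (Nat.pow_le_pow_left hmain 3).trans ?_
  rw [← pow_mul]
  exact Nat.pow_le_pow_right hp.pos (by omega)

end Cfsg.Agent.BlockChar
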