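import Cfsg.Agent.Blocks.Height
import Cfsg.Agent.Blocks.Covering
import Cfsg.Agent.Chars2.DegreeRatio
import Cfsg.Agent.Chars2.DegreeInherit
import Cfsg.Prelude.Def_BrauerPairs

/-!
# Brauer pairs with a weight character
-/

set_option autoImplicit false
set_option linter.unusedSectionVars false
set_option linter.style.haveILetI false

namespace Cfsg.Agent.BlockChar

open Cfsg Cfsg.Agent
open scoped ComplexConjugate

universe u

variable {G : Type u} [Group G] [Fintype G]

theorem degree_ratio_dvd {N : Subgroup G} [N.Normal] [Fintype N] {χ : IrrCharacter G}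
    {θ : IrrCharacter N} (h : classInner (fun n : N => (χ : G → ℂ) n) (θ : N → ℂ) ≠ 0) :
    charDegree (θ : N → ℂ) ∣ charDegree (χ : G → ℂ) ∧
      charDegree (χ : G → ℂ) / charDegree (θ : N → ℂ) ∣ N.index := by
  obtain ⟨a, σ, hσi, hσ⟩ := χ.2
  obtain ⟨b, ρ, hρi, hρ⟩ := θ.2
  haveI := hσi
  haveI := hρi
  rw [← hσ, ← hρ] at h ⊢
  have h2 := Chars2.finrank_dvd_of_constituent ρ σ (Chars2.nontrivial_of_classInner σ ρ h)
  have hd : ∀ {H : Type u} [Group H] {m : ℕ} (τ : Representation ℂ H (Fin m → ℂ)),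
      charDegree τ.character = Module.finrank ℂ (Fin m → ℂ) := fun τ => by
    simp [charDegree, Representation.char_one]
  rw [hd σ, hd ρ]
  exact h2

variable {p : ℕ} [Fact p.Prime]

/-- Constituents of a weight character on normal subgroups above `Q`. -/
theorem weight_constituent {Q N : Subgroup G} [N.Normal] [Fintype N] [Q.Normal] (hQN : Q ≤ N)
    {χ : IrrCharacter G} (hχQ : ∀ q ∈ Q, (χ : G → ℂ) q = (χ : G → ℂ) 1)
    (hdeg : (charDegree (χ : G → ℂ)).factorization p + (Nat.card Q).factorization p =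
      (Nat.card G).factorization p)
    {φ : IrrCharacter N} (hφ : classInner (fun n : N => (χ : G → ℂ) n) (φ : N → ℂ) ≠ 0) :
    (∀ q : N, (q : G) ∈ Q → (φ : N → ℂ) q = (φ : N → ℂ) 1) ∧
      (Nat.card N).factorization p ≤
        (charDegree (φ : N → ℂ)).factorization p + (Nat.card Q).factorization p ∧
      charDegree (φ : N → ℂ) ^ 2 * Nat.card Q ≤ Nat.card N := by
  classical
  obtain ⟨d, hd0, hd⟩ := Chars.exists_irr_apply_one_eq φ.2
  have hdd : charDegree (φ : N → ℂ) = d := by
    have := (Blocks.charDegree_eq φ.2).1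
    rw [hd] at this
    exact_mod_cast this.symm
  have hker : ∀ q : N, (q : G) ∈ Q → (φ : N → ℂ) q = (φ : N → ℂ) 1 := by
    intro q hq
    let f : G → ℂ := fun g => if g ∈ Q then 1 else 0
    have hf : IsClassFunction G f := fun a c => by
      refine if_congr ⟨fun h => ?_, fun h => ‹Q.Normal›.conj_mem a h c⟩ rfl rfl
      simpa [mul_assoc] using ‹Q.Normal›.conj_mem _ h c⁻¹
    have h := Blocks.omega_eq_res hφ hf fun g hg => if_neg fun h => hg (hQN h)
    have hl : Blocks.omega (χ : G → ℂ) f = ((Finset.univ.filter (· ∈ Q)).card : ℂ) := by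
      rw [Blocks.omega, div_eq_iff (Chars.irr_apply_one_ne_zero χ.2)]
      simp only [f, ite_mul, one_mul, zero_mul, ← Finset.sum_filter]
      rw [Finset.sum_congr rfl fun g hg => hχQ g (Finset.mem_filter.1 hg).2, Finset.sum_const,
        nsmul_eq_mul]
    set S := Finset.univ.filter (fun n : N => (n : G) ∈ Q) with hS
    have hcard : S.card = (Finset.univ.filter (· ∈ Q)).card := by
      refine Finset.card_bij (fun n _ => (n : G)) (fun n hn => ?_) (fun a _ b _ e => Subtype.ext e)
        (fun g hg => ⟨⟨g, hQN (Finset.mem_filter.1 hg).2⟩, ?_, rfl⟩)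
      · exact Finset.mem_filter.2 ⟨Finset.mem_univ _, (Finset.mem_filter.1 hn).2⟩
      · exact Finset.mem_filter.2 ⟨Finset.mem_univ _, (Finset.mem_filter.1 hg).2⟩
    rw [hl, Blocks.omega, eq_div_iff (Chars.irr_apply_one_ne_zero φ.2), ← hcard] at h
    simp only [Blocks.resFun, f, ite_mul, one_mul, zero_mul, ← Finset.sum_filter] at h
    have hre := congrArg Complex.re h
    rw [Complex.re_sum, hd, ← Nat.cast_mul, Complex.natCast_re] at hre
    have hle : ∀ n ∈ S, ((φ : N → ℂ) n).re ≤ (d : ℝ) := fun n _ => by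
      refine (Complex.re_le_norm _).trans ((Chars.norm_le_of_isCharacter (Chars.irr_isCharacter φ) n).trans_eq ?_)
      rw [hd, Complex.natCast_re]
    have heq : ∑ n ∈ S, ((φ : N → ℂ) n).re = ∑ _n ∈ S, (d : ℝ) := by
      rw [Finset.sum_const, nsmul_eq_mul]
      push_cast at hre
      exact hre.symm
    have hqS : q ∈ S := Finset.mem_filter.2 ⟨Finset.mem_univ _, hq⟩
    have hqre := (Finset.sum_eq_sum_iff_of_le hle).1 heq q hqS
    have hnorm := Chars.norm_le_of_isCharacter (Chars.irr_isCharacter φ) q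
    rw [hd, Complex.natCast_re] at hnorm
    rw [hd]
    refine Complex.ext (by rw [hqre, Complex.natCast_re]) ?_
    rw [Complex.natCast_im]
    have h2 : ((φ : N → ℂ) q).re * ((φ : N → ℂ) q).re + ((φ : N → ℂ) q).im * ((φ : N → ℂ) q).im ≤
        (d : ℝ) * d := by
      rw [← Complex.normSq_apply, Complex.normSq_eq_norm_sq, sq]
      exact mul_le_mul hnorm hnorm (norm_nonneg _) (Nat.cast_nonneg _)
    rw [hqre] at h2
    nlinarith [mul_self_nonneg ((φ : N → ℂ) q).im]
  refine ⟨hker, ?_, ?_⟩
  · obtain ⟨h1, h2⟩ := degree_ratio_dvd hφ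
    have hχ0 : 0 < charDegree (χ : G → ℂ) := (Blocks.charDegree_eq χ.2).2
    obtain ⟨r, hr⟩ := h1
    rw [hdd] at hr h2 ⊢
    rw [hr, Nat.mul_div_cancel_left _ hd0] at h2
    have hr0 : r ≠ 0 := fun e => by rw [e, mul_zero] at hr; omega
    have hN0 : N.index ≠ 0 := Subgroup.index_ne_zero_of_finite
    have h3 : r.factorization p ≤ N.index.factorization p :=
      (Nat.factorization_le_iff_dvd hr0 hN0).2 h2 p
    have h4 : (Nat.card G).factorization p =
        (Nat.card N).factorization p + N.index.factorization p := by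
      rw [← Subgroup.card_mul_index N, Nat.factorization_mul Nat.card_pos.ne' hN0, Finsupp.add_apply]
    rw [hr, Nat.factorization_mul hd0.ne' hr0, Finsupp.add_apply] at hdeg
    omega
  · have h := Chars.classInner_self_irr φ.2
    rw [Chars.classInner_def, inv_mul_eq_iff_eq_mul₀ Chars.card_ne_zero, mul_one] at h
    simp only [Complex.mul_conj] at h
    rw [← Complex.ofReal_sum, ← Complex.ofReal_natCast, Complex.ofReal_inj] at h
    have hle := Finset.sum_le_sum_of_subset_of_nonneg
      (Finset.subset_univ (Finset.univ.filter fun n : N => (n : G) ∈ Q))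
      fun n _ _ => Complex.normSq_nonneg ((φ : N → ℂ) n)
    rw [h, Finset.sum_congr rfl (g := fun _ => ((d ^ 2 : ℕ) : ℝ)) fun n hn => ?_, Finset.sum_const,
      nsmul_eq_mul, ← Nat.cast_mul, Nat.cast_le] at hle
    · rw [hdd, mul_comm]
      refine le_trans (le_of_eq ?_) hle
      congr 1
      rw [← Fintype.card_subtype, ← Nat.card_eq_fintype_card]
      exact Nat.card_congr ⟨fun q => ⟨⟨q, hQN q.2⟩, q.2⟩, fun n => ⟨n.1.1, n.2⟩,
        fun _ => rfl, fun _ => rfl⟩
    · rw [hker n (Finset.mem_filter.1 hn).2, hd, Complex.normSq_natCast, sq, Nat.cast_mul]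

theorem weight_pair {M : Ideal AlgInt} [M.IsMaximal] (hpM : (p : AlgInt) ∈ M) {Q : Subgroup G}
    (hQ : IsPGroup p Q) {C : Subgroup G} (hC : C = Subgroup.centralizer (Q : Set G)) [Fintype C]
    {e : Set (IrrCharacter C)} (he : IsPBlock M e) {T : Subgroup G}
    [Fintype T] (hT : ∀ y : G, y ∈ T ↔ y ∈ Subgroup.normalizer (Q : Set G) ∧
      StabilizesBlock C e y) {F' : Set (IrrCharacter T)}
    (hF'e : ∀ t : T, blockCoeff F' t = subgroupBlockCoeff C e (t : G))
    {χ : IrrCharacter T} (hχ : χ ∈ F')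
    (hχQ : ∀ q : G, q ∈ Q → ∀ t : T, ∀ t' : T, (t' : G) = q * (t : G) → (χ : T → ℂ) t' = (χ : T → ℂ) t)
    (hdeg : (charDegree (χ : T → ℂ)).factorization p + (Nat.card Q).factorization p =
      (Nat.card T).factorization p) :
    IsDefectGroup p M e ((Q ⊓ C).subgroupOf
      C) ∧
    ∀ R : Subgroup G, R ≤ T → IsPGroup p R → (∀ t ∈ T, t ∈ Subgroup.normalizer (R : Set G)) → R ≤ Q := by
  classical
  have hstab : ∀ g, g ∈ Subgroup.normalizer (C : Set G) →
      (∀ (χ : IrrCharacter C) (k k' : C), (k' : G) = g * k * g⁻¹ → (χ : C → ℂ) k' = (χ : C → ℂ) k) →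
        StabilizesBlock C e g := fun g hg h => ⟨hg, fun χ hχ => ⟨χ, hχ, h χ⟩⟩
  have hCN : C ≤ Subgroup.normalizer (Q : Set G) := fun g hg => by
    rw [Subgroup.mem_normalizer_iff]
    intro q
    rw [hC, Subgroup.mem_centralizer_iff] at hg
    constructor
    · intro hq
      rw [show g * q * g⁻¹ = q by rw [← hg q hq, mul_inv_cancel_right]]
      exact hq
    · intro hq
      have e : g⁻¹ * (g * q * g⁻¹) * g = g * q * g⁻¹ := by
        rw [mul_assoc g⁻¹, hg _ hq, inv_mul_cancel_left]
      rw [show g⁻¹ * (g * q * g⁻¹) * g = q by group] at e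
      rwa [e]
  have hNC : ∀ g ∈ Subgroup.normalizer (Q : Set G), ∀ c ∈ C, g * c * g⁻¹ ∈ C := by
    intro g hg c hc
    rw [hC, Subgroup.mem_centralizer_iff] at hc ⊢
    intro q hq
    have h1 : g⁻¹ * q * g ∈ Q := by
      have := (Subgroup.mem_normalizer_iff.1 ((Subgroup.normalizer (Q : Set G)).inv_mem hg) q).1 hq
      rwa [inv_inv] at this
    calc q * (g * c * g⁻¹) = g * ((g⁻¹ * q * g) * c) * g⁻¹ := by group
      _ = g * (c * (g⁻¹ * q * g)) * g⁻¹ := by rw [hc _ h1]
      _ = _ := by group
  have hnormC : ∀ g ∈ Subgroup.normalizer (Q : Set G), g ∈ Subgroup.normalizer (C : Set G) := by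
    intro g hg
    rw [Subgroup.mem_normalizer_iff]
    refine fun c => ⟨hNC g hg c, fun h => ?_⟩
    have := hNC g⁻¹ ((Subgroup.normalizer (Q : Set G)).inv_mem hg) _ h
    simpa [mul_assoc] using this
  have hQT : Q ≤ T := fun q hq => by
    refine (hT q).2 ⟨Subgroup.le_normalizer hq, hstab q (hnormC q (Subgroup.le_normalizer hq))
      fun χ k k' h => congrArg _ (Subtype.ext ?_)⟩
    rw [h, Subgroup.mem_centralizer_iff.1 (hC ▸ k.2 : (k : G) ∈ Subgroup.centralizer (Q : Set G)) q hq, mul_inv_cancel_right]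
  have hCT : C ≤ T := fun g hg => by
    refine (hT g).2 ⟨hCN hg, hstab g (hnormC g (hCN hg)) fun χ k k' h => ?_⟩
    rw [← Chars.isClassFunction_irr χ k ⟨g, hg⟩]
    exact congrArg _ (Subtype.ext h)
  set QT := Q.subgroupOf T with hQTdef
  set CT := C.subgroupOf T with hCTdef
  haveI hQTn : QT.Normal := ⟨fun a ha t => by
    rw [hQTdef, Subgroup.mem_subgroupOf] at ha ⊢
    exact (Subgroup.mem_normalizer_iff.1 ((hT t).1 t.2).1 _).1 ha⟩
  haveI hCTn : CT.Normal := ⟨fun a ha t => by
    rw [hCTdef, Subgroup.mem_subgroupOf] at ha ⊢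
    exact hNC _ ((hT t).1 t.2).1 _ ha⟩
  have hQTc : Nat.card QT = Nat.card Q := Nat.card_congr (Subgroup.subgroupOfEquivOfLe hQT).toEquiv
  have hχQ' : ∀ q ∈ QT, (χ : T → ℂ) q = (χ : T → ℂ) 1 := fun q hq =>
    hχQ q hq 1 q (by simp)
  have hdeg' : (charDegree (χ : T → ℂ)).factorization p + (Nat.card QT).factorization p =
      (Nat.card T).factorization p := by rw [hQTc]; exact hdeg
  constructor
  · set N := QT ⊔ CT with hN
    haveI : N.Normal := Subgroup.sup_normal QT CT
    haveI := Fintype.ofFinite N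
    obtain ⟨φ, hφ⟩ := Blocks.exists_constituent (N := N) χ
    obtain ⟨hker, hlow, -⟩ := weight_constituent (le_sup_left : QT ≤ N) hχQ' hdeg' hφ
    let ι : C →* N :=
      { toFun := fun c => ⟨⟨c, hCT c.2⟩, Subgroup.mem_sup_right (show (⟨(c : G), hCT c.2⟩ : T) ∈ CT from c.2)⟩
        map_one' := rfl
        map_mul' := fun _ _ => rfl }
    have hιG : ∀ c, (((ι c : N) : T) : G) = (c : G) := fun _ => rfl
    set η : C → ℂ := (φ : N → ℂ) ∘ ι with hη
    set Z := (Q ⊓ C).subgroupOf C with hZdef
    have hZc : Nat.card Z = Nat.card (Q ⊓ C : Subgroup G) :=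
      Nat.card_congr (Subgroup.subgroupOfEquivOfLe inf_le_right).toEquiv
    -- sums over `N`
    have hsum : ∀ F : N → ℝ, (∀ (q : QT) (n : N),
        F (⟨(q : T), Subgroup.mem_sup_left q.2⟩ * n) = F n) →
        (Nat.card Q : ℝ) * ∑ c : C, F (ι c) = (Nat.card Z : ℝ) * ∑ n : N, F n := by
      intro F hF
      haveI := Fintype.ofFinite QT
      let em : QT → N := fun q => ⟨(q : T), Subgroup.mem_sup_left q.2⟩
      have h1 : (Nat.card Q : ℝ) * ∑ c : C, F (ι c) = ∑ q : QT, ∑ c : C, F (em q * ι c) := by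
        rw [Finset.sum_congr rfl fun q _ => Finset.sum_congr rfl fun c _ => hF q (ι c),
          Finset.sum_const, nsmul_eq_mul, Finset.card_univ, ← Nat.card_eq_fintype_card, hQTc]
      rw [h1, ← Finset.sum_product', ← Finset.sum_fiberwise (Finset.univ ×ˢ Finset.univ)
        (fun x : QT × C => em x.1 * ι x.2), Finset.mul_sum]
      refine Finset.sum_congr rfl fun n _ => ?_
      rw [Finset.sum_congr rfl (g := fun _ => F n) fun x hx => by
        rw [(Finset.mem_filter.1 hx).2], Finset.sum_const, nsmul_eq_mul]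
      congr 2
      obtain ⟨a, ha, b, hb, hab⟩ := Subgroup.mem_sup_of_normal_right.1 n.2
      haveI := Fintype.ofFinite Z
      rw [Nat.card_eq_fintype_card, ← Finset.card_univ]
      symm
      refine Finset.card_bij (fun z _ => ((⟨a * ⟨((z : C) : G), hCT (z : C).2⟩,
          QT.mul_mem ha (show (⟨((z : C) : G), hCT (z : C).2⟩ : T) ∈ QT from z.2.1)⟩ : QT),
          (z : C)⁻¹ * (⟨(b : G), hb⟩ : C))) (fun z _ => ?_) (fun z _ w _ e => ?_) (fun x hx => ?_)
      · simp only [Finset.mem_filter, Finset.mem_product, Finset.mem_univ, true_and]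
        refine Subtype.ext (Subtype.ext ?_)
        rw [← hab]
        show ((a : T) : G) * ((z : C) : G) * (((z : C) : G)⁻¹ * (b : G)) = (a : G) * (b : G)
        group
      · have e1 := congrArg (fun x : QT × C => ((x.1 : T) : G)) e
        exact Subtype.ext (Subtype.ext (mul_left_cancel e1))
      · obtain ⟨q, c⟩ := x
        simp only [Finset.mem_filter, Finset.mem_product, Finset.mem_univ, true_and] at hx
        have he : ((q : T) : G) * (c : G) = (a : G) * (b : G) := by
          have := congrArg (fun m : N => ((m : T) : G)) hx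
          simpa [em, hιG, ← hab] using this
        have hzQ : (a : G)⁻¹ * ((q : T) : G) ∈ Q := Q.mul_mem (Q.inv_mem ha) q.2
        have hzeq : (a : G)⁻¹ * ((q : T) : G) = (b : G) * (c : G)⁻¹ := by
          rw [eq_mul_inv_iff_mul_eq, mul_assoc, he, inv_mul_cancel_left]
        have hzC : (a : G)⁻¹ * ((q : T) : G) ∈ C := hzeq ▸ C.mul_mem hb (C.inv_mem c.2)
        refine ⟨⟨⟨_, hzC⟩, hzQ, hzC⟩, Finset.mem_univ _, Prod.ext (Subtype.ext (Subtype.ext ?_))
          (Subtype.ext ?_)⟩
        · show (a : G) * ((a : G)⁻¹ * ((q : T) : G)) = _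
          group
        · show ((a : G)⁻¹ * ((q : T) : G))⁻¹ * (b : G) = (c : G)
          rw [hzeq]; group
    have htrans : ∀ (q : QT) (n : N),
        (φ : N → ℂ) (⟨(q : T), Subgroup.mem_sup_left q.2⟩ * n) = (φ : N → ℂ) n := fun q n =>
      Chars.apply_mul_of_mem_charKer (Chars.irr_isCharacter φ) n (hker _ q.2)
    have hcard : (Nat.card Q) * Nat.card C = Nat.card Z * Nat.card N := by
      have := hsum (fun _ => 1) (fun _ _ => rfl)
      simp only [Finset.sum_const, nsmul_eq_mul, mul_one, Finset.card_univ,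
        ← Nat.card_eq_fintype_card] at this
      exact_mod_cast this
    have hηirr : IsIrrCharacter C η := by
      refine Chars.isIrrCharacter_of_norm_one (Chars.isCharacter_comp (Chars.irr_isCharacter φ) ι) ?_
      have h := Chars.classInner_self_irr φ.2
      rw [Chars.classInner_def, inv_mul_eq_iff_eq_mul₀ Chars.card_ne_zero, mul_one] at h ⊢
      simp only [Complex.mul_conj, hη, Function.comp_apply] at h ⊢
      rw [← Complex.ofReal_sum, ← Complex.ofReal_natCast, Complex.ofReal_inj] at h ⊢
      have h2 := hsum (fun n => Complex.normSq ((φ : N → ℂ) n)) fun q n => by rw [htrans]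
      rw [h, ← Nat.cast_mul, ← hcard, Nat.cast_mul] at h2
      exact mul_left_cancel₀ (Nat.cast_ne_zero.2 (Nat.card_pos (α := Q)).ne') h2
    let η' : IrrCharacter C := ⟨η, hηirr⟩
    have hη1 : η 1 = (φ : N → ℂ) 1 := by rw [hη, Function.comp_apply, map_one]
    have hηe : η' ∈ e := by
      by_contra hne
      have h0 := Blocks.omega_blockCoeff_not_mem hne
      have h1 := Blocks.omega_blockCoeff_mem hχ
      rw [Blocks.omega_eq_res hφ (Blocks.isClassFunction_blockCoeff F') fun t ht => by
        rw [hF'e, subgroupBlockCoeff, dif_neg (show ¬ (t : G) ∈ C from fun h => ht (Subgroup.mem_sup_right (show t ∈ CT from h)))]] at h1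
      refine one_ne_zero (h1.symm.trans (Eq.trans ?_ h0))
      rw [Blocks.omega, Blocks.omega, show (η' : C → ℂ) 1 = (φ : N → ℂ) 1 from hη1]
      congr 1
      rw [← Finset.sum_subset (Finset.subset_univ (Finset.univ.image ι)) fun n _ hn => ?_,
        Finset.sum_image fun a _ b _ h => Subtype.ext (by rw [← hιG a, h, hιG])]
      · refine Finset.sum_congr rfl fun c _ => ?_
        show blockCoeff F' ((ι c : N) : T) * _ = blockCoeff e c * _
        rw [hF'e, subgroupBlockCoeff, dif_pos (show (((ι c : N) : T) : G) ∈ C from c.2)]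
        rfl
      · have hnC : ((n : T) : G) ∉ C := fun h => hn (Finset.mem_image.2
          ⟨⟨_, h⟩, Finset.mem_univ _, Subtype.ext (Subtype.ext rfl)⟩)
        show blockCoeff F' (n : T) * _ = 0
        rw [hF'e, subgroupBlockCoeff, dif_neg hnC, zero_mul]
    have hZc' : Z ≤ Subgroup.center C := fun z hz => Subgroup.mem_center_iff.2 fun c => Subtype.ext
      (Subgroup.mem_centralizer_iff.1 (hC ▸ c.2 : (c : G) ∈ Subgroup.centralizer (Q : Set G)) _ hz.1).symm
    haveI hZn : Z.Normal := ⟨fun a ha b => by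
      rw [Subgroup.mem_center_iff.1 (hZc' ha) b, mul_inv_cancel_right]; exact ha⟩
    have hdle : (charDegree η).factorization p ≤ Z.index.factorization p :=
      (Nat.factorization_le_iff_dvd (Blocks.charDegree_eq hηirr).2.ne'
        Subgroup.index_ne_zero_of_finite).2
        (Chars2.charDegree_dvd_index (A := Z)
          (fun a ha b _ => (Subgroup.mem_center_iff.1 (hZc' ha) b).symm) η') p
    have hdeq : charDegree η = charDegree (φ : N → ℂ) := by simp only [charDegree, hη1]
    have hZi : (Nat.card C).factorization p =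
        (Nat.card Z).factorization p + Z.index.factorization p := by
      rw [← Subgroup.card_mul_index Z,
        Nat.factorization_mul Nat.card_pos.ne' Subgroup.index_ne_zero_of_finite, Finsupp.add_apply]
    have hNf : (Nat.card Q).factorization p + (Nat.card C).factorization p =
        (Nat.card Z).factorization p + (Nat.card N).factorization p := by
      have := congrArg (fun n : ℕ => n.factorization p) hcard
      rwa [Nat.factorization_mul Nat.card_pos.ne' Nat.card_pos.ne',
        Nat.factorization_mul Nat.card_pos.ne' Nat.card_pos.ne', Finsupp.add_apply, Finsupp.add_apply] at this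
    rw [hQTc] at hlow
    have hdeg2 : (charDegree (η' : C → ℂ)).factorization p = Z.index.factorization p := by
      show (charDegree η).factorization p = _
      rw [hdeq] at hdle ⊢
      have hlow' : (Nat.card N).factorization p ≤
          (charDegree (φ : N → ℂ)).factorization p + (Nat.card Q).factorization p := hlow
      omega
    have hd := Blocks.central_defect hpM Z
      ((hQ.to_le inf_le_left).of_equiv (Subgroup.subgroupOfEquivOfLe inf_le_right).symm) hZc' η' hdeg2
    rwa [← Blocks.block_eq_of_mem he hηe] at hd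
  · intro R hRT hR hRn
    set RT := R.subgroupOf T with hRTdef
    haveI hRTn : RT.Normal := ⟨fun a ha t => by
      rw [hRTdef, Subgroup.mem_subgroupOf] at ha ⊢
      exact (Subgroup.mem_normalizer_iff.1 (hRn t t.2) _).1 ha⟩
    set N := QT ⊔ RT with hN
    haveI : N.Normal := Subgroup.sup_normal QT RT
    haveI := Fintype.ofFinite N
    obtain ⟨φ, hφ⟩ := Blocks.exists_constituent (N := N) χ
    obtain ⟨-, hlow, hsq⟩ := weight_constituent (le_sup_left : QT ≤ N) hχQ' hdeg' hφ
    have hNp : IsPGroup p N :=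
      (hQ.of_equiv (Subgroup.subgroupOfEquivOfLe hQT).symm).to_sup_of_normal_left
        (hR.of_equiv (Subgroup.subgroupOfEquivOfLe hRT).symm)
    have hQp : IsPGroup p QT := hQ.of_equiv (Subgroup.subgroupOfEquivOfLe hQT).symm
    obtain ⟨a, ha⟩ := hNp.exists_card_eq
    obtain ⟨b, hb⟩ := hQp.exists_card_eq
    rw [ha, hb, (Fact.out : p.Prime).factorization_pow, (Fact.out : p.Prime).factorization_pow,
      Finsupp.single_eq_same, Finsupp.single_eq_same] at hlow
    have hφ0 : 0 < charDegree (φ : N → ℂ) := (Blocks.charDegree_eq φ.2).2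
    have hge : p ^ (a - b) ≤ charDegree (φ : N → ℂ) :=
      Nat.le_of_dvd hφ0 (((Fact.out : p.Prime).pow_dvd_iff_le_factorization hφ0.ne').2 (by omega))
    have h2 : p ^ (2 * (a - b) + b) ≤ p ^ a := by
      rw [pow_add, mul_comm 2, pow_mul, ← ha]
      refine le_trans ?_ hsq
      rw [← hb]
      exact Nat.mul_le_mul_right _ (Nat.pow_le_pow_left hge 2)
    have h3 := (Nat.pow_le_pow_iff_right (Fact.out : p.Prime).one_lt).1 h2
    have hab : b ≤ a := by
      have := Subgroup.card_le_of_le (le_sup_left : QT ≤ N)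
      rw [ha, hb] at this
      exact (Nat.pow_le_pow_iff_right (Fact.out : p.Prime).one_lt).1 this
    have heq : QT = N := Subgroup.eq_of_le_of_card_ge le_sup_left
      (le_of_eq (by rw [ha, hb, show a = b by omega]))
    intro r hr
    have : (⟨r, hRT hr⟩ : T) ∈ QT := heq ▸ Subgroup.mem_sup_right hr
    exact this

end Cfsg.Agent.BlockChar
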